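import Mathlib
import Cfsg.Agent.Helper4.Supersolvable2
import Cfsg.Agent.Helper4.MaxPrimeIndex

set_option autoImplicit false

namespace Cfsg.Agent.Helper4

universe u

open scoped Pointwise

theorem conj_smul_eq_of_mem_normalizer {G : Type*} [Group G] (P : Subgroup G) {x : G}
    (hx : x ∈ Subgroup.normalizer (P : Set G)) : MulAut.conj x • P = P := by
  ext z
  rw [Subgroup.mem_pointwise_smul_iff_inv_smul_mem, ← map_inv, MulAut.smul_def,
    MulAut.conj_apply, inv_inv]
  exact ((Subgroup.mem_normalizer_iff''.mp hx) z).symm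

/-- In a supersolvable subgroup `H`, for the largest prime `p`, the Sylow `p`-subgroup is normal
and has a (supersolvable) complement. -/
theorem ss_sylow_split {G : Type u} [Group G] [Finite G] (H : Subgroup G)
    (hH : Cfsg.IsSupersolvable H) (p : ℕ) [Fact p.Prime]
    (hmax : ∀ q : ℕ, q.Prime → q ∣ Nat.card H → q ≤ p) :
    ∃ P H₀ : Subgroup G, P ≤ H ∧ H₀ ≤ H ∧ H ≤ Subgroup.normalizer (P : Set G) ∧ P ⊔ H₀ = H ∧
      Nat.card P = p ^ (Nat.card H).factorization p ∧ Nat.card P * Nat.card H₀ = Nat.card H ∧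
      (Nat.card P).Coprime (Nat.card H₀) ∧ Cfsg.IsSupersolvable H₀ := by
  have hco : ∀ M : Subgroup H, IsCoatom M → M.index.Prime := coatom_index_prime_aux _ H rfl hH
  obtain ⟨PH⟩ : Nonempty (Sylow p H) := inferInstance
  haveI hPn : (PH : Subgroup H).Normal := sylow_normal_of_max_prime_index hco p hmax PH
  obtain ⟨Hc, hHc⟩ := Subgroup.exists_right_complement'_of_coprime (N := (PH : Subgroup H))
    PH.card_coprime_index
  refine ⟨(PH : Subgroup H).map H.subtype, Hc.map H.subtype, ?_, ?_, ?_, ?_, ?_, ?_, ?_, ?_⟩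
  · exact Subgroup.map_subtype_le _
  · exact Subgroup.map_subtype_le _
  · rw [Subgroup.le_normalizer_iff]
    rintro h hh _ ⟨y, hy, rfl⟩
    exact ⟨⟨h, hh⟩ * y * ⟨h, hh⟩⁻¹, hPn.conj_mem y hy ⟨h, hh⟩, by simp⟩
  · rw [← Subgroup.map_sup, hHc.sup_eq_top, ← MonoidHom.range_eq_map, Subgroup.range_subtype]
  · rw [Subgroup.card_subtype]; exact PH.card_eq_multiplicity
  · rw [Subgroup.card_subtype, Subgroup.card_subtype]; exact hHc.card_mul_card
  · rw [Subgroup.card_subtype, Subgroup.card_subtype, ← hHc.symm.index_eq_card]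
    exact PH.card_coprime_index
  · exact isSupersolvable_of_mulEquiv
      (Subgroup.equivMapOfInjective Hc H.subtype H.subtype_injective)
      (isSupersolvable_subgroup Hc hH)

theorem ss_hall_conj_aux : ∀ (c : ℕ) (G : Type u) [Group G] [Finite G] (H K : Subgroup G),
    Nat.card H = c → Cfsg.IsSupersolvable H → Cfsg.IsSupersolvable K →
    Nat.card H = Nat.card K → (Nat.card H).Coprime H.index →
    ∃ x : G, MulAut.conj x • H = K := by
  intro c
  induction c using Nat.strong_induction_on with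
  | _ c ih =>
    intro G _ _ H K hc hH hK hcard hHall
    by_cases hc1 : c ≤ 1
    · have h1 : Nat.card H = 1 := by have := Nat.card_pos (α := H); omega
      have hHb : H = ⊥ := Subgroup.eq_bot_of_card_eq H h1
      have hKb : K = ⊥ := Subgroup.eq_bot_of_card_eq K (hcard ▸ h1)
      refine ⟨1, ?_⟩
      rw [hHb, hKb]; simp
    push_neg at hc1
    obtain ⟨p, hp, hpd, hmax⟩ := exists_max_prime_dvd c hc1
    haveI : Fact p.Prime := ⟨hp⟩
    obtain ⟨P₁, H₀, hP₁H, hH₀H, hHN, hPH, hP₁c, hmul₁, hcop₁, hH₀ss⟩ :=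
      ss_sylow_split H hH p (by rw [hc]; exact hmax)
    obtain ⟨P₂, K₀, hP₂K, hK₀K, hKN, hPK, hP₂c, hmul₂, hcop₂, hK₀ss⟩ :=
      ss_sylow_split K hK p (by rw [← hcard, hc]; exact hmax)
    have hc0 : c ≠ 0 := by omega
    have hGfac : (Nat.card G).factorization p = c.factorization p := by
      rw [← Subgroup.card_mul_index H, hc]
      have hidx : H.index ≠ 0 := Subgroup.index_ne_zero_of_finite
      rw [Nat.factorization_mul hc0 hidx]
      have : ¬ p ∣ H.index := by
        intro hd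
        have h1 : p ∣ Nat.gcd c H.index := Nat.dvd_gcd hpd hd
        rw [hc] at hHall
        rw [hHall.gcd_eq_one] at h1
        exact hp.one_lt.ne' (Nat.dvd_one.mp h1)
      simp [Nat.factorization_eq_zero_of_not_dvd this]
    have hP₁S : Nat.card P₁ = p ^ (Nat.card G).factorization p := by rw [hP₁c, hGfac, hc]
    have hP₂S : Nat.card P₂ = p ^ (Nat.card G).factorization p := by
      rw [hP₂c, hGfac, ← hcard, hc]
    obtain ⟨g, hg⟩ := MulAction.exists_smul_eq G (Sylow.ofCard P₁ hP₁S) (Sylow.ofCard P₂ hP₂S)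
    have hg' : MulAut.conj g • P₁ = P₂ := by
      have h1 : ((g • Sylow.ofCard P₁ hP₁S : Sylow p G) : Subgroup G) = P₂ := by rw [hg]; rfl
      rw [Sylow.smul_def, Sylow.pointwise_smul_def] at h1
      exact h1
    have hH'eq : MulAut.conj g • H = P₂ ⊔ MulAut.conj g • H₀ := by
      rw [← hPH, Subgroup.smul_sup, hg']
    have hH₁N : MulAut.conj g • H₀ ≤ Subgroup.normalizer (P₂ : Set G) := by
      rw [Subgroup.le_normalizer_iff, ← hg']
      rintro _ ⟨w, hw, rfl⟩ _ ⟨z, hz, rfl⟩
      refine ⟨w * z * w⁻¹, Subgroup.le_normalizer_iff.mp hHN w (hH₀H hw) z hz, ?_⟩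
      simp
    have hK₀N : K₀ ≤ Subgroup.normalizer (P₂ : Set G) := hK₀K.trans hKN
    have hpa : 1 < Nat.card P₁ := by
      rw [hP₁c, hc]
      have : 0 < c.factorization p := hp.factorization_pos_of_dvd hc0 hpd
      exact Nat.one_lt_pow (by omega) hp.one_lt
    have hcardH₀ : Nat.card H₀ < c := by
      rw [← hc, ← hmul₁]
      have : 0 < Nat.card H₀ := Nat.card_pos
      nlinarith
    have hcardH₁ : Nat.card (MulAut.conj g • H₀ : Subgroup G) = Nat.card H₀ :=
      Nat.card_congr (Subgroup.equivSMul (MulAut.conj g) H₀).toEquiv.symm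
    have hcardK₀ : Nat.card K₀ = Nat.card H₀ := by
      have h1 : Nat.card P₁ = Nat.card P₂ := by rw [hP₁S, hP₂S]
      have h2 : Nat.card P₁ * Nat.card K₀ = Nat.card P₁ * Nat.card H₀ := by
        rw [hmul₁, h1, hmul₂, hcard]
      exact Nat.eq_of_mul_eq_mul_left (by omega) h2
    obtain ⟨N, hN⟩ : ∃ N : Subgroup G, N = Subgroup.normalizer (P₂ : Set G) := ⟨_, rfl⟩
    rw [← hN] at hH₁N hK₀N
    have e1 : ↥((MulAut.conj g • H₀).subgroupOf N) ≃* ↥(MulAut.conj g • H₀ : Subgroup G) :=
      Subgroup.subgroupOfEquivOfLe hH₁N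
    have e2 : ↥(K₀.subgroupOf N) ≃* ↥K₀ := Subgroup.subgroupOfEquivOfLe hK₀N
    have hc1' : Nat.card ((MulAut.conj g • H₀).subgroupOf N) = Nat.card H₀ :=
      (Nat.card_congr e1.toEquiv).trans hcardH₁
    have hc2' : Nat.card (K₀.subgroupOf N) = Nat.card H₀ :=
      (Nat.card_congr e2.toEquiv).trans hcardK₀
    have hss1 : Cfsg.IsSupersolvable ↥((MulAut.conj g • H₀).subgroupOf N) :=
      isSupersolvable_of_mulEquiv e1.symm
        (isSupersolvable_of_mulEquiv (Subgroup.equivSMul (MulAut.conj g) H₀) hH₀ss)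
    have hss2 : Cfsg.IsSupersolvable ↥(K₀.subgroupOf N) :=
      isSupersolvable_of_mulEquiv e2.symm hK₀ss
    have hHall' : (Nat.card ((MulAut.conj g • H₀).subgroupOf N)).Coprime
        ((MulAut.conj g • H₀).subgroupOf N).index := by
      rw [hc1']
      have hdvd : ((MulAut.conj g • H₀).subgroupOf N).index ∣
          (MulAut.conj g • H₀ : Subgroup G).index :=
        Dvd.intro _ (Subgroup.relIndex_mul_index hH₁N)
      refine Nat.Coprime.coprime_dvd_right hdvd ?_
      have hidx : (MulAut.conj g • H₀ : Subgroup G).index = Nat.card P₁ * H.index := by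
        have h1 := Subgroup.card_mul_index (MulAut.conj g • H₀ : Subgroup G)
        have h2 := Subgroup.card_mul_index H
        rw [hcardH₁] at h1
        have h3 : Nat.card H₀ * (MulAut.conj g • H₀ : Subgroup G).index =
            Nat.card H₀ * (Nat.card P₁ * H.index) := by
          rw [h1, ← h2, ← hmul₁]; ring
        exact Nat.eq_of_mul_eq_mul_left Nat.card_pos h3
      rw [hidx]
      apply Nat.Coprime.mul_right
      · exact hcop₁.symm
      · exact Nat.Coprime.coprime_dvd_left (Dvd.intro_left _ hmul₁) hHall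
    obtain ⟨n, hn⟩ := ih (Nat.card H₀) hcardH₀ N ((MulAut.conj g • H₀).subgroupOf N)
      (K₀.subgroupOf N) hc1' hss1 hss2 (hc1'.trans hc2'.symm) hHall'
    rw [Subgroup.conj_smul_subgroupOf hH₁N n] at hn
    have hn' : MulAut.conj (n : G) • (MulAut.conj g • H₀) = K₀ := by
      have h1 : MulAut.conj (n : G) • (MulAut.conj g • H₀) ≤ N :=
        Subgroup.conj_smul_le_of_le hH₁N n
      have := congrArg (Subgroup.map N.subtype) hn
      rwa [Subgroup.map_subgroupOf_eq_of_le h1, Subgroup.map_subgroupOf_eq_of_le hK₀N] at this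
    refine ⟨(n : G) * g, ?_⟩
    have hnN : (n : G) ∈ Subgroup.normalizer (P₂ : Set G) := by rw [← hN]; exact n.2
    rw [map_mul, mul_smul, hH'eq, Subgroup.smul_sup, hn', conj_smul_eq_of_mem_normalizer P₂ hnN,
      hPK]

end Cfsg.Agent.Helper4
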