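import Cfsg.Agent.S3969
import Mathlib

set_option autoImplicit false

namespace Cfsg.Agent.Helper4

universe u

theorem rank_le_one_of_card_le_two {P : Type*} [Group P] [Finite P] (h : Nat.card P ≤ 2) :
    Group.rank P ≤ 1 := by
  have hc : IsCyclic P := by
    have hpos : 0 < Nat.card P := Nat.card_pos
    rcases Nat.lt_or_ge (Nat.card P) 2 with h1 | h1
    · have h2 : Nat.card P = 1 := by omega
      haveI : Subsingleton P := (Nat.card_eq_one_iff_unique.mp h2).1
      exact isCyclic_of_subsingleton
    · have h2 : Nat.card P = 2 := by omega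
      haveI : Fact (Nat.Prime 2) := ⟨Nat.prime_two⟩
      exact isCyclic_of_prime_card h2
  obtain ⟨g, hg⟩ := isCyclic_iff_exists_zpowers_eq_top.mp hc
  have h1 : Subgroup.closure ((({g} : Finset P)) : Set P) = ⊤ := by
    rw [Finset.coe_singleton, ← Subgroup.zpowers_eq_closure]
    exact hg
  have h2 := Group.rank_le h1
  rwa [Finset.card_singleton] at h2

theorem solvable_of_normal_complement {G : Type*} [Group G] (N K : Subgroup G) [hN : N.Normal]
    (hc : N.IsComplement' K) [Group.IsSolvable N] [Group.IsSolvable K] : Group.IsSolvable G := by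
  have hsurj : Function.Surjective ((QuotientGroup.mk' N).comp K.subtype) := by
    intro y
    obtain ⟨g, rfl⟩ := QuotientGroup.mk'_surjective N y
    have hg : g ∈ N ⊔ K := by rw [hc.sup_eq_top]; trivial
    rw [Subgroup.mem_sup_of_normal_left] at hg
    obtain ⟨a, ha, b, hb, rfl⟩ := hg
    refine ⟨⟨b, hb⟩, ?_⟩
    simp only [MonoidHom.comp_apply, Subgroup.subtype_apply, QuotientGroup.mk'_apply]
    rw [QuotientGroup.mk_mul, (QuotientGroup.eq_one_iff a).mpr ha, one_mul]
  haveI : Group.IsSolvable (G ⧸ N) := Group.isSolvable_of_surjective hsurj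
  exact Group.isSolvable_of_ker_le_range N.subtype (QuotientGroup.mk' N)
    (by rw [QuotientGroup.ker_mk', Subgroup.range_subtype])

theorem solvable_of_abelian_rank_two_aux : ∀ (n : ℕ) (G : Type u) [Group G] [Finite G],
    Nat.card G = n →
    (∀ p : ℕ, p.Prime → p ∣ Nat.card G → (∃ q : ℕ, q.Prime ∧ q ∣ Nat.card G ∧ p < q) →
      ∀ P : Sylow p G, IsMulCommutative (P : Subgroup G) ∧ Group.rank (P : Subgroup G) ≤ 2) →
    ¬ 12 ∣ Nat.card G → Group.IsSolvable G := by
  intro n
  induction n using Nat.strong_induction_on with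
  | _ n ih =>
  intro G _ _ hn h h12
  by_cases hG1 : Nat.card G = 1
  · haveI : Subsingleton G := (Nat.card_eq_one_iff_unique.mp hG1).1
    exact Group.isSolvable_of_comm (fun a b => Subsingleton.elim _ _)
  obtain ⟨p, hpdef⟩ : ∃ p, p = (Nat.card G).minFac := ⟨_, rfl⟩
  have hp : p.Prime := by rw [hpdef]; exact Nat.minFac_prime hG1
  have hpd : p ∣ Nat.card G := by rw [hpdef]; exact Nat.minFac_dvd _
  have hmin : ∀ k : ℕ, k.Prime → k ∣ Nat.card G → p ≤ k := fun k hk hkd => by
    rw [hpdef]; exact Nat.minFac_le_of_dvd hk.two_le hkd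
  haveI : Fact p.Prime := ⟨hp⟩
  by_cases hq : ∃ q : ℕ, q.Prime ∧ q ∣ Nat.card G ∧ p < q
  · obtain ⟨P⟩ : Nonempty (Sylow p G) := inferInstance
    obtain ⟨hab, hrank⟩ := h p hp hpd hq P
    have hp2 := hp.two_le
    have hkp1 : ∀ k : ℕ, k.Prime → k ∣ Nat.card G → ¬ k ∣ p - 1 := by
      intro k hk hkd hk1
      have h1 := hmin k hk hkd
      have h2 : 0 < p - 1 := by omega
      have h3 := Nat.le_of_dvd h2 hk1
      omega
    have hcop : Nat.Coprime (Nat.card G)
        (∏ i ∈ Finset.Icc 1 (Group.rank (P : Subgroup G)), (p ^ i - 1)) := by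
      apply Nat.Coprime.prod_right
      intro i hi
      rw [Finset.mem_Icc] at hi
      apply Nat.coprime_of_dvd
      intro k hk hkd hki
      have hi2 : i = 1 ∨ i = 2 := by omega
      rcases hi2 with rfl | rfl
      · rw [pow_one] at hki
        exact hkp1 k hk hkd hki
      · have e : p ^ 2 - 1 = (p - 1) * (p + 1) := by
          obtain ⟨r, rfl⟩ : ∃ r, p = r + 1 := ⟨p - 1, by omega⟩
          have e1 : (r + 1) ^ 2 = r * (r + 1 + 1) + 1 := by ring
          rw [e1]
          simp
        rw [e] at hki
        rcases (Nat.Prime.dvd_mul hk).mp hki with h1 | h1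
        · exact hkp1 k hk hkd h1
        · have h2 := hmin k hk hkd
          have h3 := Nat.le_of_dvd (by omega) h1
          have h4 : k ≠ p := by
            rintro rfl
            have h5 : k ∣ 1 := (Nat.dvd_add_right (dvd_refl k)).mp h1
            exact hk.one_lt.ne' (Nat.dvd_one.mp h5)
          have h5 : k = p + 1 := by omega
          have h6 : p = 2 := by
            rcases hp.eq_two_or_odd with h7 | h7
            · exact h7
            · exfalso
              rcases hk.eq_two_or_odd with h8 | h8
              · omega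
              · omega
          have h3G : 3 ∣ Nat.card G := by
            have h7 : k = 3 := by omega
            rw [← h7]; exact hkd
          have h4G : 4 ∣ Nat.card G := by
            obtain ⟨m, hm⟩ := P.2.exists_card_eq
            have hm2 : 2 ≤ m := by
              by_contra hlt
              have hm1 : m ≤ 1 := by omega
              have hc : Nat.card (P : Subgroup G) ≤ 2 := by
                rw [hm, h6]
                calc 2 ^ m ≤ 2 ^ 1 := Nat.pow_le_pow_right (by norm_num) hm1
                  _ = 2 := by norm_num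
              have h8 := rank_le_one_of_card_le_two hc
              omega
            have h9 : (4 : ℕ) ∣ Nat.card (P : Subgroup G) := by
              rw [hm, h6]
              exact pow_dvd_pow 2 hm2
            exact h9.trans (Subgroup.card_subgroup_dvd_card _)
          exact h12 (Nat.Coprime.mul_dvd_of_dvd_of_dvd (by norm_num) h3G h4G)
    obtain ⟨P₀, N, hNn, hNc⟩ := Cfsg.Agent.S3969.result p P hab hcop
    haveI := hNn
    have hidx : (P₀ : Subgroup G).index = Nat.card N := hNc.index_eq_card
    have hcardmul : Nat.card N * Nat.card (P₀ : Subgroup G) = Nat.card G := by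
      rw [← hidx, mul_comm]; exact Subgroup.card_mul_index _
    have hP₀1 : 1 < Nat.card (P₀ : Subgroup G) :=
      (Subgroup.one_lt_card_iff_ne_bot _).mpr (P₀.ne_bot_of_dvd_card hpd)
    have hNpos : 0 < Nat.card N := Nat.card_pos
    have hlt : Nat.card N < n := by rw [← hn, ← hcardmul]; nlinarith
    have hpN : ¬ p ∣ Nat.card N := by rw [← hidx]; exact P₀.not_dvd_index
    have hNdvd : Nat.card N ∣ Nat.card G := Subgroup.card_subgroup_dvd_card N
    haveI : Group.IsSolvable N := by
      apply ih _ hlt N rfl
      · intro p' hp' hp'd ⟨q, hq, hqd, hlt'⟩ P'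
        haveI : Fact p'.Prime := ⟨hp'⟩
        have hne : p' ≠ p := fun h => hpN (h ▸ hp'd)
        have hQp : IsPGroup p' ((P' : Subgroup N).map N.subtype) := P'.2.map _
        have hQidx : ¬ p' ∣ ((P' : Subgroup N).map N.subtype).index := by
          rw [Subgroup.index_map_subtype]
          intro hd
          rcases (Nat.Prime.dvd_mul hp').mp hd with h1 | h1
          · exact P'.not_dvd_index h1
          · have h2 : N.index = Nat.card (P₀ : Subgroup G) := hNc.symm.index_eq_card
            obtain ⟨k, hk⟩ := P₀.2.exists_card_eq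
            rw [h2, hk] at h1
            exact hne ((Nat.prime_dvd_prime_iff_eq hp' hp).mp (hp'.dvd_of_dvd_pow h1))
        have hres : IsMulCommutative ↥((P' : Subgroup N).map N.subtype) ∧
            Group.rank ↥((P' : Subgroup N).map N.subtype) ≤ 2 :=
          h p' hp' (hp'd.trans hNdvd) ⟨q, hq, hqd.trans hNdvd, hlt'⟩ (hQp.toSylow hQidx)
        obtain ⟨hab', hrank'⟩ := hres
        have e := (P' : Subgroup N).equivMapOfInjective N.subtype N.subtype_injective
        constructor
        · refine ⟨⟨fun a b => ?_⟩⟩
          apply e.injective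
          rw [map_mul, map_mul]
          exact mul_comm' _ _
        · rw [Group.rank_congr e]
          exact hrank'
      · exact fun h => h12 (h.trans hNdvd)
    haveI : Group.IsSolvable (P₀ : Subgroup G) := by
      haveI := P₀.2.isNilpotent
      infer_instance
    exact solvable_of_normal_complement N P₀ hNc
  · have hall : ∀ {d : ℕ}, d.Prime → d ∣ Nat.card G → d = p := by
      intro d hd hdd
      have h1 := hmin d hd hdd
      by_contra hne
      exact hq ⟨d, hd, hdd, lt_of_le_of_ne h1 (Ne.symm hne)⟩
    have hcard := Nat.eq_prime_pow_of_unique_prime_dvd (Nat.card_pos (α := G)).ne' hall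
    have hGp : IsPGroup p G := IsPGroup.of_card hcard
    haveI := hGp.isNilpotent
    infer_instance

theorem solvable_of_abelian_rank_two {G : Type u} [Group G] [Finite G]
    (h : ∀ p : ℕ, p.Prime → p ∣ Nat.card G → (∃ q : ℕ, q.Prime ∧ q ∣ Nat.card G ∧ p < q) →
      ∀ P : Sylow p G, IsMulCommutative (P : Subgroup G) ∧ Group.rank (P : Subgroup G) ≤ 2)
    (h12 : ¬ 12 ∣ Nat.card G) : Group.IsSolvable G :=
  solvable_of_abelian_rank_two_aux _ G rfl h h12

end Cfsg.Agent.Helper4
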