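import Mathlib
import Cfsg.Agent.Helper4.Supersolvable2
import Cfsg.Agent.Helper1.Hall

set_option autoImplicit false

namespace Cfsg.Agent.Helper4

universe u

theorem hall_split_nat (g a d : ℕ) (hg : 0 < g) (ha : 0 < a)
    (hA : ∀ p : ℕ, p.Prime → p ∣ a → p ∣ g)
    (hexp : ∀ p : ℕ, p.Prime → p ∣ g → a.factorization p + 1 = g.factorization p)
    (hd : d ∣ g * a) : ∃ m n : ℕ, g = m * n ∧ m.Coprime n ∧ m ∣ d ∧ (d / m) ∣ a := by
  classical
  have hga0 : g * a ≠ 0 := (Nat.mul_pos hg ha).ne'
  have hd0 : d ≠ 0 := fun h => hga0 (by rw [h] at hd; exact Nat.eq_zero_of_zero_dvd hd)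
  obtain ⟨fm, hfm⟩ : ∃ fm : ℕ →₀ ℕ,
      fm = g.factorization.filter (fun p => g.factorization p ≤ d.factorization p) := ⟨_, rfl⟩
  obtain ⟨fn, hfn⟩ : ∃ fn : ℕ →₀ ℕ,
      fn = g.factorization.filter (fun p => ¬ g.factorization p ≤ d.factorization p) := ⟨_, rfl⟩
  have hfmp : ∀ p ∈ fm.support, p.Prime := by
    intro p hp
    rw [hfm, Finsupp.support_filter, Finset.mem_filter] at hp
    exact Nat.prime_of_mem_primeFactors (by rw [← Nat.support_factorization]; exact hp.1)
  have hfnp : ∀ p ∈ fn.support, p.Prime := by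
    intro p hp
    rw [hfn, Finsupp.support_filter, Finset.mem_filter] at hp
    exact Nat.prime_of_mem_primeFactors (by rw [← Nat.support_factorization]; exact hp.1)
  have hm : (fm.prod (· ^ ·)).factorization = fm := Nat.prod_pow_factorization_eq_self hfmp
  have hn : (fn.prod (· ^ ·)).factorization = fn := Nat.prod_pow_factorization_eq_self hfnp
  have hm0 : fm.prod (· ^ ·) ≠ 0 := by
    rw [Finsupp.prod]
    exact Finset.prod_ne_zero_iff.mpr (fun p hp => pow_ne_zero _ (hfmp p hp).ne_zero)
  have hn0 : fn.prod (· ^ ·) ≠ 0 := by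
    rw [Finsupp.prod]
    exact Finset.prod_ne_zero_iff.mpr (fun p hp => pow_ne_zero _ (hfnp p hp).ne_zero)
  have hmd : fm.prod (· ^ ·) ∣ d := by
    rw [← Nat.factorization_le_iff_dvd hm0 hd0, hm, Finsupp.le_def]
    intro p
    rw [hfm, Finsupp.filter_apply]
    split_ifs with h
    · exact h
    · exact Nat.zero_le _
  refine ⟨fm.prod (· ^ ·), fn.prod (· ^ ·), ?_, ?_, hmd, ?_⟩
  · apply Nat.eq_of_factorization_eq hg.ne' (mul_ne_zero hm0 hn0)
    intro p
    rw [Nat.factorization_mul hm0 hn0, hm, hn, hfm, hfn, Finsupp.filter_add_filter_not]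
  · apply Nat.coprime_of_dvd
    intro k hk hkm hkn
    have h1 := hk.factorization_pos_of_dvd hm0 hkm
    have h2 := hk.factorization_pos_of_dvd hn0 hkn
    rw [hm, hfm, Finsupp.filter_apply] at h1
    rw [hn, hfn, Finsupp.filter_apply] at h2
    split_ifs at h1 h2 <;> omega
  · have hdm0 : d / fm.prod (· ^ ·) ≠ 0 :=
      (Nat.div_pos (Nat.le_of_dvd (Nat.pos_of_ne_zero hd0) hmd) (Nat.pos_of_ne_zero hm0)).ne'
    rw [← Nat.factorization_le_iff_dvd hdm0 ha.ne', Nat.factorization_div hmd, hm,
      Finsupp.le_def]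
    intro p
    rw [Finsupp.tsub_apply, hfm, Finsupp.filter_apply]
    have hdq : d.factorization p ≤ g.factorization p + a.factorization p := by
      have := (Nat.factorization_le_iff_dvd hd0 hga0).mpr hd
      rw [Finsupp.le_def] at this
      have := this p
      rwa [Nat.factorization_mul hg.ne' ha.ne', Finsupp.add_apply] at this
    by_cases hp : p.Prime
    · by_cases hpg : p ∣ g
      · have := hexp p hp hpg
        split_ifs <;> omega
      · have h1 : g.factorization p = 0 := Nat.factorization_eq_zero_of_not_dvd hpg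
        have h2 : a.factorization p = 0 :=
          Nat.factorization_eq_zero_of_not_dvd (fun h => hpg (hA p hp h))
        split_ifs <;> omega
    · have h1 := Nat.factorization_eq_zero_of_not_prime d hp
      split_ifs <;> omega

theorem ss_of_comm_aux : ∀ (c : ℕ) (A : Type u) [Group A] [Finite A], Nat.card A = c →
    (∀ x y : A, x * y = y * x) → Cfsg.IsSupersolvable A := by
  intro c
  induction c using Nat.strong_induction_on with
  | _ c ih =>
    intro A _ _ hc hcomm
    rcases subsingleton_or_nontrivial A with hs | hnt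
    · rw [isSupersolvable_iff_ssreach]
      have : (⊤ : Subgroup A) = ⊥ :=
        eq_bot_iff.mpr (fun x _ => by rw [Subgroup.mem_bot]; exact Subsingleton.elim x 1)
      rw [this]; exact SSReach.bot
    · obtain ⟨g, hg⟩ := exists_ne (1 : A)
      haveI hn : (Subgroup.zpowers g).Normal :=
        ⟨fun x hx y => by rw [hcomm y x]; simpa using hx⟩
      have hne : Subgroup.zpowers g ≠ ⊥ := by
        rw [Ne, Subgroup.zpowers_eq_bot]; exact hg
      have hlt : Nat.card (A ⧸ Subgroup.zpowers g) < c := by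
        rw [← hc]; exact Cfsg.Agent.Helper1.card_quotient_lt_of_ne_bot _ hne
      apply isSupersolvable_of_cyclic_normal_quotient (Subgroup.zpowers g)
      apply ih _ hlt (A ⧸ Subgroup.zpowers g) rfl
      intro x y
      obtain ⟨x, rfl⟩ := QuotientGroup.mk_surjective x
      obtain ⟨y, rfl⟩ := QuotientGroup.mk_surjective y
      rw [← QuotientGroup.mk_mul, ← QuotientGroup.mk_mul, hcomm]

theorem clt_prod_solvable_abelian {G A : Type*} [Group G] [CommGroup A] [Finite G] [Finite A]
    [Group.IsSolvable G] (hA : ∀ p : ℕ, p.Prime → p ∣ Nat.card A → p ∣ Nat.card G)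
    (hexp : ∀ p : ℕ, p.Prime → p ∣ Nat.card G →
      (Nat.card A).factorization p + 1 = (Nat.card G).factorization p) :
    Cfsg.HasSubgroupOfEveryOrder (G × A) := by
  intro d hd
  rw [Nat.card_prod] at hd
  obtain ⟨m, n, hmn, hcop, hmd, hdma⟩ := hall_split_nat (Nat.card G) (Nat.card A) d
    Nat.card_pos Nat.card_pos hA hexp hd
  obtain ⟨H, hH⟩ := Cfsg.Agent.Helper1.hall_exists m n hmn hcop
  have hAss : Cfsg.IsSupersolvable A := ss_of_comm_aux _ A rfl mul_comm
  obtain ⟨B, hB⟩ := clt_aux _ A rfl hAss (d / m) hdma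
  refine ⟨H.prod B, ?_⟩
  rw [Nat.card_congr (Subgroup.prodEquiv H B).toEquiv, Nat.card_prod, hH, hB,
    Nat.mul_div_cancel' hmd]

end Cfsg.Agent.Helper4
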