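import Mathlib
import Cfsg.Agent.Helper1.Hall
import Cfsg.Agent.Helper4.CompSystem
import Cfsg.Agent.Helper4.SysNorm
import Cfsg.Agent.Helper4.SSHall
import Cfsg.Agent.Helper4.Subnormal
import Cfsg.Agent.Helper4.CLTHered2
import Cfsg.Prelude.Def_SolvableStructure

set_option autoImplicit false

namespace Cfsg.Agent.Helper4

universe u

open scoped Pointwise

theorem not_dvd_card_complement {G : Type*} [Group G] [Finite G]
    (K : Nat.Primes → Subgroup G) (hK : Cfsg.IsComplementSystem K) (q : Nat.Primes) :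
    ¬ (q : ℕ) ∣ Nat.card (K q) := by
  intro hd
  have h2 := Subgroup.card_mul_index (K q)
  rw [hK q] at h2
  obtain ⟨a, ha⟩ : ∃ a, a = (Nat.card G).factorization q := ⟨_, rfl⟩
  rw [← ha] at h2
  have h3 : (q : ℕ) ^ (a + 1) ∣ Nat.card G := by
    calc (q : ℕ) ^ (a + 1) = (q : ℕ) ^ a * q := pow_succ _ _
      _ ∣ (q : ℕ) ^ a * Nat.card (K q) := Nat.mul_dvd_mul_left _ hd
      _ = Nat.card G := by rw [mul_comm]; exact h2
  rw [ha] at h3
  exact Nat.pow_succ_factorization_not_dvd Nat.card_pos.ne' q.2 h3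

theorem mem_normalizer_iff_conj_smul_eq {G : Type*} [Group G] (H : Subgroup G) (y : G) :
    y ∈ Subgroup.normalizer (H : Set G) ↔ MulAut.conj y • H = H := by
  constructor
  · exact fun h => conj_smul_eq_of_mem_normalizer H h
  · intro h
    rw [Subgroup.mem_normalizer_iff'']
    intro z
    conv_lhs => rw [← h]
    rw [Subgroup.mem_pointwise_smul_iff_inv_smul_mem, ← map_inv, MulAut.smul_def,
      MulAut.conj_apply, inv_inv]

theorem hall_conj_in_sub {G : Type u} [Group G] [Finite G] [Group.IsSolvable G]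
    (S A B : Subgroup G) (hA : A ≤ S) (hB : B ≤ S) (hcard : Nat.card A = Nat.card B)
    (hcop : (Nat.card A).Coprime (A.relIndex S)) :
    ∃ g ∈ S, MulAut.conj g • A = B := by
  have e1 : ↥(A.subgroupOf S) ≃* ↥A := Subgroup.subgroupOfEquivOfLe hA
  have e2 : ↥(B.subgroupOf S) ≃* ↥B := Subgroup.subgroupOfEquivOfLe hB
  have hc1 : Nat.card (A.subgroupOf S) = Nat.card A := Nat.card_congr e1.toEquiv
  have hc2 : Nat.card (B.subgroupOf S) = Nat.card A :=
    (Nat.card_congr e2.toEquiv).trans hcard.symm
  have hS : Nat.card S = Nat.card A * A.relIndex S := (card_mul_relIndex_of_le hA).symm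
  obtain ⟨n, hn⟩ := Cfsg.Agent.Helper1.hall_conj (G := S) (Nat.card A) (A.relIndex S) hS hcop
    (A.subgroupOf S) (B.subgroupOf S) hc1 hc2
  rw [Subgroup.conj_smul_subgroupOf hA n] at hn
  refine ⟨(n : G), n.2, ?_⟩
  have h1 : MulAut.conj (n : G) • A ≤ S := Subgroup.conj_smul_le_of_le hA n
  have := congrArg (Subgroup.map S.subtype) hn
  rwa [Subgroup.map_subgroupOf_eq_of_le h1, Subgroup.map_subgroupOf_eq_of_le hB] at this

theorem compInf_index' {G : Type*} [Group G] [Finite G] (L : Nat.Primes → Subgroup G)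
    (hL : ∀ p : Nat.Primes, ∃ k : ℕ, (L p).index = (p : ℕ) ^ k) (n : ℕ) :
    ∀ q : ℕ, q.Prime → n < q → ¬ q ∣ (compInf L n).index := by
  induction n with
  | zero =>
    intro q hq _ hd
    have e : compInf L 0 = ⊤ := by rw [compInf]
    rw [e, Subgroup.index_top] at hd
    exact hq.one_lt.ne' (Nat.dvd_one.mp hd)
  | succ n ih =>
    intro q hq hnq hd
    by_cases h : (n + 1).Prime
    · have e : compInf L (n + 1) = compInf L n ⊓ L ⟨n + 1, h⟩ := by
        rw [compInf, dif_pos h]
      obtain ⟨a, hidx⟩ : ∃ a, (L ⟨n + 1, h⟩).index = (n + 1) ^ a := hL ⟨n + 1, h⟩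
      have hcop : ((compInf L n).index).Coprime (L ⟨n + 1, h⟩).index := by
        rw [hidx]
        apply Nat.Coprime.pow_right
        rw [Nat.coprime_comm, Nat.Prime.coprime_iff_not_dvd h]
        exact ih (n + 1) h (Nat.lt_succ_self n)
      rw [e, index_inf_of_coprime _ _ hcop, hidx] at hd
      rcases (Nat.Prime.dvd_mul hq).mp hd with h' | h'
      · exact ih q hq (by omega) h'
      · have h1 := Nat.Prime.dvd_of_dvd_pow hq h'
        have h2 := Nat.le_of_dvd (Nat.succ_pos n) h1
        omega
    · have e : compInf L (n + 1) = compInf L n := by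
        rw [compInf, dif_neg h]
      rw [e] at hd
      exact ih q hq (by omega) hd

theorem crt_cosets_top {G : Type*} [Group G] [Finite G] (T : Nat.Primes → Subgroup G)
    (hT : ∀ p : Nat.Primes, ∃ k : ℕ, (T p).index = (p : ℕ) ^ k) (n : Nat.Primes → G) :
    ∃ m : G, ∀ p : Nat.Primes, (n p)⁻¹ * m ∈ T p := by
  have claim : ∀ b : ℕ, ∃ m : G, ∀ p : Nat.Primes, (p : ℕ) ≤ b → (n p)⁻¹ * m ∈ T p := by
    intro b
    induction b with
    | zero =>
      refine ⟨1, fun p hp => ?_⟩
      exact absurd hp (by have := p.2.pos; omega)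
    | succ b ih =>
      obtain ⟨m, hm⟩ := ih
      by_cases hq : (b + 1).Prime
      · obtain ⟨a, hidx⟩ : ∃ a, (T ⟨b + 1, hq⟩).index = (b + 1) ^ a := hT ⟨b + 1, hq⟩
        have hcop : ((compInf T b).index).Coprime (T ⟨b + 1, hq⟩).index := by
          rw [hidx]
          apply Nat.Coprime.pow_right
          rw [Nat.coprime_comm, Nat.Prime.coprime_iff_not_dvd hq]
          exact compInf_index' T hT b (b + 1) hq (Nat.lt_succ_self b)
        obtain ⟨j, hj, t, ht, hjt⟩ :=
          exists_mul_of_coprime_index _ _ hcop (m⁻¹ * n ⟨b + 1, hq⟩)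
        refine ⟨m * j, fun p hp => ?_⟩
        by_cases hpq : (p : ℕ) = b + 1
        · have hpe : p = ⟨b + 1, hq⟩ := Subtype.ext hpq
          rw [hpe]
          have e : (n ⟨b + 1, hq⟩)⁻¹ * (m * j) = t⁻¹ := by
            have h1 : n ⟨b + 1, hq⟩ = m * (j * t) := by rw [← hjt]; group
            rw [h1]; group
          rw [e]; exact (T ⟨b + 1, hq⟩).inv_mem ht
        · have hpn : (p : ℕ) ≤ b := by omega
          have e : (n p)⁻¹ * (m * j) = ((n p)⁻¹ * m) * j := by group
          rw [e]
          exact (T p).mul_mem (hm p hpn) (compInf_le T b p hpn hj)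
      · refine ⟨m, fun p hp => ?_⟩
        have hpn : (p : ℕ) ≤ b := by
          have : (p : ℕ) ≠ b + 1 := fun h => hq (h ▸ p.2)
          omega
        exact hm p hpn
  obtain ⟨m, hm⟩ := claim (Nat.card G)
  refine ⟨m, fun p => ?_⟩
  by_cases hp : (p : ℕ) ≤ Nat.card G
  · exact hm p hp
  · obtain ⟨k, hk⟩ := hT p
    have hT1 : T p = ⊤ := by
      rcases Nat.eq_zero_or_pos k with h0 | h0
      · rw [h0, pow_zero] at hk
        exact Subgroup.index_eq_one.mp hk
      · exfalso
        have h1 : (p : ℕ) ∣ (T p).index := by rw [hk]; exact dvd_pow_self _ h0.ne'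
        have h2 : (p : ℕ) ∣ Nat.card G := h1.trans (Subgroup.index_dvd_card _)
        exact hp (Nat.le_of_dvd Nat.card_pos h2)
    rw [hT1]; exact Subgroup.mem_top _

theorem crt_cosets {G : Type*} [Group G] [Finite G] (N : Subgroup G)
    (T : Nat.Primes → Subgroup G)
    (hT : ∀ p : Nat.Primes, ∃ k : ℕ, (T p).relIndex N = (p : ℕ) ^ k) (n : Nat.Primes → G)
    (hn : ∀ p, n p ∈ N) : ∃ m ∈ N, ∀ p : Nat.Primes, (n p)⁻¹ * m ∈ T p := by
  obtain ⟨m, hm⟩ := crt_cosets_top (G := N) (fun p => (T p).subgroupOf N) hT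
    (fun p => ⟨n p, hn p⟩)
  refine ⟨(m : G), m.2, fun p => ?_⟩
  have := hm p
  rw [Subgroup.mem_subgroupOf] at this
  simpa using this

theorem systemNormalizer_map {G : Type u} [Group G] [Finite G] [Group.IsSolvable G]
    (K : Nat.Primes → Subgroup G) (hK : Cfsg.IsComplementSystem K) (N : Subgroup G)
    [N.Normal] :
    Cfsg.IsComplementSystem (fun p => (K p).map (QuotientGroup.mk' N)) ∧
    Cfsg.systemNormalizer (fun p => (K p).map (QuotientGroup.mk' N)) =
      (Cfsg.systemNormalizer K).map (QuotientGroup.mk' N) := by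
  have hπ : Function.Surjective (QuotientGroup.mk' N) := QuotientGroup.mk'_surjective N
  refine ⟨?_, ?_⟩
  · intro p
    show ((K p).map (QuotientGroup.mk' N)).index = (p : ℕ) ^ (Nat.card (G ⧸ N)).factorization p
    have h1 : ((K p).map (QuotientGroup.mk' N)).index = (K p ⊔ N).index := by
      rw [Subgroup.index_map, MonoidHom.range_eq_top_of_surjective _ hπ, Subgroup.index_top,
        mul_one, QuotientGroup.ker_mk']
    have h2 : (K p ⊔ N).index ∣ (p : ℕ) ^ (Nat.card G).factorization p := by
      rw [← hK p]; exact Subgroup.index_dvd_of_le le_sup_left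
    obtain ⟨j, -, hj⟩ := (Nat.dvd_prime_pow p.2).mp h2
    have h3 : Nat.card ((K p).map (QuotientGroup.mk' N)) ∣ Nat.card (K p) :=
      Subgroup.card_map_dvd _ _
    have h4 : ¬ (p : ℕ) ∣ Nat.card ((K p).map (QuotientGroup.mk' N)) :=
      fun hd => not_dvd_card_complement K hK p (hd.trans h3)
    have h5 := Subgroup.card_mul_index ((K p).map (QuotientGroup.mk' N))
    rw [h1, hj] at h5
    have hc0 : Nat.card ((K p).map (QuotientGroup.mk' N)) ≠ 0 := Nat.card_pos.ne'
    have hp0 : (p : ℕ) ^ j ≠ 0 := (pow_pos p.2.pos j).ne'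
    have h6 : (Nat.card (G ⧸ N)).factorization p = j := by
      rw [← h5, Nat.factorization_mul hc0 hp0, Finsupp.add_apply,
        Nat.factorization_eq_zero_of_not_dvd h4, Nat.Prime.factorization_pow p.2,
        Finsupp.single_eq_same, zero_add]
    rw [h1, hj, h6]
  · apply le_antisymm
    · intro y hy
      obtain ⟨x, rfl⟩ := hπ y
      simp only [Cfsg.systemNormalizer, Subgroup.mem_iInf] at hy
      have hx : ∀ p : Nat.Primes, MulAut.conj x • (K p ⊔ N) = K p ⊔ N := by
        intro p
        apply conj_smul_eq_of_mem_normalizer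
        have h1 : x ∈ (Subgroup.normalizer
            (((K p).map (QuotientGroup.mk' N) : Subgroup (G ⧸ N)) : Set (G ⧸ N))).comap
            (QuotientGroup.mk' N) := hy p
        have h2 := Subgroup.le_normalizer_comap (QuotientGroup.mk' N) h1
        rw [Subgroup.comap_map_eq, QuotientGroup.ker_mk'] at h2
        exact h2
      have hex : ∀ p : Nat.Primes, ∃ n ∈ N, MulAut.conj n • K p = MulAut.conj x • K p := by
        intro p
        have hA : K p ≤ K p ⊔ N := le_sup_left
        have hB : MulAut.conj x • K p ≤ K p ⊔ N := by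
          rw [← hx p, Subgroup.smul_sup]; exact le_sup_left
        have hcard : Nat.card (K p) = Nat.card (MulAut.conj x • K p : Subgroup G) :=
          Nat.card_congr (Subgroup.equivSMul (MulAut.conj x) (K p)).toEquiv
        have hcop : (Nat.card (K p)).Coprime ((K p).relIndex (K p ⊔ N)) := by
          have h1 : (K p).relIndex (K p ⊔ N) ∣ (p : ℕ) ^ (Nat.card G).factorization p := by
            rw [← hK p]; exact Subgroup.relIndex_dvd_index_of_le hA
          refine Nat.Coprime.coprime_dvd_right h1 ?_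
          apply Nat.Coprime.pow_right
          rw [Nat.coprime_comm, Nat.Prime.coprime_iff_not_dvd p.2]
          exact not_dvd_card_complement K hK p
        obtain ⟨g, hg, hgK⟩ :=
          hall_conj_in_sub (K p ⊔ N) (K p) (MulAut.conj x • K p) hA hB hcard hcop
        rw [sup_comm] at hg
        obtain ⟨n, hn, k, hk, rfl⟩ := Subgroup.mem_sup_of_normal_left.mp hg
        refine ⟨n, hn, ?_⟩
        rw [← hgK, map_mul, mul_smul, Subgroup.conj_smul_eq_self_of_mem hk]
      choose n hnN hnK using hex
      have hT : ∀ p : Nat.Primes, ∃ k : ℕ,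
          (Subgroup.normalizer ((K p : Subgroup G) : Set G)).relIndex N = (p : ℕ) ^ k := by
        intro p
        have h1 : (Subgroup.normalizer ((K p : Subgroup G) : Set G)).relIndex N ∣
            (p : ℕ) ^ (Nat.card G).factorization p := by
          rw [← hK p]
          exact (relIndex_dvd_index_of_normal_right _ N).trans
            (Subgroup.index_dvd_of_le Subgroup.le_normalizer)
        obtain ⟨k, -, hk⟩ := (Nat.dvd_prime_pow p.2).mp h1
        exact ⟨k, hk⟩
      obtain ⟨m, hmN, hm⟩ := crt_cosets N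
        (fun p => Subgroup.normalizer ((K p : Subgroup G) : Set G)) hT n hnN
      have hmx : m⁻¹ * x ∈ Cfsg.systemNormalizer K := by
        simp only [Cfsg.systemNormalizer, Subgroup.mem_iInf]
        intro p
        rw [mem_normalizer_iff_conj_smul_eq]
        have h1 : MulAut.conj ((n p)⁻¹ * m) • K p = K p :=
          conj_smul_eq_of_mem_normalizer (K p) (hm p)
        have h2 : MulAut.conj m • K p = MulAut.conj x • K p := by
          have e : m = n p * ((n p)⁻¹ * m) := by group
          rw [e, map_mul, mul_smul, h1, hnK p]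
        rw [map_mul, mul_smul, ← h2, ← mul_smul, ← map_mul, inv_mul_cancel, map_one, one_smul]
      refine Subgroup.mem_map.mpr ⟨m⁻¹ * x, hmx, ?_⟩
      rw [map_mul, map_inv]
      have : (QuotientGroup.mk' N) m = 1 := (QuotientGroup.eq_one_iff m).mpr hmN
      rw [this, inv_one, one_mul]
    · simp only [Cfsg.systemNormalizer]
      refine le_iInf (fun p => ?_)
      exact (Subgroup.map_mono (iInf_le _ p)).trans (Subgroup.le_normalizer_map _)

end Cfsg.Agent.Helper4
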