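import Mathlib
import Cfsg.Prelude.Def_SolvableStructure
import Cfsg.Agent.Helper1.Carter
import Cfsg.Agent.Helper1.Hall
import Cfsg.Agent.Helper1.FpfNil
import Cfsg.Agent.Helper4.SysNorm2
import Cfsg.Agent.Helper4.SolvPrim
import Cfsg.Agent.Helper4.CompSystem
import Cfsg.Agent.Helper4.CardMul
import Cfsg.Agent.Helper4.CLTHered2

set_option autoImplicit false

namespace Cfsg.Agent.Helper4

open scoped Pointwise

universe u

/-- The family `K` reduces into `C`: each `K p ⊓ C` has `p`-power index in `C`. -/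
def RedInto {G : Type*} [Group G] (K : Nat.Primes → Subgroup G) (C : Subgroup G) : Prop :=
  ∀ p : Nat.Primes, ∃ j : ℕ, (K p).relIndex C = (p : ℕ) ^ j

theorem index_eq_pow_factorization {G : Type*} [Group G] [Finite G] (H : Subgroup G) (p : ℕ)
    (hp : p.Prime) (j : ℕ) (h1 : H.index = p ^ j) (h2 : ¬ p ∣ Nat.card H) :
    H.index = p ^ (Nat.card G).factorization p := by
  have h3 : (Nat.card G).factorization p = j := by
    rw [← Subgroup.index_mul_card H, Nat.factorization_mul Subgroup.index_ne_zero_of_finite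
      Nat.card_pos.ne', h1, Finsupp.add_apply, Nat.Prime.factorization_pow hp,
      Nat.factorization_eq_zero_of_not_dvd h2]
    simp
  rw [h3, h1]

theorem pow_mul_cancel {q a b v w : ℕ} (hq : q.Prime) (ha : ¬ q ∣ a) (hb : ¬ q ∣ b)
    (h : q ^ v * a = q ^ w * b) : a = b := by
  have ha0 : a ≠ 0 := fun h0 => ha (h0 ▸ dvd_zero q)
  have hb0 : b ≠ 0 := fun h0 => hb (h0 ▸ dvd_zero q)
  have h1 := congrArg (fun n => n.factorization q) h
  simp only [Nat.factorization_mul (pow_ne_zero _ hq.ne_zero) ha0,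
    Nat.factorization_mul (pow_ne_zero _ hq.ne_zero) hb0, Finsupp.add_apply,
    Nat.Prime.factorization_pow hq, Finsupp.single_eq_same,
    Nat.factorization_eq_zero_of_not_dvd ha, Nat.factorization_eq_zero_of_not_dvd hb,
    add_zero] at h1
  rw [h1] at h
  exact Nat.eq_of_mul_eq_mul_left (pow_pos hq.pos w) h

theorem card_subgroupOf_dvd {G : Type*} [Group G] (A H : Subgroup G) :
    Nat.card (A.subgroupOf H) ∣ Nat.card A := by
  have h1 : Nat.card (A.subgroupOf H) = Nat.card ((A.subgroupOf H).map H.subtype) :=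
    (Subgroup.card_map_of_injective H.subtype_injective).symm
  rw [h1, Subgroup.subgroupOf_map_subtype]
  exact Subgroup.card_dvd_of_le inf_le_left

theorem isComplementSystem_subgroupOf {G : Type*} [Group G] [Finite G]
    (K : Nat.Primes → Subgroup G) (hK : Cfsg.IsComplementSystem K) (H : Subgroup G)
    (hred : RedInto K H) : Cfsg.IsComplementSystem (fun p => (K p).subgroupOf H) := by
  intro p
  obtain ⟨j, hj⟩ := hred p
  exact index_eq_pow_factorization _ p p.2 j hj
    (fun hd => not_dvd_card_complement K hK p (hd.trans (card_subgroupOf_dvd (K p) H)))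

theorem redInto_map {G : Type*} [Group G] (K : Nat.Primes → Subgroup G) (C N : Subgroup G)
    [N.Normal] (hred : RedInto K C) :
    RedInto (fun p => (K p).map (QuotientGroup.mk' N)) (C.map (QuotientGroup.mk' N)) := by
  intro p
  obtain ⟨j, hj⟩ := hred p
  have h1 : ((K p).map (QuotientGroup.mk' N)).relIndex (C.map (QuotientGroup.mk' N)) ∣
      (K p).relIndex C := by
    rw [← Subgroup.relIndex_comap]
    exact Subgroup.relIndex_dvd_of_le_left C (Subgroup.le_comap_map _ _)
  rw [hj] at h1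
  obtain ⟨i, -, hi⟩ := (Nat.dvd_prime_pow p.2).mp h1
  exact ⟨i, hi⟩

theorem carter_rc {G : Type u} [Group G] [Finite G] [Group.IsSolvable G] :
    ∀ Y : Subgroup G, Y ≠ ⊤ → ∀ C D : Subgroup G, Helper1.IsCarterIn C Y →
      Helper1.IsCarterIn D Y → ∃ y ∈ Y, MulAut.conj y • C = D := by
  intro Y _ C D hC hD
  obtain ⟨l, hl⟩ := (Helper1.carter_main Y).2 _ _ hC.subgroupOf hD.subgroupOf
  exact ⟨l, l.2, Helper1.conj_of_conj_subgroupOf hC.1 hD.1 l hl⟩

theorem carter_map {G : Type u} [Group G] [Finite G] [Group.IsSolvable G] (C N : Subgroup G)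
    [N.Normal] (hC : Helper1.IsCarter C) : Helper1.IsCarter (C.map (QuotientGroup.mk' N)) := by
  refine ⟨?_, le_antisymm ?_ Subgroup.le_normalizer⟩
  · haveI := hC.1
    exact Group.nilpotent_of_surjective ((QuotientGroup.mk' N).subgroupMap C)
      (MonoidHom.subgroupMap_surjective _ _)
  · intro y hy
    obtain ⟨x, rfl⟩ := QuotientGroup.mk'_surjective N y
    exact Helper1.carterIn_map_self_normalizing carter_rc (hC.isCarterIn le_top) le_top x
      (Subgroup.mem_top x) hy

theorem carter_subgroupOf {G : Type u} [Group G] {C H : Subgroup G} (hC : Helper1.IsCarter C)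
    (hCH : C ≤ H) : Helper1.IsCarter (C.subgroupOf H) := (hC.isCarterIn hCH).subgroupOf

theorem relIndex_sup_normal {G : Type*} [Group G] [Finite G] (X N : Subgroup G) [N.Normal] :
    X.relIndex (X ⊔ N) = X.relIndex N := by
  have h1 := card_sup_mul_card_inf X N (by rw [Subgroup.normalizer_eq_top]; exact le_top)
  have h2 := card_mul_relIndex_of_le (le_sup_left : X ≤ X ⊔ N)
  have h3 := card_mul_relIndex_of_le (inf_le_right : X ⊓ N ≤ N)
  rw [Subgroup.inf_relIndex_right] at h3
  have hX : 0 < Nat.card X := Nat.card_pos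
  have hXN : 0 < Nat.card ↥(X ⊓ N) := Nat.card_pos
  have key : Nat.card X * Nat.card ↥(X ⊓ N) * X.relIndex (X ⊔ N) =
      Nat.card X * Nat.card ↥(X ⊓ N) * X.relIndex N := by
    calc Nat.card X * Nat.card ↥(X ⊓ N) * X.relIndex (X ⊔ N)
        = (Nat.card X * X.relIndex (X ⊔ N)) * Nat.card ↥(X ⊓ N) := by ring
      _ = Nat.card ↥(X ⊔ N) * Nat.card ↥(X ⊓ N) := by rw [h2]
      _ = Nat.card X * Nat.card N := h1
      _ = Nat.card X * (Nat.card ↥(X ⊓ N) * X.relIndex N) := by rw [h3]
      _ = Nat.card X * Nat.card ↥(X ⊓ N) * X.relIndex N := by ring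
  exact Nat.eq_of_mul_eq_mul_left (Nat.mul_pos hX hXN) key

theorem redInto_sup {G : Type*} [Group G] [Finite G] (K : Nat.Primes → Subgroup G)
    (hK : Cfsg.IsComplementSystem K) (C N : Subgroup G) [N.Normal] (q : ℕ) (hq : q.Prime)
    (m : ℕ) (hNcard : Nat.card N = q ^ m) (hred : RedInto K C) : RedInto K (C ⊔ N) := by
  intro p
  obtain ⟨j, hj⟩ := hred p
  by_cases hpq : (p : ℕ) = q
  · have h1 : (K p).relIndex (C ⊔ N) ∣ (K p ⊓ C).relIndex (C ⊔ N) :=
      Subgroup.relIndex_dvd_of_le_left _ inf_le_left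
    have h2 := Subgroup.relIndex_mul_relIndex (K p ⊓ C) C (C ⊔ N) inf_le_right le_sup_left
    rw [Subgroup.inf_relIndex_right, hj, relIndex_sup_normal] at h2
    have h3 : C.relIndex N ∣ q ^ m := hNcard ▸ Subgroup.relIndex_dvd_card C N
    obtain ⟨i, -, hi⟩ := (Nat.dvd_prime_pow hq).mp h3
    rw [hi, ← hpq, ← pow_add] at h2
    rw [← h2] at h1
    obtain ⟨l, -, hl⟩ := (Nat.dvd_prime_pow p.2).mp h1
    exact ⟨l, hl⟩
  · have hNK : N ≤ K p := by
      rw [← Subgroup.relIndex_eq_one]
      have h1 : (K p).relIndex N ∣ (K p).index := by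
        rw [← relIndex_sup_normal]
        exact Subgroup.relIndex_dvd_index_of_le le_sup_left
      have h2 : (K p).relIndex N ∣ q ^ m := hNcard ▸ Subgroup.relIndex_dvd_card (K p) N
      rw [hK p] at h1
      have hcop : Nat.Coprime ((p : ℕ) ^ (Nat.card G).factorization p) (q ^ m) :=
        Nat.Coprime.pow _ _ ((Nat.coprime_primes p.2 hq).mpr hpq)
      exact Nat.eq_one_of_dvd_coprimes hcop h1 h2
    obtain ⟨i, hi⟩ := redInto_map K C N hred p
    refine ⟨i, ?_⟩
    rw [← hi]
    show (K p).relIndex (C ⊔ N) =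
      ((K p).map (QuotientGroup.mk' N)).relIndex (C.map (QuotientGroup.mk' N))
    rw [← Helper1.map_sup_mk' C N, ← Subgroup.relIndex_comap, Subgroup.comap_map_eq,
      QuotientGroup.ker_mk', sup_eq_left.mpr hNK]

theorem sysnorm_subgroupOf_mem {G : Type*} [Group G] (K : Nat.Primes → Subgroup G)
    (H : Subgroup G) (d : G) (hdH : d ∈ H) (hd : d ∈ Cfsg.systemNormalizer K) :
    (⟨d, hdH⟩ : H) ∈ Cfsg.systemNormalizer (fun p => (K p).subgroupOf H) := by
  unfold Cfsg.systemNormalizer at hd ⊢
  rw [Subgroup.mem_iInf] at hd ⊢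
  intro p
  have h := hd p
  rw [Subgroup.mem_normalizer_iff] at h ⊢
  intro x
  rw [Subgroup.mem_subgroupOf, Subgroup.mem_subgroupOf]
  exact h x

theorem exists_complement_ge {G : Type u} [Group G] [Finite G] [Group.IsSolvable G]
    (p : Nat.Primes) (R : Subgroup G) (hR : ¬ (p : ℕ) ∣ Nat.card R) :
    ∃ L : Subgroup G, L.index = (p : ℕ) ^ (Nat.card G).factorization p ∧ R ≤ L := by
  obtain ⟨v, hv⟩ : ∃ v, v = (Nat.card G).factorization p := ⟨_, rfl⟩
  obtain ⟨m, hm⟩ : ∃ m, m = Nat.card G / (p : ℕ) ^ v := ⟨_, rfl⟩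
  have hG : Nat.card G = m * (p : ℕ) ^ v := by
    rw [hm, hv, mul_comm]; exact (Nat.ordProj_mul_ordCompl_eq_self (Nat.card G) p).symm
  have hcop : m.Coprime ((p : ℕ) ^ v) := by
    rw [hm, hv]
    exact (Nat.Coprime.pow_left _ (Nat.coprime_ordCompl p.2 Nat.card_pos.ne')).symm
  have hRc : (Nat.card R).Coprime ((p : ℕ) ^ v) :=
    Nat.Coprime.pow_right v ((Nat.Prime.coprime_iff_not_dvd p.2).mpr hR).symm
  obtain ⟨L, hL, hRL⟩ := Helper1.hall_dominance m ((p : ℕ) ^ v) hG hcop R hRc
  refine ⟨L, ?_, hRL⟩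
  have h1 := Subgroup.index_mul_card L
  rw [hL, hG, mul_comm m] at h1
  have hm0 : 0 < m := by
    rcases Nat.eq_zero_or_pos m with h | h
    · rw [h, zero_mul] at hG; exact absurd hG Nat.card_pos.ne'
    · exact h
  rw [← hv]
  exact Nat.eq_of_mul_eq_mul_right hm0 h1

theorem exists_normal_compl_of_nilpotent {G : Type u} [Group G] [Finite G] (C : Subgroup G)
    [hC : Group.IsNilpotent C] (p : Nat.Primes) :
    ∃ R : Subgroup G, R ≤ C ∧ C ≤ Subgroup.normalizer (R : Set G) ∧ ¬ (p : ℕ) ∣ Nat.card R ∧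
      ∃ j : ℕ, R.relIndex C = (p : ℕ) ^ j := by
  haveI : Fact (p : ℕ).Prime := ⟨p.2⟩
  obtain ⟨P, R, hRn, hcompl⟩ := Helper1.npc_of_nilpotent (G := C) (p : ℕ)
  refine ⟨R.map C.subtype, ?_, ?_, ?_, ?_⟩
  · rintro _ ⟨x, -, rfl⟩; exact x.2
  · intro c hc
    rw [Subgroup.mem_normalizer_iff]
    intro x
    constructor
    · rintro ⟨y, hy, rfl⟩
      exact ⟨⟨c, hc⟩ * y * ⟨c, hc⟩⁻¹, hRn.conj_mem y hy ⟨c, hc⟩, rfl⟩
    · rintro ⟨y, hy, hyx⟩
      refine ⟨⟨c, hc⟩⁻¹ * y * ⟨c, hc⟩, ?_, ?_⟩
      · have := hRn.conj_mem y hy ⟨c, hc⟩⁻¹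
        rwa [inv_inv] at this
      · have e : (C.subtype (⟨c, hc⟩⁻¹ * y * ⟨c, hc⟩) : G) = c⁻¹ * (C.subtype y) * c := rfl
        rw [e, hyx]; group
  · rw [Subgroup.card_map_of_injective C.subtype_injective, ← hcompl.index_eq_card]
    exact P.not_dvd_index
  · obtain ⟨j, hj⟩ := IsPGroup.iff_card.mp P.isPGroup'
    refine ⟨j, ?_⟩
    rw [← hj, ← hcompl.symm.index_eq_card]
    show ((R.map C.subtype).comap C.subtype).index = R.index
    rw [Subgroup.comap_map_eq_self_of_injective C.subtype_injective]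

theorem exists_redInto {G : Type u} [Group G] [Finite G] [Group.IsSolvable G] (C : Subgroup G)
    (hC : Group.IsNilpotent C) :
    ∃ K : Nat.Primes → Subgroup G, Cfsg.IsComplementSystem K ∧ RedInto K C := by
  haveI := hC
  have h : ∀ p : Nat.Primes, ∃ L : Subgroup G,
      L.index = (p : ℕ) ^ (Nat.card G).factorization p ∧ ∃ j : ℕ, L.relIndex C = (p : ℕ) ^ j := by
    intro p
    obtain ⟨R, -, -, hRp, j, hj⟩ := exists_normal_compl_of_nilpotent C p
    obtain ⟨L, hL, hRL⟩ := exists_complement_ge p R hRp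
    refine ⟨L, hL, ?_⟩
    have h1 : L.relIndex C ∣ R.relIndex C := Subgroup.relIndex_dvd_of_le_left C hRL
    rw [hj] at h1
    obtain ⟨i, -, hi⟩ := (Nat.dvd_prime_pow p.2).mp h1
    exact ⟨i, hi⟩
  choose K hK1 hK2 using h
  exact ⟨K, hK1, hK2⟩

theorem mem_normal_of_coprime_index_pow {X : Type*} [Group X] [Finite X] (p : ℕ)
    (K : Subgroup X) [K.Normal] (k : ℕ) (hK : K.index = p ^ k) (x : X)
    (hx : (orderOf x).Coprime p) : x ∈ K := by
  rw [← QuotientGroup.eq_one_iff]
  have h1 : orderOf (x : X ⧸ K) ∣ orderOf x := orderOf_map_dvd (QuotientGroup.mk' K) x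
  have h2 : orderOf (x : X ⧸ K) ∣ p ^ k := by
    rw [← hK, Subgroup.index_eq_card]; exact orderOf_dvd_natCard _
  exact orderOf_eq_one_iff.mp
    ((Nat.Coprime.coprime_dvd_left h1 (Nat.Coprime.pow_right k hx)).eq_one_of_dvd h2)

/-- If a complement system reduces into a Carter subgroup `C`, its system normalizer lies in `C`. -/
theorem sysnorm_le_carter : ∀ (n : ℕ) (G : Type u) [Group G] [Finite G] [Group.IsSolvable G],
    Nat.card G = n → ∀ (C : Subgroup G) (K : Nat.Primes → Subgroup G), Helper1.IsCarter C →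
    Cfsg.IsComplementSystem K → RedInto K C → Cfsg.systemNormalizer K ≤ C := by
  intro n
  induction n using Nat.strong_induction_on with
  | _ n ih =>
  intro G _ _ _ hn C K hC hK hred
  by_cases hCtop : C = ⊤
  · rw [hCtop]; exact le_top
  haveI : Nontrivial G := by
    by_contra h
    rw [not_nontrivial_iff_subsingleton] at h
    exact hCtop (Subsingleton.elim _ _)
  obtain ⟨N, hNmin⟩ := exists_minimal_of_wellFoundedLT
    (fun N : Subgroup G => N.Normal ∧ N ≠ ⊥) ⟨⊤, inferInstance, top_ne_bot⟩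
  obtain ⟨hNn, hN0⟩ := hNmin.prop
  haveI := hNn
  have hmin : ∀ M : Subgroup G, M.Normal → M ≤ N → M = ⊥ ∨ M = N := by
    intro M hM hle
    by_cases h0 : M = ⊥
    · exact Or.inl h0
    · exact Or.inr (le_antisymm hle (hNmin.le_of_le ⟨hM, h0⟩ hle))
  obtain ⟨q, hq, hNab, hNexp⟩ := minNormal_elemAbelian N hN0 hmin
  haveI : Fact q.Prime := ⟨hq⟩
  have hNp : IsPGroup q N := by
    intro x
    refine ⟨1, ?_⟩
    apply Subtype.ext
    rw [pow_one, Subgroup.coe_pow]
    exact hNexp x x.2
  obtain ⟨m, hm⟩ := IsPGroup.iff_card.mp hNp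
  have hlt : Nat.card (G ⧸ N) < n := by
    rw [← hn]; exact Helper1.card_quotient_lt_of_ne_bot N hN0
  obtain ⟨hK1, hD1⟩ := systemNormalizer_map K hK N
  have ih1 := ih _ hlt (G ⧸ N) rfl (C.map (QuotientGroup.mk' N))
    (fun p => (K p).map (QuotientGroup.mk' N)) (carter_map C N hC) hK1 (redInto_map K C N hred)
  rw [hD1] at ih1
  have hDH : Cfsg.systemNormalizer K ≤ C ⊔ N := by
    intro x hx
    have h1 := ih1 (Subgroup.mem_map_of_mem (QuotientGroup.mk' N) hx)
    have h2 : x ∈ (C.map (QuotientGroup.mk' N)).comap (QuotientGroup.mk' N) := h1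
    rwa [Subgroup.comap_map_eq, QuotientGroup.ker_mk'] at h2
  by_cases hH : C ⊔ N = ⊤
  · -- the case `G = C N`
    have hCNn : (C ⊓ N).Normal := by
      rw [← Subgroup.normalizer_eq_top_iff, eq_top_iff, ← hH]
      refine sup_le ?_ ?_
      · intro c hc
        rw [Subgroup.mem_normalizer_iff]
        intro x
        constructor
        · intro hx
          obtain ⟨hx1, hx2⟩ := Subgroup.mem_inf.mp hx
          exact Subgroup.mem_inf.mpr ⟨C.mul_mem (C.mul_mem hc hx1) (C.inv_mem hc),
            hNn.conj_mem x hx2 c⟩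
        · intro hx
          obtain ⟨hx1, hx2⟩ := Subgroup.mem_inf.mp hx
          refine Subgroup.mem_inf.mpr ⟨?_, ?_⟩
          · have e : x = c⁻¹ * (c * x * c⁻¹) * c := by group
            rw [e]; exact C.mul_mem (C.mul_mem (C.inv_mem hc) hx1) hc
          · have e : x = c⁻¹ * (c * x * c⁻¹) * c⁻¹⁻¹ := by group
            rw [e]; exact hNn.conj_mem _ hx2 c⁻¹
      · intro n' hn'
        rw [Subgroup.mem_normalizer_iff]
        intro x
        have key : ∀ y ∈ N, n' * y * n'⁻¹ = y := by
          intro y hy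
          rw [hNab n' hn' y hy, mul_inv_cancel_right]
        constructor
        · intro hx
          rw [key x (Subgroup.mem_inf.mp hx).2]; exact hx
        · intro hx
          have hxN : x ∈ N := by
            have h := (Subgroup.mem_inf.mp hx).2
            have e : x = n'⁻¹ * (n' * x * n'⁻¹) * n'⁻¹⁻¹ := by group
            rw [e]; exact hNn.conj_mem _ h n'⁻¹
          rw [key x hxN] at hx; exact hx
    have hCN : C ⊓ N = ⊥ := by
      rcases hmin (C ⊓ N) hCNn inf_le_right with h | h
      · exact h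
      · exfalso
        apply hCtop
        rw [← hH]
        exact (sup_eq_left.mpr (inf_eq_right.mp h)).symm
    have hcardG : Nat.card G = Nat.card C * Nat.card N := by
      have h1 := card_sup_mul_card_inf C N (by rw [Subgroup.normalizer_eq_top]; exact le_top)
      rw [hH, hCN, Subgroup.card_top, Subgroup.card_bot, mul_one] at h1
      exact h1
    obtain ⟨Kq, hKq⟩ : ∃ Kq : Subgroup G, Kq = K ⟨q, hq⟩ := ⟨_, rfl⟩
    have hKqidx : Kq.index = q ^ (Nat.card G).factorization q := by rw [hKq]; exact hK ⟨q, hq⟩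
    have hKqcard : ¬ q ∣ Nat.card Kq := by
      rw [hKq]; exact not_dvd_card_complement K hK ⟨q, hq⟩
    obtain ⟨j, hj⟩ := hred ⟨q, hq⟩
    rw [← hKq] at hj
    have hj' : Kq.relIndex C = q ^ j := hj
    have e1 := card_mul_relIndex_of_le (inf_le_right : Kq ⊓ C ≤ C)
    rw [Subgroup.inf_relIndex_right, hj'] at e1
    have hKqC : Kq ≤ C := by
      have e2 : Kq.index * Nat.card Kq = Nat.card G := Subgroup.index_mul_card Kq
      have hnd : ¬ q ∣ Nat.card ↥(Kq ⊓ C) :=
        fun hd => hKqcard (hd.trans (Subgroup.card_dvd_of_le inf_le_left))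
      have e3 : q ^ (j + m) * Nat.card ↥(Kq ⊓ C) =
          q ^ (Nat.card G).factorization q * Nat.card Kq := by
        rw [← hKqidx, e2, hcardG, ← e1, hm]; ring
      have e4 : Nat.card ↥(Kq ⊓ C) = Nat.card Kq := pow_mul_cancel hq hnd hKqcard e3
      have e5 : Kq ⊓ C = Kq := Subgroup.eq_of_le_of_card_ge inf_le_left (le_of_eq e4.symm)
      exact inf_eq_left.mp e5
    -- `C` normalizes `Kq`
    have hCnKq : C ≤ Subgroup.normalizer (Kq : Set G) := by
      haveI := hC.1
      obtain ⟨P, R, hRn, hcompl⟩ := Helper1.npc_of_nilpotent (G := C) q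
      haveI := hRn
      obtain ⟨k, hk⟩ := IsPGroup.iff_card.mp P.isPGroup'
      have hRidx : R.index = q ^ k := by rw [← hk]; exact hcompl.symm.index_eq_card
      have hRnd : ¬ q ∣ Nat.card R := by
        rw [← hcompl.index_eq_card]; exact P.not_dvd_index
      have hle : Kq.subgroupOf C ≤ R := by
        intro x hx
        apply mem_normal_of_coprime_index_pow q R k hRidx x
        rw [Nat.coprime_comm, Nat.Prime.coprime_iff_not_dvd hq]
        intro hd
        apply hKqcard
        have h1 : orderOf x ∣ Nat.card (Kq.subgroupOf C) := by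
          have h0 := orderOf_dvd_natCard (⟨x, hx⟩ : Kq.subgroupOf C)
          rwa [Subgroup.orderOf_mk] at h0
        exact hd.trans (h1.trans (card_subgroupOf_dvd Kq C))
      have hcard1 : Nat.card (Kq.subgroupOf C) = Nat.card Kq :=
        Nat.card_congr (Subgroup.subgroupOfEquivOfLe hKqC).toEquiv
      have hcard2 : Nat.card Kq = Nat.card R := by
        have e6 : q ^ j * Nat.card Kq = q ^ k * Nat.card R := by
          have e7 := Subgroup.index_mul_card R
          rw [hRidx] at e7
          rw [e7, ← e1, inf_eq_left.mpr hKqC, mul_comm]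
        exact pow_mul_cancel hq hKqcard hRnd e6
      have heq : Kq.subgroupOf C = R :=
        Subgroup.eq_of_le_of_card_ge hle (by rw [hcard1, hcard2])
      have hnorm : (Kq.subgroupOf C).Normal := by rw [heq]; exact hRn
      exact (Subgroup.normal_subgroupOf_iff_le_normalizer hKqC).mp hnorm
    have hdisj : ∀ x, x ∈ N → x ∈ Kq → x = 1 := by
      intro x hxN hxK
      have h1 : orderOf x ∣ q ^ m := hm ▸ Subgroup.orderOf_dvd_natCard N hxN
      have h2 : orderOf x ∣ Nat.card Kq := Subgroup.orderOf_dvd_natCard Kq hxK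
      obtain ⟨i, -, hi⟩ := (Nat.dvd_prime_pow hq).mp h1
      rcases Nat.eq_zero_or_pos i with h0 | h0
      · rw [h0, pow_zero] at hi; exact orderOf_eq_one_iff.mp hi
      · exfalso; apply hKqcard
        exact (dvd_pow_self q h0.ne').trans (hi ▸ h2)
    have hNnorm : ∀ n' ∈ N, n' ∈ Subgroup.normalizer (Kq : Set G) →
        n' ∈ Subgroup.centralizer (Kq : Set G) := by
      intro n' hn' hnn
      rw [Subgroup.mem_centralizer_iff]
      intro k hk
      have h1 : n' * k * n'⁻¹ ∈ Kq := (Subgroup.mem_normalizer_iff.mp hnn k).mp hk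
      have h2 : n' * k * n'⁻¹ * k⁻¹ ∈ Kq := Kq.mul_mem h1 (Kq.inv_mem hk)
      have h3 : n' * k * n'⁻¹ * k⁻¹ ∈ N := by
        have e : n' * k * n'⁻¹ * k⁻¹ = n' * (k * n'⁻¹ * k⁻¹) := by group
        rw [e]; exact N.mul_mem hn' (hNn.conj_mem _ (N.inv_mem hn') k)
      have h4 := hdisj _ h3 h2
      calc k * n' = (n' * k * n'⁻¹ * k⁻¹)⁻¹ * (n' * k) := by group
        _ = n' * k := by rw [h4, inv_one, one_mul]
    obtain ⟨N₁, hN₁⟩ : ∃ N₁ : Subgroup G, N₁ = N ⊓ Subgroup.centralizer (Kq : Set G) :=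
      ⟨_, rfl⟩
    have hN₁n : N₁.Normal := by
      rw [← Subgroup.normalizer_eq_top_iff, eq_top_iff, ← hH]
      refine sup_le ?_ ?_
      · intro c hc
        rw [Subgroup.mem_normalizer_iff]
        intro x
        have hcz : ∀ c' ∈ C, ∀ y ∈ N₁, c' * y * c'⁻¹ ∈ N₁ := by
          intro c' hc' y hy
          rw [hN₁] at hy ⊢
          obtain ⟨hy1, hy2⟩ := Subgroup.mem_inf.mp hy
          refine Subgroup.mem_inf.mpr ⟨hNn.conj_mem y hy1 c', ?_⟩
          rw [Subgroup.mem_centralizer_iff] at hy2 ⊢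
          intro k hk
          have hk' : c'⁻¹ * k * c' ∈ Kq := by
            have h0 := (Subgroup.mem_normalizer_iff.mp (hCnKq (C.inv_mem hc')) k).mp hk
            rwa [inv_inv] at h0
          have h5 := hy2 _ hk'
          calc k * (c' * y * c'⁻¹) = c' * (c'⁻¹ * k * c' * y) * c'⁻¹ := by group
            _ = c' * (y * (c'⁻¹ * k * c')) * c'⁻¹ := by rw [h5]
            _ = c' * y * c'⁻¹ * k := by group
        constructor
        · exact hcz c hc x
        · intro hx
          have h6 := hcz c⁻¹ (C.inv_mem hc) _ hx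
          have e : c⁻¹ * (c * x * c⁻¹) * c⁻¹⁻¹ = x := by group
          rwa [e] at h6
      · intro n' hn'
        rw [Subgroup.mem_normalizer_iff]
        intro x
        have key : ∀ y ∈ N, n' * y * n'⁻¹ = y := by
          intro y hy
          rw [hNab n' hn' y hy, mul_inv_cancel_right]
        have hle : N₁ ≤ N := by rw [hN₁]; exact inf_le_left
        constructor
        · intro hx
          rw [key x (hle hx)]; exact hx
        · intro hx
          have hxN : x ∈ N := by
            have h := hle hx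
            have e : x = n'⁻¹ * (n' * x * n'⁻¹) * n'⁻¹⁻¹ := by group
            rw [e]; exact hNn.conj_mem _ h n'⁻¹
          rw [key x hxN] at hx; exact hx
    rcases hmin N₁ hN₁n (by rw [hN₁]; exact inf_le_left) with h | h
    · intro d hd
      have hdK : d ∈ Subgroup.normalizer (Kq : Set G) := by
        have h7 : Cfsg.systemNormalizer K ≤
            Subgroup.normalizer ((K ⟨q, hq⟩ : Subgroup G) : Set G) :=
          iInf_le (fun p : Nat.Primes => Subgroup.normalizer ((K p : Subgroup G) : Set G))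
            ⟨q, hq⟩
        rw [hKq]; exact h7 hd
      obtain ⟨c, hc, n', hn', rfl⟩ := Helper1.exists_mul_of_sup_eq_top hH d
      have hn'K : n' ∈ Subgroup.normalizer (Kq : Set G) := by
        have e : n' = c⁻¹ * (c * n') := by group
        rw [e]
        exact Subgroup.mul_mem _ (Subgroup.inv_mem _ (hCnKq hc)) hdK
      have h8 : n' ∈ N₁ := by
        rw [hN₁]; exact Subgroup.mem_inf.mpr ⟨hn', hNnorm n' hn' hn'K⟩
      rw [h, Subgroup.mem_bot] at h8
      rw [h8, mul_one]; exact hc
    · exfalso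
      have hNcent : N ≤ Subgroup.centralizer (Kq : Set G) := by
        rw [← h, hN₁]; exact inf_le_right
      obtain ⟨S⟩ : Nonempty (Sylow q G) := inferInstance
      letI : MulAction (S : Subgroup G) N :=
        MulAction.compHom N ((MulAut.conjNormal (H := N)).comp (S : Subgroup G).subtype)
      have hq_dvd : q ∣ Nat.card N := by
        rw [hm]
        have hm0 : m ≠ 0 := by
          rintro rfl
          rw [pow_zero] at hm
          exact hN0 (Subgroup.card_eq_one.mp hm)
        exact dvd_pow_self q hm0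
      have h1fix : (1 : N) ∈ MulAction.fixedPoints (S : Subgroup G) N := by
        intro s
        show (MulAut.conjNormal (s : G)) (1 : N) = 1
        exact map_one _
      obtain ⟨z, hzfix, hz1⟩ :=
        S.isPGroup'.exists_fixed_point_of_prime_dvd_card_of_fixed_point N hq_dvd h1fix
      have hzS : ∀ s ∈ (S : Subgroup G), s * (z : G) * s⁻¹ = z := by
        intro s hs
        have h2 : ((MulAut.conjNormal (s : G)) z : N) = z := hzfix ⟨s, hs⟩
        have h3 := congrArg Subtype.val h2
        rwa [MulAut.conjNormal_apply] at h3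
      have hzK : ∀ k ∈ Kq, k * (z : G) * k⁻¹ = z := by
        intro k hk
        have h2 := Subgroup.mem_centralizer_iff.mp (hNcent z.2) k hk
        rw [h2, mul_inv_cancel_right]
      have hSK : (S : Subgroup G) ⊔ Kq = ⊤ := by
        have hS : Nat.card (S : Subgroup G) = q ^ (Nat.card G).factorization q :=
          S.card_eq_multiplicity
        have h1 : Nat.card (S : Subgroup G) ∣ Nat.card ↥((S : Subgroup G) ⊔ Kq) :=
          Subgroup.card_dvd_of_le le_sup_left
        have h2 : Nat.card Kq ∣ Nat.card ↥((S : Subgroup G) ⊔ Kq) :=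
          Subgroup.card_dvd_of_le le_sup_right
        have hcop : (Nat.card (S : Subgroup G)).Coprime (Nat.card Kq) := by
          rw [hS]; exact Nat.Coprime.pow_left _ ((Nat.Prime.coprime_iff_not_dvd hq).mpr hKqcard)
        have h3 := Nat.Coprime.mul_dvd_of_dvd_of_dvd hcop h1 h2
        have h4 : Nat.card (S : Subgroup G) * Nat.card Kq = Nat.card G := by
          rw [hS, ← hKqidx]; exact Subgroup.index_mul_card Kq
        rw [h4] at h3
        exact Subgroup.eq_top_of_le_card _ (Nat.le_of_dvd Nat.card_pos h3)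
      have hcomm : ∀ g : G, g * (z : G) * g⁻¹ = z := by
        have h2 : (S : Subgroup G) ⊔ Kq ≤ Subgroup.centralizer ({(z : G)} : Set G) := by
          refine sup_le ?_ ?_
          · intro s hs
            rw [Subgroup.mem_centralizer_iff]
            intro y hy
            rw [Set.mem_singleton_iff] at hy
            rw [hy]
            have h3 := hzS s hs
            calc (z : G) * s = s * (z : G) * s⁻¹ * s := by rw [h3]
              _ = s * z := by group
          · intro k hk
            rw [Subgroup.mem_centralizer_iff]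
            intro y hy
            rw [Set.mem_singleton_iff] at hy
            rw [hy]
            have h3 := hzK k hk
            calc (z : G) * k = k * (z : G) * k⁻¹ * k := by rw [h3]
              _ = k * z := by group
        rw [hSK] at h2
        intro g
        have hg := h2 (Subgroup.mem_top g)
        rw [Subgroup.mem_centralizer_iff] at hg
        have h3 := hg z (Set.mem_singleton _)
        rw [← h3, mul_inv_cancel_right]
      have hzn : (z : G) ∈ Subgroup.normalizer (C : Set G) := by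
        rw [Subgroup.mem_normalizer_iff]
        intro x
        have e : (z : G) * x * (z : G)⁻¹ = x := by
          have h2 := hcomm x⁻¹
          rw [inv_inv] at h2
          calc (z : G) * x * (z : G)⁻¹ = x * (x⁻¹ * (z : G) * x) * (z : G)⁻¹ := by group
            _ = x := by rw [h2]; group
        rw [e]
      rw [hC.2] at hzn
      have h9 : (z : G) ∈ C ⊓ N := Subgroup.mem_inf.mpr ⟨hzn, z.2⟩
      rw [hCN, Subgroup.mem_bot] at h9
      exact hz1 (Subtype.ext h9.symm)
  · -- the case `C N < G`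
    have hredH : RedInto K (C ⊔ N) := redInto_sup K hK C N q hq m hm hred
    have hltH : Nat.card ↥(C ⊔ N) < n := by
      rw [← hn]; exact Helper1.card_lt_of_ne_top _ hH
    have hCH : C ≤ C ⊔ N := le_sup_left
    have hred2 : RedInto (fun p => (K p).subgroupOf (C ⊔ N)) (C.subgroupOf (C ⊔ N)) := by
      intro p
      obtain ⟨j, hj⟩ := hred p
      refine ⟨j, ?_⟩
      show ((K p).subgroupOf (C ⊔ N)).relIndex (C.subgroupOf (C ⊔ N)) = (p : ℕ) ^ j
      rw [Subgroup.relIndex_subgroupOf hCH]; exact hj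
    have ih2 := ih _ hltH ↥(C ⊔ N) rfl (C.subgroupOf (C ⊔ N))
      (fun p => (K p).subgroupOf (C ⊔ N))
      (carter_subgroupOf hC hCH) (isComplementSystem_subgroupOf K hK _ hredH) hred2
    intro d hd
    have h1 := ih2 (sysnorm_subgroupOf_mem K (C ⊔ N) d (hDH hd) hd)
    exact Subgroup.mem_subgroupOf.mp h1

/-- S0569. -/
theorem carter_sysnorm {G : Type u} [Group G] [Finite G] [Group.IsSolvable G] :
    (∀ C : Subgroup G, Cfsg.IsCarterSubgroup C →
      ∃ K : Nat.Primes → Subgroup G, Cfsg.IsComplementSystem K ∧ Cfsg.systemNormalizer K ≤ C) ∧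
    ∀ K : Nat.Primes → Subgroup G, Cfsg.IsComplementSystem K →
      ∃ C : Subgroup G, Cfsg.IsCarterSubgroup C ∧ Cfsg.systemNormalizer K ≤ C := by
  have key : ∀ C : Subgroup G, Helper1.IsCarter C →
      ∃ K : Nat.Primes → Subgroup G, Cfsg.IsComplementSystem K ∧ Cfsg.systemNormalizer K ≤ C := by
    intro C hC
    obtain ⟨K, hK, hred⟩ := exists_redInto C hC.1
    exact ⟨K, hK, sysnorm_le_carter _ G rfl C K hC hK hred⟩
  refine ⟨fun C hC => key C ⟨hC.1, hC.2⟩, ?_⟩
  intro K' hK'
  obtain ⟨C₀, hC₀⟩ := (Helper1.carter_main G).1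
  obtain ⟨K₀, hK₀, hD₀⟩ := key C₀ hC₀
  obtain ⟨g, hg⟩ := complement_systems_conj K₀ K' hK₀ hK'
  have hCg := hC₀.conj g
  refine ⟨MulAut.conj g • C₀, ⟨hCg.1, hCg.2⟩, ?_⟩
  intro x hx
  rw [Helper1.mem_conj_smul]
  apply hD₀
  unfold Cfsg.systemNormalizer at hx ⊢
  rw [Subgroup.mem_iInf] at hx ⊢
  intro p
  have h1 := hx p
  rw [← hg p, Helper1.mem_normalizer_conj_smul] at h1
  exact h1

end Cfsg.Agent.Helper4
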