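import Mathlib
import Cfsg.Prelude.Def_SolvableStructure
import Cfsg.Agent.Helper1.Coprime
import Cfsg.Agent.Helper4.CarterSys

set_option autoImplicit false

namespace Cfsg.Agent.Helper4

open scoped Pointwise

universe u

theorem relIndex_map_dvd {G H : Type*} [Group G] [Group H] (f : G →* H) (A B : Subgroup G) :
    (A.map f).relIndex (B.map f) ∣ A.relIndex B := by
  rw [← Subgroup.relIndex_comap]
  exact Subgroup.relIndex_dvd_of_le_left B (Subgroup.le_comap_map _ _)

theorem mem_normalizer_sup {G : Type*} [Group G] (A B : Subgroup G) (g : G)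
    (hA : g ∈ Subgroup.normalizer (A : Set G)) (hB : g ∈ Subgroup.normalizer (B : Set G)) :
    g ∈ Subgroup.normalizer ((A ⊔ B : Subgroup G) : Set G) := by
  rw [Helper1.mem_normalizer_iff_conj_smul] at hA hB ⊢
  rw [Subgroup.smul_sup, hA, hB]

/-- In a group with nilpotent normal subgroup `F` and nilpotent quotient, a Carter subgroup is the
system normalizer of a suitable complement system. -/
theorem carter_eq_sysnorm {G : Type u} [Group G] [Finite G] [Group.IsSolvable G]
    (F : Subgroup G) [F.Normal] (hF : Group.IsNilpotent F) (hGF : Group.IsNilpotent (G ⧸ F))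
    (C : Subgroup G) (hC : Helper1.IsCarter C) :
    ∃ K : Nat.Primes → Subgroup G, Cfsg.IsComplementSystem K ∧ C = Cfsg.systemNormalizer K := by
  haveI := hF
  haveI := hC.1
  -- `C F = G`
  have hCF : C ⊔ F = ⊤ := by
    have h1 := carter_map C F hC
    have h2 : C.map (QuotientGroup.mk' F) = ⊤ :=
      (normalizerCondition_iff_only_full_group_self_normalizing.mp
        normalizerCondition_of_isNilpotent) _ h1.2
    rw [eq_top_iff]
    intro x _
    have h3 : x ∈ (C.map (QuotientGroup.mk' F)).comap (QuotientGroup.mk' F) := by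
      rw [h2]; exact Subgroup.mem_top _
    rwa [Subgroup.comap_map_eq, QuotientGroup.ker_mk'] at h3
  have h : ∀ p : Nat.Primes, ∃ L : Subgroup G,
      L.index = (p : ℕ) ^ (Nat.card G).factorization p ∧ (∃ j : ℕ, L.relIndex C = (p : ℕ) ^ j) ∧
      C ≤ Subgroup.normalizer (L : Set G) := by
    intro p
    haveI : Fact (p : ℕ).Prime := ⟨p.2⟩
    obtain ⟨R, hRC, hRn, hRp, j, hj⟩ := exists_normal_compl_of_nilpotent C p
    obtain ⟨T, hTF, hTn, hTp, i, hi⟩ := exists_normal_compl_of_nilpotent F p
    -- `T` is normal in `G`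
    have hTnormal : T.Normal := by
      haveI hTsub : (T.subgroupOf F).Normal :=
        (Subgroup.normal_subgroupOf_iff_le_normalizer hTF).mpr hTn
      constructor
      intro n hn g
      have hnF : n ∈ F := hTF hn
      have hgF : g * n * g⁻¹ ∈ F := Subgroup.Normal.conj_mem inferInstance n hnF g
      have hmem : (⟨g * n * g⁻¹, hgF⟩ : F) ∈ T.subgroupOf F := by
        apply mem_normal_of_coprime_index_pow (p : ℕ) (T.subgroupOf F) i hi
        have ho : orderOf (g * n * g⁻¹) = orderOf n := by
          rw [← MulAut.conj_apply]; exact MulEquiv.orderOf_eq _ _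
        rw [Subgroup.orderOf_mk, ho, Nat.coprime_comm, Nat.Prime.coprime_iff_not_dvd p.2]
        intro hd
        exact hTp (hd.trans (Subgroup.orderOf_dvd_natCard T hn))
      exact Subgroup.mem_subgroupOf.mp hmem
    refine ⟨R ⊔ T, ?_, ?_, ?_⟩
    · have hidx : ∃ a : ℕ, (R ⊔ T).index = (p : ℕ) ^ a := by
        have h1 : (R ⊔ T).relIndex (R ⊔ F) * (R ⊔ F).index = (R ⊔ T).index :=
          Subgroup.relIndex_mul_index (sup_le_sup_left hTF R)
        have h2 : (R ⊔ T).relIndex (R ⊔ F) ∣ (p : ℕ) ^ i := by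
          have e : R ⊔ F = (R ⊔ T) ⊔ F := by
            rw [sup_assoc, sup_eq_right.mpr hTF]
          rw [e, relIndex_sup_normal, ← hi]
          exact Subgroup.relIndex_dvd_of_le_left F le_sup_right
        have h3 : (R ⊔ F).index ∣ (p : ℕ) ^ j := by
          rw [← hj, ← Subgroup.relIndex_top_right, ← hCF]
          have h4 := relIndex_map_dvd (QuotientGroup.mk' F) R C
          rw [Subgroup.relIndex_map_map, QuotientGroup.ker_mk'] at h4
          exact h4
        obtain ⟨a, -, ha⟩ := (Nat.dvd_prime_pow p.2).mp h2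
        obtain ⟨b, -, hb⟩ := (Nat.dvd_prime_pow p.2).mp h3
        exact ⟨a + b, by rw [← h1, ha, hb, pow_add]⟩
      have hnd : ¬ (p : ℕ) ∣ Nat.card ↥(R ⊔ T) := by
        have h1 := card_sup_mul_card_inf R T (by rw [Subgroup.normalizer_eq_top]; exact le_top)
        intro hd
        have h2 : (p : ℕ) ∣ Nat.card R * Nat.card T := by
          rw [← h1]; exact Dvd.dvd.mul_right hd _
        rcases (Nat.Prime.dvd_mul p.2).mp h2 with h3 | h3
        · exact hRp h3
        · exact hTp h3
      obtain ⟨a, ha⟩ := hidx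
      exact index_eq_pow_factorization _ p p.2 a ha hnd
    · have h1 : (R ⊔ T).relIndex C ∣ R.relIndex C := Subgroup.relIndex_dvd_of_le_left C le_sup_left
      rw [hj] at h1
      obtain ⟨a, -, ha⟩ := (Nat.dvd_prime_pow p.2).mp h1
      exact ⟨a, ha⟩
    · intro c hc
      apply mem_normalizer_sup R T c (hRn hc)
      rw [Subgroup.normalizer_eq_top]; exact Subgroup.mem_top c
  choose K hK1 hK2 hK3 using h
  refine ⟨K, hK1, le_antisymm ?_ (sysnorm_le_carter _ G rfl C K hC hK1 hK2)⟩
  unfold Cfsg.systemNormalizer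
  exact le_iInf hK3

/-- S0570. -/
theorem carter_iff_sysnorm {G : Type u} [Group G] [Finite G]
    (F : Subgroup G) [F.Normal] (hF : Group.IsNilpotent F) (hGF : Group.IsNilpotent (G ⧸ F))
    (C : Subgroup G) :
    Cfsg.IsCarterSubgroup C ↔
      ∃ K : Nat.Primes → Subgroup G, Cfsg.IsComplementSystem K ∧ C = Cfsg.systemNormalizer K := by
  haveI : Group.IsSolvable G := by
    haveI := hF
    haveI := hGF
    exact solvable_of_ker_le_range F.subtype (QuotientGroup.mk' F)
      (by rw [QuotientGroup.ker_mk', Subgroup.range_subtype])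
  constructor
  · intro hC
    exact carter_eq_sysnorm F hF hGF C ⟨hC.1, hC.2⟩
  · rintro ⟨K', hK', rfl⟩
    obtain ⟨C₀, hC₀⟩ := (Helper1.carter_main G).1
    obtain ⟨K₀, hK₀, hD₀⟩ := carter_eq_sysnorm F hF hGF C₀ hC₀
    obtain ⟨g, hg⟩ := complement_systems_conj K₀ K' hK₀ hK'
    have hCg := hC₀.conj g
    have heq : Cfsg.systemNormalizer K' = MulAut.conj g • C₀ := by
      ext x
      rw [Helper1.mem_conj_smul, hD₀]
      unfold Cfsg.systemNormalizer
      rw [Subgroup.mem_iInf, Subgroup.mem_iInf]
      refine forall_congr' (fun p => ?_)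
      rw [← hg p, Helper1.mem_normalizer_conj_smul]
    rw [heq]
    exact ⟨hCg.1, hCg.2⟩

end Cfsg.Agent.Helper4
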