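import Mathlib

set_option autoImplicit false

namespace Cfsg.Agent.Helper4

theorem sup_eq_top_of_coreFree_coatom {G : Type*} [Group G] (U : Subgroup G) (hU : IsCoatom U)
    (hcore : U.normalCore = ⊥) (K : Subgroup G) (hK : K.Normal) (hK0 : K ≠ ⊥) : K ⊔ U = ⊤ := by
  have hnle : ¬ K ≤ U := by
    intro hle
    apply hK0
    have : K ≤ U.normalCore := (Subgroup.normal_le_normalCore).mpr hle
    rw [hcore] at this
    exact le_bot_iff.mp this
  have hlt : U < K ⊔ U :=
    lt_of_le_of_ne le_sup_right (fun heq => hnle (by rw [heq]; exact le_sup_left))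
  exact hU.2 _ hlt

theorem exists_mul_of_coreFree_coatom {G : Type*} [Group G] (U : Subgroup G) (hU : IsCoatom U)
    (hcore : U.normalCore = ⊥) (K : Subgroup G) (hK : K.Normal) (hK0 : K ≠ ⊥) (g : G) :
    ∃ k ∈ K, ∃ u ∈ U, k * u = g := by
  have hg : g ∈ K ⊔ U := by
    rw [sup_eq_top_of_coreFree_coatom U hU hcore K hK hK0]; trivial
  exact Subgroup.mem_sup_of_normal_left.mp hg

theorem centralizer_inf_eq_bot_of_coreFree_coatom {G : Type*} [Group G] (U : Subgroup G)
    (hU : IsCoatom U) (hcore : U.normalCore = ⊥) (N : Subgroup G) [hNn : N.Normal] (hN : N ≠ ⊥) :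
    Subgroup.centralizer (N : Set G) ⊓ U = ⊥ := by
  have hCn : (Subgroup.centralizer (N : Set G)).Normal := inferInstance
  have hnorm : (Subgroup.centralizer (N : Set G) ⊓ U).Normal := by
    constructor
    intro d hd g
    obtain ⟨n, hn, u, hu, rfl⟩ := exists_mul_of_coreFree_coatom U hU hcore N hNn hN g
    rw [Subgroup.mem_inf] at hd
    have h1 : u * d * u⁻¹ ∈ Subgroup.centralizer (N : Set G) := hCn.conj_mem d hd.1 u
    have h2 : u * d * u⁻¹ ∈ U := U.mul_mem (U.mul_mem hu hd.2) (U.inv_mem hu)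
    have h3 : n * (u * d * u⁻¹) * n⁻¹ = u * d * u⁻¹ := by
      have h1' := h1
      rw [Subgroup.mem_centralizer_iff] at h1'
      rw [h1' n hn]; group
    have h4 : n * u * d * (n * u)⁻¹ = n * (u * d * u⁻¹) * n⁻¹ := by group
    rw [h4, h3]
    exact Subgroup.mem_inf.mpr ⟨h1, h2⟩
  have : Subgroup.centralizer (N : Set G) ⊓ U ≤ U.normalCore :=
    (Subgroup.normal_le_normalCore).mpr inf_le_right
  rw [hcore] at this
  exact le_bot_iff.mp this

theorem centralizer_minimal_of_coreFree_coatom {G : Type*} [Group G] (U : Subgroup G)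
    (hU : IsCoatom U) (hcore : U.normalCore = ⊥) (N : Subgroup G) [hNn : N.Normal] (hN : N ≠ ⊥)
    (K : Subgroup G) (hK : K.Normal) (hKC : K ≤ Subgroup.centralizer (N : Set G)) (hK0 : K ≠ ⊥) :
    K = Subgroup.centralizer (N : Set G) := by
  have hD := centralizer_inf_eq_bot_of_coreFree_coatom U hU hcore N hN
  apply le_antisymm hKC
  intro c hc
  obtain ⟨k, hk, u, hu, rfl⟩ := exists_mul_of_coreFree_coatom U hU hcore K hK hK0 c
  have hu' : u ∈ Subgroup.centralizer (N : Set G) ⊓ U := by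
    refine Subgroup.mem_inf.mpr ⟨?_, hu⟩
    have : u = k⁻¹ * (k * u) := by group
    rw [this]
    exact Subgroup.mul_mem _ (Subgroup.inv_mem _ (hKC hk)) hc
  rw [hD, Subgroup.mem_bot] at hu'
  rw [hu', mul_one]
  exact hk

end Cfsg.Agent.Helper4
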