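import Mathlib
import Cfsg.Agent.Helper4.Schmidt
import Cfsg.Prelude.Def_Transfer

set_option autoImplicit false

namespace Cfsg.Agent.Helper4

universe u

/-- If `y` (of order coprime to `q`) normalizes the abelian subgroup `X` and centralizes all its
elements of order dividing `q`, then it centralizes every `q`-element of `X`. -/
theorem centralizes_of_centralizes_omega {G : Type*} [Group G] (X : Subgroup G)
    (hXc : ∀ a ∈ X, ∀ b ∈ X, a * b = b * a) (q : ℕ) (y : G)
    (hyN : ∀ x ∈ X, y * x * y⁻¹ ∈ X) (hy : (orderOf y).Coprime q)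
    (hΩ : ∀ x ∈ X, x ^ q = 1 → y * x = x * y) :
    ∀ (n : ℕ) (x : G), x ∈ X → x ^ q ^ n = 1 → y * x = x * y := by
  intro n
  induction n with
  | zero =>
    intro x _ hx1
    rw [pow_zero, pow_one] at hx1
    rw [hx1, mul_one, one_mul]
  | succ n ih =>
    intro x hx hxn
    have hxq : (x ^ q) ^ q ^ n = 1 := by
      rw [← pow_mul, ← pow_succ']; exact hxn
    have h1 : y * x ^ q = x ^ q * y := ih (x ^ q) (X.pow_mem hx q) hxq
    obtain ⟨c, hc⟩ : ∃ c, c = x⁻¹ * (y * x * y⁻¹) := ⟨_, rfl⟩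
    have hcX : c ∈ X := by rw [hc]; exact X.mul_mem (X.inv_mem hx) (hyN x hx)
    have hcq : c ^ q = 1 := by
      have hcomm : Commute x⁻¹ (y * x * y⁻¹) := hXc _ (X.inv_mem hx) _ (hyN x hx)
      rw [hc, hcomm.mul_pow, inv_pow, conj_pow, h1]
      simp
    have hyc : Commute y c := hΩ c hcX hcq
    have hyx : y * x = x * c * y := by rw [hc]; group
    have key : ∀ i : ℕ, y ^ i * x = x * c ^ i * y ^ i := by
      intro i
      induction i with
      | zero => simp
      | succ i ih2 =>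
        have h2 : y ^ i * c = c * y ^ i := (hyc.pow_left i).eq
        calc y ^ (i + 1) * x = y ^ i * (y * x) := by rw [pow_succ, mul_assoc]
          _ = y ^ i * (x * c * y) := by rw [hyx]
          _ = (y ^ i * x) * c * y := by simp only [mul_assoc]
          _ = x * c ^ i * y ^ i * c * y := by rw [ih2]
          _ = x * c ^ i * (y ^ i * c) * y := by simp only [mul_assoc]
          _ = x * c ^ i * (c * y ^ i) * y := by rw [h2]
          _ = x * c ^ (i + 1) * y ^ (i + 1) := by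
            rw [pow_succ, pow_succ]; simp only [mul_assoc]
    have h3 := key (orderOf y)
    rw [pow_orderOf_eq_one, one_mul, mul_one] at h3
    have hcm : c ^ orderOf y = 1 := by
      have : x * c ^ orderOf y = x * 1 := by rw [mul_one]; exact h3.symm
      exact mul_left_cancel this
    have hc1 : c = 1 := by
      have hd : orderOf c ∣ Nat.gcd (orderOf y) q :=
        Nat.dvd_gcd (orderOf_dvd_of_pow_eq_one hcm) (orderOf_dvd_of_pow_eq_one hcq)
      rw [hy.gcd_eq_one, Nat.dvd_one] at hd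
      exact orderOf_eq_one_iff.mp hd
    rw [hyx, hc1, mul_one]

/-- The elements of order dividing `q` in an abelian subgroup. -/
def omegaSub {G : Type*} [Group G] (X : Subgroup G) (hXc : ∀ a ∈ X, ∀ b ∈ X, a * b = b * a)
    (q : ℕ) : Subgroup G where
  carrier := {x | x ∈ X ∧ x ^ q = 1}
  mul_mem' := by
    rintro a b ⟨ha, ha1⟩ ⟨hb, hb1⟩
    refine ⟨X.mul_mem ha hb, ?_⟩
    have hc : Commute a b := hXc a ha b hb
    rw [hc.mul_pow, ha1, hb1, one_mul]
  one_mem' := ⟨X.one_mem, one_pow q⟩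
  inv_mem' := by
    rintro a ⟨ha, ha1⟩
    exact ⟨X.inv_mem ha, by rw [inv_pow, ha1, inv_one]⟩

theorem mem_omegaSub {G : Type*} [Group G] (X : Subgroup G)
    (hXc : ∀ a ∈ X, ∀ b ∈ X, a * b = b * a) (q : ℕ) (x : G) :
    x ∈ omegaSub X hXc q ↔ x ∈ X ∧ x ^ q = 1 := Iff.rfl

theorem omegaSub_normal {G : Type*} [Group G] (X : Subgroup G) [hXn : X.Normal]
    (hXc : ∀ a ∈ X, ∀ b ∈ X, a * b = b * a) (q : ℕ) : (omegaSub X hXc q).Normal := by
  constructor
  intro n hn g
  rw [mem_omegaSub] at hn ⊢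
  refine ⟨hXn.conj_mem n hn.1 g, ?_⟩
  rw [conj_pow, hn.2, mul_one, mul_inv_cancel]

/-- Miller–Moreno: structure of minimal non-abelian groups. -/
theorem miller_moreno {G : Type u} [Group G] [Finite G] (hna : ¬ IsMulCommutative G)
    (h : ∀ H : Subgroup G, H ≠ ⊤ → IsMulCommutative H) :
    (∃ p : ℕ, p.Prime ∧ IsPGroup p G) ∨ ∃ p q : ℕ, p.Prime ∧ q.Prime ∧ p ≠ q ∧
      ∃ (P : Sylow p G) (Q : Sylow q G), IsCyclic P ∧ (Q : Subgroup G).Normal ∧
        Cfsg.IsElementaryAbelian q (Q : Subgroup G) ∧ (P : Subgroup G) ⊔ Q = ⊤ := by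
  have hnil : ∀ H : Subgroup G, H ≠ ⊤ → Group.IsNilpotent H := fun H hH =>
    ⟨⟨1, Subgroup.upperCentralSeries_one_eq_top_iff.mpr (h H hH)⟩⟩
  by_cases hG : Group.IsNilpotent G
  · left
    have hcard : Nat.card G ≠ 1 := by
      intro h1
      apply hna
      haveI : Subsingleton G := (Nat.card_eq_one_iff_unique.mp h1).1
      exact IsMulCommutative.of_comm (fun a b => Subsingleton.elim _ _)
    obtain ⟨p, hp, hpd⟩ := Nat.exists_prime_and_dvd hcard
    haveI : Fact p.Prime := ⟨hp⟩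
    obtain ⟨P⟩ : Nonempty (Sylow p G) := inferInstance
    refine ⟨p, hp, ?_⟩
    by_contra hnp
    have hPne : (P : Subgroup G) ≠ ⊤ := by
      intro hPt
      apply hnp
      intro g
      obtain ⟨k, hk⟩ := P.2 ⟨g, by rw [hPt]; exact Subgroup.mem_top g⟩
      exact ⟨k, by simpa using congrArg Subtype.val hk⟩
    have tfae := (Group.isNilpotent_of_finite_tfae (G := G)).out 0 3
    haveI hPn : (P : Subgroup G).Normal := (tfae.mp hG) p inferInstance P
    haveI := hG
    obtain ⟨K, hKn, hKc⟩ :=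
      Cfsg.Agent.Lead.frobenius_npc (frobHyp_of_isNilpotent (G := G) p) P
    have hKne : K ≠ ⊤ := by
      intro hKt
      rw [hKt, Subgroup.isComplement'_top_left] at hKc
      exact P.ne_bot_of_dvd_card hpd hKc
    haveI := h (P : Subgroup G) hPne
    haveI := h K hKne
    apply hna
    refine IsMulCommutative.of_comm (fun a b => ?_)
    have ha : a ∈ K ⊔ (P : Subgroup G) := by rw [hKc.sup_eq_top]; exact Subgroup.mem_top a
    have hb : b ∈ K ⊔ (P : Subgroup G) := by rw [hKc.sup_eq_top]; exact Subgroup.mem_top b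
    obtain ⟨k₁, hk₁, x₁, hx₁, rfl⟩ := Subgroup.mem_sup_of_normal_right.mp ha
    obtain ⟨k₂, hk₂, x₂, hx₂, rfl⟩ := Subgroup.mem_sup_of_normal_right.mp hb
    have hc1 : x₁ * k₂ = k₂ * x₁ :=
      (Subgroup.commute_of_normal_of_disjoint _ _ hPn hKn hKc.disjoint.symm x₁ k₂ hx₁ hk₂).eq
    have hc2 : k₁ * x₂ = x₂ * k₁ :=
      (Subgroup.commute_of_normal_of_disjoint _ _ hKn hPn hKc.disjoint k₁ x₂ hk₁ hx₂).eq
    have hK12 : k₁ * k₂ = k₂ * k₁ := setLike_mul_comm hk₁ hk₂
    have hP12 : x₁ * x₂ = x₂ * x₁ := setLike_mul_comm hx₁ hx₂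
    calc k₁ * x₁ * (k₂ * x₂) = k₁ * (x₁ * k₂) * x₂ := by group
      _ = k₁ * (k₂ * x₁) * x₂ := by rw [hc1]
      _ = (k₁ * k₂) * (x₁ * x₂) := by group
      _ = (k₂ * k₁) * (x₂ * x₁) := by rw [hK12, hP12]
      _ = k₂ * (k₁ * x₂) * x₁ := by group
      _ = k₂ * (x₂ * k₁) * x₁ := by rw [hc2]
      _ = k₂ * x₂ * (k₁ * x₁) := by group
  · right
    obtain ⟨p, q, X, y, hpF, hqF, P, Q, hpq, hP, hQ, hXn, htop, hyC, hdis, hcard⟩ :=
      schmidt_sylow ⟨hG, hnil⟩
    haveI := hpF
    haveI := hqF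
    haveI := hXn
    have hXne : X ≠ ⊤ := by
      intro hXt
      have hy1 : y ∈ X ⊓ Subgroup.zpowers y :=
        ⟨by rw [hXt]; exact Subgroup.mem_top y, Subgroup.mem_zpowers y⟩
      rw [hdis, Subgroup.mem_bot] at hy1
      rw [hy1] at hyC
      exact hyC (Subgroup.one_mem _)
    haveI hXab : IsMulCommutative ↥X := h X hXne
    have hXc : ∀ a ∈ X, ∀ b ∈ X, a * b = b * a := fun a ha b hb => setLike_mul_comm ha hb
    have hXq : IsPGroup q ↥X := by rw [← hQ]; exact Q.2
    have hyo : orderOf y = p ^ (Nat.card G).factorization p := by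
      rw [← Nat.card_zpowers, ← hP]; exact P.card_eq_multiplicity
    have hycop : (orderOf y).Coprime q := by
      rw [hyo]; exact Nat.Coprime.pow_left _ ((Nat.coprime_primes hpF.out hqF.out).mpr hpq)
    have hyN : ∀ x ∈ X, y * x * y⁻¹ ∈ X := fun x hx => hXn.conj_mem x hx y
    haveI hΩn : (omegaSub X hXc q).Normal := omegaSub_normal X hXc q
    have hΩtop : omegaSub X hXc q ⊔ Subgroup.zpowers y = ⊤ := by
      by_contra hne
      haveI := h _ hne
      apply hyC
      rw [Subgroup.mem_centralizer_iff]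
      intro x hx
      obtain ⟨n, hn⟩ := hXq ⟨x, hx⟩
      have hn' : x ^ q ^ n = 1 := by simpa using congrArg Subtype.val hn
      exact (centralizes_of_centralizes_omega X hXc q y hyN hycop (fun z hz hz1 =>
        setLike_mul_comm (s := omegaSub X hXc q ⊔ Subgroup.zpowers y)
          (le_sup_right (a := omegaSub X hXc q) (Subgroup.mem_zpowers y))
          (le_sup_left (b := Subgroup.zpowers y) ((mem_omegaSub X hXc q z).mpr ⟨hz, hz1⟩)))
        n x hx hn').symm
    have hXΩ : ∀ x ∈ X, x ^ q = 1 := by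
      intro x hx
      have hx' : x ∈ omegaSub X hXc q ⊔ Subgroup.zpowers y := by
        rw [hΩtop]; exact Subgroup.mem_top x
      obtain ⟨ω, hω, z, hz, hωz⟩ := Subgroup.mem_sup_of_normal_left.mp hx'
      rw [mem_omegaSub] at hω
      have hzX : z ∈ X := by
        have : z = ω⁻¹ * x := by rw [← hωz]; group
        rw [this]; exact X.mul_mem (X.inv_mem hω.1) hx
      have hz1 : z = 1 := by
        have : z ∈ X ⊓ Subgroup.zpowers y := ⟨hzX, hz⟩
        rwa [hdis, Subgroup.mem_bot] at this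
      rw [hz1, mul_one] at hωz
      rw [← hωz]; exact hω.2
    refine ⟨p, q, hpF.out, hqF.out, hpq, P, Q, ?_, ?_, ?_, ?_⟩
    · show IsCyclic ↥(P : Subgroup G)
      rw [hP]; infer_instance
    · rw [hQ]; exact hXn
    · unfold Cfsg.IsElementaryAbelian
      rw [hQ]; exact ⟨hXab, hXΩ⟩
    · rw [hP, hQ, sup_comm]; exact htop

end Cfsg.Agent.Helper4
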