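import Mathlib
import Cfsg.Agent.Helper4.CoreFree
import Cfsg.Agent.Helper4.MillerMoreno
import Cfsg.Agent.Helper16.PCore

set_option autoImplicit false

namespace Cfsg.Agent.Helper4

open scoped Pointwise

/-- A `q`-group `Q` acting by conjugation on a normal subgroup `L` with only trivial fixed
points forces `|L| ≡ 1 mod q`. -/
theorem card_modEq_one_of_fixed_trivial {G : Type*} [Group G] [Finite G] (q : ℕ)
    [Fact q.Prime] (L Q : Subgroup G) [hLn : L.Normal] (hQ : IsPGroup q Q)
    (hF : ∀ l ∈ L, (∀ x ∈ Q, x * l = l * x) → l = 1) : Nat.card L ≡ 1 [MOD q] := by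
  letI : MulAction Q L := MulAction.compHom L ((MulAut.conjNormal (H := L)).comp Q.subtype)
  have h1 := hQ.card_modEq_card_fixedPoints L
  have h2 : Nat.card (MulAction.fixedPoints Q L) = 1 := by
    rw [Nat.card_eq_one_iff_unique]
    refine ⟨⟨?_⟩, ⟨⟨1, ?_⟩⟩⟩
    · rintro ⟨a, ha⟩ ⟨b, hb⟩
      have key : ∀ c : L, c ∈ MulAction.fixedPoints Q L → c = 1 := by
        intro c hc
        apply Subtype.ext
        apply hF c c.2
        intro x hx
        have h3 := hc ⟨x, hx⟩
        have h4 : ((⟨x, hx⟩ : Q) • c : L) = MulAut.conjNormal x c := rfl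
        rw [h4] at h3
        have h5 := congrArg Subtype.val h3
        rw [MulAut.conjNormal_apply] at h5
        calc x * (c : G) = (x * (c : G) * x⁻¹) * x := by group
          _ = (c : G) * x := by rw [h5]
      apply Subtype.ext
      exact (key a ha).trans (key b hb).symm
    · intro x
      show MulAut.conjNormal (x : G) (1 : L) = 1
      exact map_one _
  rw [h2] at h1
  exact h1

theorem coreFree_pCore {G : Type*} [Group G] [Finite G] (p : ℕ) [Fact p.Prime]
    (hL : Cfsg.pCore p G ≠ ⊥) (M : Subgroup G) (hM : IsCoatom M) (hcore : M.normalCore = ⊥) :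
    Cfsg.IsElementaryAbelian p (Cfsg.pCore p G) ∧ Subgroup.IsComplement' (Cfsg.pCore p G) M ∧
    (∀ K : Subgroup G, K.Normal → K ≤ Cfsg.pCore p G → K = ⊥ ∨ K = Cfsg.pCore p G) ∧
    Subgroup.centralizer ((Cfsg.pCore p G : Subgroup G) : Set G) = Cfsg.pCore p G ∧
    ∀ (q : ℕ) [Fact q.Prime], Cfsg.pCore q ↥M ≠ ⊥ →
      Nat.card (Cfsg.pCore p G) % q = 1 % q ∧ q ≠ p := by
  classical
  obtain ⟨L, hLdef⟩ : ∃ L : Subgroup G, L = Cfsg.pCore p G := ⟨_, rfl⟩
  rw [← hLdef] at hL ⊢
  have hLn : L.Normal := by rw [hLdef]; exact Cfsg.Agent.Helper16.pCore_normal p G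
  haveI := hLn
  have hLp : IsPGroup p L := by rw [hLdef]; exact Cfsg.Agent.Helper16.pCore_isPGroup p G
  haveI : Nontrivial L := (Subgroup.nontrivial_iff_ne_bot L).mpr hL
  haveI : Nontrivial (Subgroup.center L) := hLp.center_nontrivial
  obtain ⟨Z, hZdef⟩ : ∃ Z : Subgroup G, Z = (Subgroup.center L).map L.subtype := ⟨_, rfl⟩
  have hZn : Z.Normal := by rw [hZdef]; exact ConjAct.normal_of_characteristic_of_normal
  have hZL : Z ≤ L := by rw [hZdef]; exact Subgroup.map_subtype_le _
  have hZ0 : Z ≠ ⊥ := by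
    intro h
    rw [hZdef] at h
    have h1 := (Subgroup.map_eq_bot_iff_of_injective _ L.subtype_injective).mp h
    exact (Subgroup.nontrivial_iff_ne_bot _).mp inferInstance h1
  have hLZ : L ≤ Subgroup.centralizer (Z : Set G) := by
    intro l hl
    rw [Subgroup.mem_centralizer_iff]
    intro z hz
    rw [hZdef] at hz
    obtain ⟨z', hz', rfl⟩ := Subgroup.mem_map.mp hz
    have h1 := (Subgroup.mem_center_iff.mp hz') ⟨l, hl⟩
    exact (congrArg Subtype.val h1).symm
  haveI := hZn
  have hZC : Z = Subgroup.centralizer (Z : Set G) :=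
    centralizer_minimal_of_coreFree_coatom M hM hcore Z hZ0 Z hZn (hZL.trans hLZ) hZ0
  have hLeqZ : L = Z := le_antisymm (le_of_le_of_eq hLZ hZC.symm) hZL
  have hCL : Subgroup.centralizer (L : Set G) = L := by
    rw [hLeqZ]; exact hZC.symm
  have hLcomm : ∀ x ∈ L, ∀ y ∈ L, x * y = y * x := by
    intro x hx y hy
    have h1 : x ∈ Subgroup.centralizer (L : Set G) := by rw [hCL]; exact hx
    exact ((Subgroup.mem_centralizer_iff.mp h1) y hy).symm
  have hmin : ∀ K : Subgroup G, K.Normal → K ≤ L → K = ⊥ ∨ K = L := by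
    intro K hKn hKL
    by_cases hK0 : K = ⊥
    · exact Or.inl hK0
    · right
      have h1 := centralizer_minimal_of_coreFree_coatom M hM hcore L hL K hKn
        (by rw [hCL]; exact hKL) hK0
      exact h1.trans hCL
  obtain ⟨k, hk⟩ := (IsPGroup.iff_card).mp hLp
  have hk0 : k ≠ 0 := by
    rintro rfl
    rw [pow_zero] at hk
    exact hL (Subgroup.card_eq_one.mp hk)
  have hpL : p ∣ Nat.card L := by rw [hk]; exact dvd_pow_self p hk0
  have hexp : ∀ a ∈ L, a ^ p = 1 := by
    have hΩn : (omegaSub L hLcomm p).Normal := omegaSub_normal L hLcomm p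
    have hΩL : omegaSub L hLcomm p ≤ L := fun a ha => ((mem_omegaSub L hLcomm p a).mp ha).1
    have hΩ0 : omegaSub L hLcomm p ≠ ⊥ := by
      obtain ⟨x, hx⟩ := exists_prime_orderOf_dvd_card' (G := ↥L) p hpL
      intro h
      have hxΩ : (x : G) ∈ omegaSub L hLcomm p := by
        rw [mem_omegaSub]
        refine ⟨x.2, ?_⟩
        have h1 : x ^ p = 1 := by rw [← hx]; exact pow_orderOf_eq_one x
        have h2 := congrArg Subtype.val h1
        simpa using h2
      rw [h, Subgroup.mem_bot] at hxΩ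
      have h3 : x = 1 := Subtype.ext hxΩ
      rw [h3, orderOf_one] at hx
      exact (Fact.out : p.Prime).one_lt.ne hx
    rcases hmin _ hΩn hΩL with h | h
    · exact absurd h hΩ0
    · intro a ha
      have h1 : a ∈ omegaSub L hLcomm p := by rw [h]; exact ha
      exact ((mem_omegaSub L hLcomm p a).mp h1).2
  have hdisj : L ⊓ M = ⊥ := by
    have h1 := centralizer_inf_eq_bot_of_coreFree_coatom M hM hcore L hL
    rwa [hCL] at h1
  have hcompl : Subgroup.IsComplement' L M := by
    apply Subgroup.isComplement'_of_disjoint_and_mul_eq_univ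
    · exact disjoint_iff.mpr hdisj
    · apply Set.eq_univ_of_forall
      intro g
      obtain ⟨k, hk, u, hu, rfl⟩ := exists_mul_of_coreFree_coatom M hM hcore L hLn hL g
      exact Set.mul_mem_mul hk hu
  refine ⟨⟨IsMulCommutative.of_comm (fun a b => Subtype.ext (hLcomm a a.2 b b.2)), hexp⟩,
    hcompl, hmin, hCL, ?_⟩
  intro q hq hQ0
  haveI := hq
  obtain ⟨Q, hQdef⟩ : ∃ Q : Subgroup G, Q = (Cfsg.pCore q ↥M).map M.subtype := ⟨_, rfl⟩
  have hQq : IsPGroup q Q := by
    rw [hQdef]; exact (Cfsg.Agent.Helper16.pCore_isPGroup q ↥M).map M.subtype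
  have hQM : Q ≤ M := by rw [hQdef]; exact Subgroup.map_subtype_le _
  have hQne : Q ≠ ⊥ := by
    intro h
    rw [hQdef] at h
    exact hQ0 ((Subgroup.map_eq_bot_iff_of_injective _ M.subtype_injective).mp h)
  have hMQ : ∀ m ∈ M, ∀ x ∈ Q, m⁻¹ * x * m ∈ Q := by
    intro m hm x hx
    rw [hQdef] at hx ⊢
    obtain ⟨x', hx', rfl⟩ := Subgroup.mem_map.mp hx
    have hn := (Cfsg.Agent.Helper16.pCore_normal q ↥M).conj_mem x' hx' (⟨m, hm⟩⁻¹ : M)
    refine Subgroup.mem_map.mpr ⟨_, hn, ?_⟩
    simp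
  have hF : ∀ l ∈ L, (∀ x ∈ Q, x * l = l * x) → l = 1 := by
    have hFn : (Subgroup.centralizer (Q : Set G) ⊓ L).Normal := by
      constructor
      intro f hf g
      obtain ⟨hf1, hf2⟩ := Subgroup.mem_inf.mp hf
      obtain ⟨l, hl, m, hm, rfl⟩ := exists_mul_of_coreFree_coatom M hM hcore L hLn hL g
      have h1 : m * f * m⁻¹ ∈ L := hLn.conj_mem f hf2 m
      have h2 : l * m * f * (l * m)⁻¹ = m * f * m⁻¹ := by
        have h3 : l * (m * f * m⁻¹) = (m * f * m⁻¹) * l := hLcomm l hl _ h1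
        calc l * m * f * (l * m)⁻¹ = l * (m * f * m⁻¹) * l⁻¹ := by group
          _ = (m * f * m⁻¹) * l * l⁻¹ := by rw [h3]
          _ = m * f * m⁻¹ := by group
      rw [h2]
      refine Subgroup.mem_inf.mpr ⟨?_, h1⟩
      rw [Subgroup.mem_centralizer_iff]
      intro x hx
      have h4 := (Subgroup.mem_centralizer_iff.mp hf1) (m⁻¹ * x * m) (hMQ m hm x hx)
      calc x * (m * f * m⁻¹) = m * ((m⁻¹ * x * m) * f) * m⁻¹ := by group
        _ = m * (f * (m⁻¹ * x * m)) * m⁻¹ := by rw [h4]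
        _ = m * f * m⁻¹ * x := by group
    rcases hmin _ hFn inf_le_right with h | h
    · intro l hl hcl
      have h5 : l ∈ Subgroup.centralizer (Q : Set G) ⊓ L := by
        refine Subgroup.mem_inf.mpr ⟨?_, hl⟩
        rw [Subgroup.mem_centralizer_iff]
        intro x hx
        exact hcl x hx
      rw [h, Subgroup.mem_bot] at h5
      exact h5
    · exfalso
      apply hQne
      rw [eq_bot_iff, ← hdisj]
      intro x hx
      refine Subgroup.mem_inf.mpr ⟨?_, hQM hx⟩
      have h7 : x ∈ Subgroup.centralizer (L : Set G) := by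
        rw [Subgroup.mem_centralizer_iff]
        intro l hl
        have h6 : l ∈ Subgroup.centralizer (Q : Set G) ⊓ L := by rw [h]; exact hl
        exact ((Subgroup.mem_centralizer_iff.mp (Subgroup.mem_inf.mp h6).1) x hx).symm
      rw [hCL] at h7
      exact h7
  have hmod := card_modEq_one_of_fixed_trivial q L Q hQq hF
  refine ⟨hmod, ?_⟩
  intro hqp
  rw [hqp] at hmod
  have h2 : Nat.card L % p = 0 := Nat.mod_eq_zero_of_dvd hpL
  have h3 : Nat.card L % p = 1 % p := hmod
  rw [h2, Nat.mod_eq_of_lt (Fact.out : p.Prime).one_lt] at h3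
  exact absurd h3 (by norm_num)

end Cfsg.Agent.Helper4
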