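import Mathlib
import Cfsg.Agent.Helper1.Basic
import Cfsg.Agent.Helper1.Basic3
import Cfsg.Agent.Helper4.CoreFree
import Cfsg.Agent.Helper4.CoreFreePCore
import Cfsg.Agent.Helper4.CardMul
import Cfsg.Agent.Helper4.SolvPrim
import Cfsg.Agent.Helper4.SysNorm2
import Cfsg.Agent.Helper4.CLTHered2

set_option autoImplicit false

universe u

namespace Cfsg.Agent.Helper4

open scoped Pointwise

theorem centralizer_inf_normal_of_coreFree {G : Type*} [Group G] (U : Subgroup G)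
    (hU : IsCoatom U) (hcore : U.normalCore = ⊥) (N : Subgroup G) [hNn : N.Normal] (hN : N ≠ ⊥)
    (hNab : ∀ x ∈ N, ∀ y ∈ N, x * y = y * x) (Q : Subgroup G)
    (hUQ : ∀ u ∈ U, ∀ x ∈ Q, u * x * u⁻¹ ∈ Q) :
    (Subgroup.centralizer (Q : Set G) ⊓ N).Normal := by
  constructor
  intro f hf g
  obtain ⟨hf1, hf2⟩ := Subgroup.mem_inf.mp hf
  obtain ⟨l, hl, m, hm, rfl⟩ := exists_mul_of_coreFree_coatom U hU hcore N hNn hN g
  have h1 : m * f * m⁻¹ ∈ N := hNn.conj_mem f hf2 m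
  have h2 : l * m * f * (l * m)⁻¹ = m * f * m⁻¹ := by
    have h3 : l * (m * f * m⁻¹) = (m * f * m⁻¹) * l := hNab l hl _ h1
    calc l * m * f * (l * m)⁻¹ = l * (m * f * m⁻¹) * l⁻¹ := by group
      _ = (m * f * m⁻¹) * l * l⁻¹ := by rw [h3]
      _ = m * f * m⁻¹ := by group
  rw [h2]
  refine Subgroup.mem_inf.mpr ⟨?_, h1⟩
  rw [Subgroup.mem_centralizer_iff]
  intro x hx
  have hx' : m⁻¹ * x * m⁻¹⁻¹ ∈ Q := hUQ m⁻¹ (U.inv_mem hm) x hx
  rw [inv_inv] at hx'
  have h4 := (Subgroup.mem_centralizer_iff.mp hf1) (m⁻¹ * x * m) hx'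
  calc x * (m * f * m⁻¹) = m * ((m⁻¹ * x * m) * f) * m⁻¹ := by group
    _ = m * (f * (m⁻¹ * x * m)) * m⁻¹ := by rw [h4]
    _ = m * f * m⁻¹ * x := by group

theorem normalizer_eq_of_coatom_coreFree {G : Type*} [Group G] (U : Subgroup G)
    (hU : IsCoatom U) (hcore : U.normalCore = ⊥) (X : Subgroup G) (hXU : X ≤ U) (hX0 : X ≠ ⊥)
    (hUX : ∀ u ∈ U, ∀ x ∈ X, u * x * u⁻¹ ∈ X) : Subgroup.normalizer (X : Set G) = U := by
  have hle : U ≤ Subgroup.normalizer (X : Set G) := by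
    intro u hu
    rw [mem_normalizer_iff_conj_smul_eq]
    apply le_antisymm
    · intro y hy
      rw [Cfsg.Agent.Helper1.mem_conj_smul] at hy
      have h0 := hUX u hu _ hy
      have e : u * (u⁻¹ * y * u) * u⁻¹ = y := by group
      rwa [e] at h0
    · intro y hy
      rw [Cfsg.Agent.Helper1.mem_conj_smul]
      have h0 := hUX u⁻¹ (U.inv_mem hu) y hy
      rwa [inv_inv] at h0
  by_contra hne
  have hlt : U < Subgroup.normalizer (X : Set G) := lt_of_le_of_ne hle (Ne.symm hne)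
  have htop := hU.2 _ hlt
  haveI hXn : X.Normal := Subgroup.normalizer_eq_top_iff.mp htop
  have h1 : X ≤ U.normalCore := (Subgroup.normal_le_normalCore).mpr hXU
  rw [hcore] at h1
  exact hX0 (le_bot_iff.mp h1)

/-- In a finite solvable group all core-free maximal subgroups are conjugate. -/
theorem coreFree_conj {G : Type u} [Group G] [Finite G] [Group.IsSolvable G] (U V : Subgroup G)
    (hU : IsCoatom U) (hV : IsCoatom V) (hUc : U.normalCore = ⊥) (hVc : V.normalCore = ⊥) :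
    ∃ g : G, MulAut.conj g • U = V := by
  classical
  obtain ⟨g₀, hg₀⟩ : ∃ g₀ : G, g₀ ∉ U := by
    by_contra hcon
    push_neg at hcon
    exact hU.1 (eq_top_iff.mpr (fun g _ => hcon g))
  haveI : Nontrivial G := ⟨⟨g₀, 1, fun h => hg₀ (by rw [h]; exact U.one_mem)⟩⟩
  obtain ⟨N, hNmin⟩ := exists_minimal_of_wellFoundedLT
    (fun K : Subgroup G => K.Normal ∧ K ≠ ⊥) ⟨⊤, inferInstance, top_ne_bot⟩
  obtain ⟨hNn, hN0⟩ := hNmin.prop
  haveI := hNn
  have hmin : ∀ K : Subgroup G, K.Normal → K ≤ N → K = ⊥ ∨ K = N := by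
    intro K hKn hle
    by_cases h0 : K = ⊥
    · exact Or.inl h0
    · exact Or.inr (le_antisymm hle (hNmin.le_of_le ⟨hKn, h0⟩ hle))
  obtain ⟨p, hp, hNab, hNexp⟩ := minNormal_elemAbelian N hN0 hmin
  haveI : Fact p.Prime := ⟨hp⟩
  have hNC : N = Subgroup.centralizer (N : Set G) :=
    centralizer_minimal_of_coreFree_coatom U hU hUc N hN0 N hNn
      (fun x hx => Subgroup.mem_centralizer_iff.mpr (fun y hy => hNab y hy x hx)) hN0
  have hNU : N ⊓ U = ⊥ := by
    have h1 := centralizer_inf_eq_bot_of_coreFree_coatom U hU hUc N hN0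
    rwa [← hNC] at h1
  have hNV : N ⊓ V = ⊥ := by
    have h1 := centralizer_inf_eq_bot_of_coreFree_coatom V hV hVc N hN0
    rwa [← hNC] at h1
  by_cases hU0 : U = ⊥
  · refine ⟨1, ?_⟩
    have hNtop : N = ⊤ := by
      rw [eq_top_iff]
      intro g _
      obtain ⟨n, hn, u, hu, rfl⟩ := exists_mul_of_coreFree_coatom U hU hUc N hNn hN0 g
      rw [hU0, Subgroup.mem_bot] at hu
      rw [hu, mul_one]; exact hn
    have hV0 : V = ⊥ := by
      rw [hNtop, top_inf_eq] at hNV; exact hNV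
    rw [hU0, hV0]
    simp
  haveI : Nontrivial U := (Subgroup.nontrivial_iff_ne_bot U).mpr hU0
  obtain ⟨Q₀, hQ₀min⟩ := exists_minimal_of_wellFoundedLT
    (fun K : Subgroup U => K.Normal ∧ K ≠ ⊥) ⟨⊤, inferInstance, top_ne_bot⟩
  obtain ⟨hQ₀n, hQ₀0⟩ := hQ₀min.prop
  haveI := hQ₀n
  have hQ₀m : ∀ K : Subgroup U, K.Normal → K ≤ Q₀ → K = ⊥ ∨ K = Q₀ := by
    intro K hKn hle
    by_cases h0 : K = ⊥
    · exact Or.inl h0
    · exact Or.inr (le_antisymm hle (hQ₀min.le_of_le ⟨hKn, h0⟩ hle))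
  obtain ⟨q, hq, -, hQ₀exp⟩ := minNormal_elemAbelian Q₀ hQ₀0 hQ₀m
  haveI : Fact q.Prime := ⟨hq⟩
  obtain ⟨Q, hQdef⟩ : ∃ Q : Subgroup G, Q = Q₀.map U.subtype := ⟨_, rfl⟩
  have hQU : Q ≤ U := by rw [hQdef]; exact Subgroup.map_subtype_le _
  have hQ0 : Q ≠ ⊥ := by
    intro h
    rw [hQdef] at h
    exact hQ₀0 ((Subgroup.map_eq_bot_iff_of_injective _ U.subtype_injective).mp h)
  have hQexp : ∀ x ∈ Q, x ^ q = 1 := by
    intro x hx
    rw [hQdef] at hx
    obtain ⟨x', hx', rfl⟩ := Subgroup.mem_map.mp hx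
    have h0 := hQ₀exp x' hx'
    rw [← map_pow, h0, map_one]
  have hQq : IsPGroup q Q := by
    intro x
    refine ⟨1, ?_⟩
    rw [pow_one]
    apply Subtype.ext
    have h0 := hQexp x x.2
    simpa using h0
  have hUQ : ∀ u ∈ U, ∀ x ∈ Q, u * x * u⁻¹ ∈ Q := by
    intro u hu x hx
    rw [hQdef] at hx ⊢
    obtain ⟨x', hx', rfl⟩ := Subgroup.mem_map.mp hx
    exact Subgroup.mem_map.mpr ⟨_, hQ₀n.conj_mem x' hx' ⟨u, hu⟩, rfl⟩
  have hNp : p ∣ Nat.card N := by
    obtain ⟨⟨m, hm⟩, hm1⟩ := (Subgroup.ne_bot_iff_exists_ne_one).mp hN0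
    have ho : orderOf m = p := by
      rcases (Nat.dvd_prime hp).mp (orderOf_dvd_of_pow_eq_one (hNexp m hm)) with h | h
      · exact absurd (orderOf_eq_one_iff.mp h) (fun e => hm1 (Subtype.ext e))
      · exact h
    have h0 := orderOf_dvd_natCard (⟨m, hm⟩ : N)
    rwa [Subgroup.orderOf_mk, ho] at h0
  have hqp : q ≠ p := by
    intro hqp
    rw [hqp] at hQq
    have hfix : ∃ l ∈ N, l ≠ 1 ∧ ∀ x ∈ Q, x * l = l * x := by
      by_contra hcon
      push_neg at hcon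
      have hF : ∀ l ∈ N, (∀ x ∈ Q, x * l = l * x) → l = 1 := by
        intro l hl hcomm
        by_contra hl1
        obtain ⟨x, hx, hne⟩ := hcon l hl hl1
        exact hne (hcomm x hx)
      have h1 := card_modEq_one_of_fixed_trivial p N Q hQq hF
      have h2 : Nat.card N % p = 0 := Nat.mod_eq_zero_of_dvd hNp
      have h3 : Nat.card N % p = 1 % p := h1
      rw [h2, Nat.mod_eq_of_lt hp.one_lt] at h3
      exact absurd h3 (by norm_num)
    obtain ⟨l, hlN, hl1, hlQ⟩ := hfix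
    have hFn := centralizer_inf_normal_of_coreFree U hU hUc N hN0 hNab Q hUQ
    rcases hmin _ hFn inf_le_right with h | h
    · have h5 : l ∈ Subgroup.centralizer (Q : Set G) ⊓ N :=
        Subgroup.mem_inf.mpr ⟨Subgroup.mem_centralizer_iff.mpr (fun x hx => hlQ x hx), hlN⟩
      rw [h, Subgroup.mem_bot] at h5
      exact hl1 h5
    · apply hQ0
      rw [eq_bot_iff, ← hNU]
      intro x hx
      refine Subgroup.mem_inf.mpr ⟨?_, hQU hx⟩
      have h7 : x ∈ Subgroup.centralizer (N : Set G) := by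
        rw [Subgroup.mem_centralizer_iff]
        intro n hn
        have h6 : n ∈ Subgroup.centralizer (Q : Set G) ⊓ N := by rw [h]; exact hn
        exact ((Subgroup.mem_centralizer_iff.mp (Subgroup.mem_inf.mp h6).1) x hx).symm
      rw [← hNC] at h7
      exact h7
  obtain ⟨R, hRdef⟩ : ∃ R : Subgroup G, R = N ⊔ Q := ⟨_, rfl⟩
  have hNR : N ≤ R := by rw [hRdef]; exact le_sup_left
  have hQR : Q ≤ R := by rw [hRdef]; exact le_sup_right
  have hRn : R.Normal := by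
    constructor
    intro r hr g
    rw [hRdef] at hr
    obtain ⟨n₁, hn₁, x, hx, rfl⟩ := Subgroup.mem_sup_of_normal_left.mp hr
    obtain ⟨n, hn, u, hu, rfl⟩ := exists_mul_of_coreFree_coatom U hU hUc N hNn hN0 g
    have e : n * u * (n₁ * x) * (n * u)⁻¹
        = n * ((u * n₁ * u⁻¹) * (u * x * u⁻¹)) * n⁻¹ := by group
    rw [e]
    exact R.mul_mem (R.mul_mem (hNR hn) (R.mul_mem (hNR (hNn.conj_mem n₁ hn₁ u))
      (hQR (hUQ u hu x hx)))) (R.inv_mem (hNR hn))
  haveI := hRn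
  obtain ⟨W, hWdef⟩ : ∃ W : Subgroup G, W = R ⊓ V := ⟨_, rfl⟩
  have hWR : W ≤ R := by rw [hWdef]; exact inf_le_left
  have hWV : W ≤ V := by rw [hWdef]; exact inf_le_right
  have hNQ : Q ⊓ N = ⊥ := by
    rw [eq_bot_iff, ← hNU]
    exact fun x hx =>
      Subgroup.mem_inf.mpr ⟨(Subgroup.mem_inf.mp hx).2, hQU (Subgroup.mem_inf.mp hx).1⟩
  have hNW : W ⊓ N = ⊥ := by
    rw [eq_bot_iff, ← hNV]
    exact fun x hx =>
      Subgroup.mem_inf.mpr ⟨(Subgroup.mem_inf.mp hx).2, hWV (Subgroup.mem_inf.mp hx).1⟩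
  have hnormN : ∀ X : Subgroup G, X ≤ Subgroup.normalizer (N : Set G) := by
    intro X; rw [Subgroup.normalizer_eq_top]; exact le_top
  have hcardR1 : Nat.card R = Nat.card Q * Nat.card N := by
    have h1 := card_sup_mul_card_inf Q N (hnormN Q)
    rw [hNQ, Subgroup.card_bot, mul_one, sup_comm, ← hRdef] at h1
    exact h1
  have hWN : W ⊔ N = R := by
    apply le_antisymm (sup_le hWR hNR)
    intro r hr
    obtain ⟨n, hn, v, hv, hnv⟩ := exists_mul_of_coreFree_coatom V hV hVc N hNn hN0 r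
    have hvR : v ∈ R := by
      have e : v = n⁻¹ * r := by rw [← hnv]; group
      rw [e]; exact R.mul_mem (R.inv_mem (hNR hn)) hr
    rw [← hnv]
    exact Subgroup.mul_mem _ (Subgroup.mem_sup_right hn)
      (Subgroup.mem_sup_left (by rw [hWdef]; exact Subgroup.mem_inf.mpr ⟨hvR, hv⟩))
  have hcardR2 : Nat.card R = Nat.card W * Nat.card N := by
    have h1 := card_sup_mul_card_inf W N (hnormN W)
    rw [hNW, Subgroup.card_bot, mul_one, hWN] at h1
    exact h1
  have hcardWQ : Nat.card Q = Nat.card W := by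
    have h0 : Nat.card Q * Nat.card N = Nat.card W * Nat.card N := by
      rw [← hcardR1, ← hcardR2]
    exact Nat.eq_of_mul_eq_mul_right Nat.card_pos h0
  have hcop : (Nat.card Q).Coprime (Q.relIndex R) := by
    have h1 := card_mul_relIndex_of_le hQR
    have h2 : Q.relIndex R = Nat.card N := by
      rw [hcardR1] at h1
      exact Nat.eq_of_mul_eq_mul_left Nat.card_pos h1
    rw [h2]
    have hNpg : IsPGroup p N := by
      intro x
      refine ⟨1, ?_⟩
      rw [pow_one]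
      apply Subtype.ext
      have h0 := hNexp x x.2
      simpa using h0
    obtain ⟨a, ha⟩ := (IsPGroup.iff_card).mp hNpg
    obtain ⟨b, hb⟩ := (IsPGroup.iff_card).mp hQq
    rw [ha, hb]
    exact Nat.Coprime.pow _ _ ((Nat.coprime_primes hq hp).mpr hqp)
  obtain ⟨x, hxR, hxQ⟩ := hall_conj_in_sub R Q W hQR hWR hcardWQ hcop
  have hW0 : W ≠ ⊥ := by
    intro h
    rw [h, Subgroup.card_bot] at hcardWQ
    exact hQ0 (Subgroup.card_eq_one.mp hcardWQ)
  have hVW : ∀ v ∈ V, ∀ y ∈ W, v * y * v⁻¹ ∈ W := by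
    intro v hv y hy
    rw [hWdef] at hy ⊢
    obtain ⟨hy1, hy2⟩ := Subgroup.mem_inf.mp hy
    exact Subgroup.mem_inf.mpr ⟨hRn.conj_mem y hy1 v, V.mul_mem (V.mul_mem hv hy2) (V.inv_mem hv)⟩
  have hNQU := normalizer_eq_of_coatom_coreFree U hU hUc Q hQU hQ0 hUQ
  have hNWV := normalizer_eq_of_coatom_coreFree V hV hVc W hWV hW0 hVW
  refine ⟨x, ?_⟩
  ext g
  rw [Cfsg.Agent.Helper1.mem_conj_smul, ← hNQU, ← hNWV, mem_normalizer_iff_conj_smul_eq,
    mem_normalizer_iff_conj_smul_eq, ← hxQ]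
  constructor
  · intro h
    have e : g * x = x * (x⁻¹ * g * x) := by group
    calc MulAut.conj g • MulAut.conj x • Q = MulAut.conj (g * x) • Q :=
          Cfsg.Agent.Helper1.conj_smul_smul g x Q
      _ = MulAut.conj (x * (x⁻¹ * g * x)) • Q := by rw [e]
      _ = MulAut.conj x • MulAut.conj (x⁻¹ * g * x) • Q :=
          (Cfsg.Agent.Helper1.conj_smul_smul x _ Q).symm
      _ = MulAut.conj x • Q := by rw [h]
  · intro h
    have e : x⁻¹ * g * x = x⁻¹ * (g * x) := by group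
    calc MulAut.conj (x⁻¹ * g * x) • Q = MulAut.conj (x⁻¹ * (g * x)) • Q := by rw [e]
      _ = MulAut.conj x⁻¹ • MulAut.conj (g * x) • Q :=
          (Cfsg.Agent.Helper1.conj_smul_smul x⁻¹ _ Q).symm
      _ = MulAut.conj x⁻¹ • (MulAut.conj g • MulAut.conj x • Q) := by
          rw [Cfsg.Agent.Helper1.conj_smul_smul g x Q]
      _ = MulAut.conj x⁻¹ • MulAut.conj x • Q := by rw [h]
      _ = Q := Cfsg.Agent.Helper1.conj_smul_inv_smul x Q

end Cfsg.Agent.Helper4
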