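import Mathlib
import Cfsg.Agent.Helper4.SysNorm2
import Cfsg.Agent.Helper4.SolvPrim
import Cfsg.Agent.Helper4.Subnormal

set_option autoImplicit false

universe u

namespace Cfsg.Agent.Helper4

open scoped Pointwise
open scoped commutatorElement

/-- A non-central minimal normal subgroup of a solvable group meets a system normalizer
trivially. -/
theorem minNormal_inf_systemNormalizer {G : Type u} [Group G] [Finite G] [Group.IsSolvable G]
    (K : Nat.Primes → Subgroup G) (hK : Cfsg.IsComplementSystem K) (M : Subgroup G)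
    [hMn : M.Normal] (hM : M ≠ ⊥)
    (hmin : ∀ N : Subgroup G, N.Normal → N ≤ M → N = ⊥ ∨ N = M)
    (hnc : ¬ M ≤ Subgroup.center G) : M ⊓ Cfsg.systemNormalizer K = ⊥ := by
  classical
  obtain ⟨p, hp, hMab, hMexp⟩ := minNormal_elemAbelian M hM hmin
  haveI : Fact p.Prime := ⟨hp⟩
  obtain ⟨Kp, hKp⟩ : ∃ Kp : Subgroup G, Kp = K ⟨p, hp⟩ := ⟨_, rfl⟩
  have hKpidx : Kp.index = p ^ (Nat.card G).factorization p := by rw [hKp]; exact hK ⟨p, hp⟩
  have hKpcard : ¬ p ∣ Nat.card Kp := by
    rw [hKp]; exact not_dvd_card_complement K hK ⟨p, hp⟩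
  have hMK : ∀ x ∈ M, x ∈ Kp → x = 1 := by
    intro x hxM hxK
    have h1 : orderOf x ∣ p := orderOf_dvd_of_pow_eq_one (hMexp x hxM)
    have h2 : orderOf x ∣ Nat.card Kp := by
      have h0 := orderOf_dvd_natCard (⟨x, hxK⟩ : Kp)
      rwa [Subgroup.orderOf_mk] at h0
    rcases (Nat.dvd_prime hp).mp h1 with h | h
    · exact orderOf_eq_one_iff.mp h
    · rw [h] at h2; exact absurd h2 hKpcard
  obtain ⟨C, hC⟩ : ∃ C : Subgroup G, C = Subgroup.centralizer (M : Set G) := ⟨_, rfl⟩
  haveI hCn : C.Normal := by rw [hC]; infer_instance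
  have hCtop : C ≠ ⊤ := by
    intro h
    apply hnc
    intro m hm
    rw [Subgroup.mem_center_iff]
    intro g
    have hg : g ∈ C := by rw [h]; exact Subgroup.mem_top g
    rw [hC, Subgroup.mem_centralizer_iff] at hg
    exact (hg m hm).symm
  haveI : Nontrivial (G ⧸ C) := by
    rw [← Finite.one_lt_card_iff_nontrivial, ← Subgroup.index_eq_card]
    have h1 : C.index ≠ 1 := fun h => hCtop (Subgroup.index_eq_one.mp h)
    have h2 : C.index ≠ 0 := Subgroup.index_ne_zero_of_finite
    omega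
  obtain ⟨Rb, hRb⟩ := exists_minimal_of_wellFoundedLT
    (fun N : Subgroup (G ⧸ C) => N.Normal ∧ N ≠ ⊥) ⟨⊤, inferInstance, top_ne_bot⟩
  obtain ⟨hRbn, hRb0⟩ := hRb.prop
  haveI := hRbn
  have hRbmin : ∀ N : Subgroup (G ⧸ C), N.Normal → N ≤ Rb → N = ⊥ ∨ N = Rb := by
    intro N hN hle
    by_cases h0 : N = ⊥
    · exact Or.inl h0
    · exact Or.inr (le_antisymm hle (hRb.le_of_le ⟨hN, h0⟩ hle))
  obtain ⟨r, hr, -, hRbexp⟩ := minNormal_elemAbelian Rb hRb0 hRbmin
  obtain ⟨R, hR⟩ : ∃ R : Subgroup G, R = Rb.comap (QuotientGroup.mk' C) := ⟨_, rfl⟩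
  haveI hRn : R.Normal := by rw [hR]; exact hRbn.comap _
  have hRmem : ∀ t : G, t ∈ R ↔ (QuotientGroup.mk' C t) ∈ Rb := by
    intro t; rw [hR]; exact Subgroup.mem_comap
  obtain ⟨t₀, ht₀R, ht₀C⟩ : ∃ t₀ ∈ R, t₀ ∉ C := by
    obtain ⟨⟨xb, hxb⟩, hxb1⟩ := (Subgroup.ne_bot_iff_exists_ne_one).mp hRb0
    obtain ⟨t₀, rfl⟩ := QuotientGroup.mk'_surjective C xb
    exact ⟨t₀, (hRmem t₀).mpr hxb,
      fun hc => hxb1 (Subtype.ext ((QuotientGroup.eq_one_iff t₀).mpr hc))⟩
  have hF : M ⊓ Subgroup.centralizer (R : Set G) = ⊥ := by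
    have hFn : (M ⊓ Subgroup.centralizer (R : Set G)).Normal := inferInstance
    rcases hmin _ hFn inf_le_left with h | h
    · exact h
    · exfalso
      apply ht₀C
      rw [hC, Subgroup.mem_centralizer_iff]
      intro m hm
      have h1 : m ∈ M ⊓ Subgroup.centralizer (R : Set G) := by rw [h]; exact hm
      have h2 := (Subgroup.mem_centralizer_iff.mp (Subgroup.mem_inf.mp h1).2) t₀ ht₀R
      exact h2.symm
  rw [eq_bot_iff]
  intro x hx
  obtain ⟨hxM, hxD⟩ := Subgroup.mem_inf.mp hx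
  rw [Subgroup.mem_bot]
  have hxN : x ∈ Subgroup.normalizer (Kp : Set G) := by
    have h1 : x ∈ ⨅ q : Nat.Primes, Subgroup.normalizer (K q : Set G) := hxD
    rw [hKp]
    exact (Subgroup.mem_iInf.mp h1) ⟨p, hp⟩
  have hxK : ∀ k ∈ Kp, k * x = x * k := by
    intro k hk
    have h1 : x * k * x⁻¹ ∈ Kp := (Subgroup.mem_normalizer_iff.mp hxN k).mp hk
    have h2 : x * k * x⁻¹ * k⁻¹ ∈ Kp := Kp.mul_mem h1 (Kp.inv_mem hk)
    have h3 : x * k * x⁻¹ * k⁻¹ ∈ M := by
      have h4 : k * x⁻¹ * k⁻¹ ∈ M := hMn.conj_mem x⁻¹ (M.inv_mem hxM) k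
      have e : x * k * x⁻¹ * k⁻¹ = x * (k * x⁻¹ * k⁻¹) := by group
      rw [e]; exact M.mul_mem hxM h4
    have h5 := hMK _ h3 h2
    calc k * x = (x * k * x⁻¹ * k⁻¹)⁻¹ * (x * k) := by group
      _ = x * k := by rw [h5]; group
  by_cases hrp : r = p
  · exfalso
    let φ : G ⧸ C →* MulAut M := QuotientGroup.lift C (MulAut.conjNormal (H := M)) (by
      intro c hc
      rw [MonoidHom.mem_ker]
      apply MulEquiv.ext
      intro m
      apply Subtype.ext
      rw [MulAut.conjNormal_apply, MulAut.one_apply]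
      rw [hC, Subgroup.mem_centralizer_iff] at hc
      rw [← hc m m.2]; group)
    letI : MulAction Rb M := MulAction.compHom M (φ.comp Rb.subtype)
    have hRbp : IsPGroup p Rb := by
      intro xb
      refine ⟨1, ?_⟩
      rw [pow_one]
      apply Subtype.ext
      have h0 := hRbexp xb xb.2
      rw [hrp] at h0
      simpa using h0
    have h1 := hRbp.card_modEq_card_fixedPoints M
    have hMp : p ∣ Nat.card M := by
      obtain ⟨⟨m, hm⟩, hm1⟩ := (Subgroup.ne_bot_iff_exists_ne_one).mp hM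
      have ho : orderOf m = p := by
        rcases (Nat.dvd_prime hp).mp (orderOf_dvd_of_pow_eq_one (hMexp m hm)) with h | h
        · exact absurd (orderOf_eq_one_iff.mp h) (fun e => hm1 (Subtype.ext e))
        · exact h
      have h0 := orderOf_dvd_natCard (⟨m, hm⟩ : M)
      rwa [Subgroup.orderOf_mk, ho] at h0
    have h2 : p ∣ Nat.card (MulAction.fixedPoints Rb M) :=
      Nat.modEq_zero_iff_dvd.mp (h1.symm.trans (Nat.modEq_zero_iff_dvd.mpr hMp))
    have h3 : ∃ l : M, l ∈ MulAction.fixedPoints Rb M ∧ l ≠ 1 := by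
      by_contra hcon
      push_neg at hcon
      have h4 : Nat.card (MulAction.fixedPoints Rb M) = 1 := by
        rw [Nat.card_eq_one_iff_unique]
        refine ⟨⟨?_⟩, ⟨⟨1, ?_⟩⟩⟩
        · rintro ⟨a, ha⟩ ⟨b, hb⟩
          apply Subtype.ext
          exact (hcon a ha).trans (hcon b hb).symm
        · intro xb
          show φ (xb : G ⧸ C) (1 : M) = 1
          exact map_one _
      rw [h4] at h2
      exact hp.one_lt.ne' (Nat.dvd_one.mp h2)
    obtain ⟨l, hl, hl1⟩ := h3
    have hlR : (l : G) ∈ M ⊓ Subgroup.centralizer (R : Set G) := by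
      refine Subgroup.mem_inf.mpr ⟨l.2, ?_⟩
      rw [Subgroup.mem_centralizer_iff]
      intro t ht
      have h5 := hl ⟨QuotientGroup.mk' C t, (hRmem t).mp ht⟩
      have h6 : ((⟨QuotientGroup.mk' C t, (hRmem t).mp ht⟩ : Rb) • l : M)
          = MulAut.conjNormal t l := rfl
      rw [h6] at h5
      have h7 := congrArg Subtype.val h5
      rw [MulAut.conjNormal_apply] at h7
      calc t * (l : G) = (t * (l : G) * t⁻¹) * t := by group
        _ = (l : G) * t := by rw [h7]
    rw [hF, Subgroup.mem_bot] at hlR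
    exact hl1 (Subtype.ext hlR)
  · have hRle : R ≤ C ⊔ Kp := by
      rw [← Subgroup.relIndex_eq_one]
      have h1 : (C ⊔ Kp).relIndex R ∣ C.relIndex R :=
        Subgroup.relIndex_dvd_of_le_left R le_sup_left
      have h2 : (C ⊔ Kp).relIndex R ∣ Kp.index :=
        (relIndex_dvd_index_of_normal_right (C ⊔ Kp) R).trans
          (Subgroup.index_dvd_of_le le_sup_right)
      have h3 : ∃ j, C.relIndex R = r ^ j := by
        haveI : Fact r.Prime := ⟨hr⟩
        have hpg : IsPGroup r (↥R ⧸ C.subgroupOf R) := by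
          intro xb
          refine ⟨1, ?_⟩
          obtain ⟨t, rfl⟩ := QuotientGroup.mk_surjective xb
          rw [pow_one, ← QuotientGroup.mk_pow, QuotientGroup.eq_one_iff, Subgroup.mem_subgroupOf,
            Subgroup.coe_pow]
          have ht : QuotientGroup.mk' C (t : G) ∈ Rb := (hRmem t).mp t.2
          have h4 := hRbexp _ ht
          rw [← map_pow] at h4
          exact (QuotientGroup.eq_one_iff _).mp h4
        obtain ⟨j, hj⟩ := (IsPGroup.iff_card).mp hpg
        exact ⟨j, by rw [Subgroup.relIndex, Subgroup.index_eq_card]; exact hj⟩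
      obtain ⟨j, hj⟩ := h3
      rw [hj] at h1
      rw [hKpidx] at h2
      have hcop : (r ^ j).Coprime (p ^ (Nat.card G).factorization p) :=
        Nat.Coprime.pow _ _ ((Nat.coprime_primes hr hp).mpr hrp)
      exact Nat.eq_one_of_dvd_coprimes hcop h1 h2
    have hxR : x ∈ Subgroup.centralizer (R : Set G) := by
      rw [Subgroup.mem_centralizer_iff]
      intro t ht
      obtain ⟨c, hc, k, hk, rfl⟩ := Subgroup.mem_sup_of_normal_left.mp (hRle ht)
      have hcx : c * x = x * c := by
        rw [hC, Subgroup.mem_centralizer_iff] at hc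
        exact (hc x hxM).symm
      calc c * k * x = c * (k * x) := by group
        _ = c * (x * k) := by rw [hxK k hk]
        _ = (c * x) * k := by group
        _ = x * c * k := by rw [hcx]
        _ = x * (c * k) := by group
    have h6 : x ∈ M ⊓ Subgroup.centralizer (R : Set G) := Subgroup.mem_inf.mpr ⟨hxM, hxR⟩
    rw [hF, Subgroup.mem_bot] at h6
    exact h6

/-- S0568: system normalizers cover central chief factors and avoid eccentric ones. -/
theorem sysnorm_cover_avoid {G : Type u} [Group G] [Finite G] [Group.IsSolvable G]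
    (K : Nat.Primes → Subgroup G) (hK : Cfsg.IsComplementSystem K) (A B : Subgroup G)
    [hAn : A.Normal] [hBn : B.Normal] (hAB : A < B)
    (hchief : ∀ N : Subgroup G, N.Normal → A ≤ N → N ≤ B → N = A ∨ N = B) :
    (⁅B, (⊤ : Subgroup G)⁆ ≤ A → B ≤ A ⊔ Cfsg.systemNormalizer K) ∧
    (¬ ⁅B, (⊤ : Subgroup G)⁆ ≤ A → B ⊓ Cfsg.systemNormalizer K ≤ A) := by
  obtain ⟨hKb, hDb⟩ := systemNormalizer_map K hK A
  have hπ : Function.Surjective (QuotientGroup.mk' A) := QuotientGroup.mk'_surjective A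
  constructor
  · intro hc b hb
    have h1 : QuotientGroup.mk' A b ∈
        Cfsg.systemNormalizer (fun p => (K p).map (QuotientGroup.mk' A)) := by
      unfold Cfsg.systemNormalizer
      rw [Subgroup.mem_iInf]
      intro q
      rw [Subgroup.mem_normalizer_iff]
      intro yb
      have hcomm : QuotientGroup.mk' A b * yb * (QuotientGroup.mk' A b)⁻¹ = yb := by
        obtain ⟨y, rfl⟩ := hπ yb
        rw [← map_inv, ← map_mul, ← map_mul]
        apply (QuotientGroup.eq).mpr
        have h2 : ⁅b, y⁻¹⁆ ∈ ⁅B, (⊤ : Subgroup G)⁆ :=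
          Subgroup.commutator_mem_commutator hb (Subgroup.mem_top _)
        have e : (b * y * b⁻¹)⁻¹ * y = ⁅b, y⁻¹⁆ := by
          rw [commutatorElement_def]; group
        rw [e]; exact hc h2
      rw [hcomm]
    rw [hDb] at h1
    obtain ⟨d, hd, hdb⟩ := Subgroup.mem_map.mp h1
    have h3 : d⁻¹ * b ∈ A := (QuotientGroup.eq).mp hdb
    have e : b = d * (d⁻¹ * b) := by group
    rw [e]
    exact Subgroup.mul_mem _ (Subgroup.mem_sup_right hd) (Subgroup.mem_sup_left h3)
  · intro hnc x hx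
    obtain ⟨hxB, hxD⟩ := Subgroup.mem_inf.mp hx
    obtain ⟨M, hMdef⟩ : ∃ M : Subgroup (G ⧸ A), M = B.map (QuotientGroup.mk' A) := ⟨_, rfl⟩
    haveI hMn : M.Normal := by rw [hMdef]; exact hBn.map _ hπ
    have hM0 : M ≠ ⊥ := by
      obtain ⟨b, hbB, hbA⟩ := SetLike.exists_of_lt hAB
      intro h
      have h1 : QuotientGroup.mk' A b ∈ M := by
        rw [hMdef]; exact Subgroup.mem_map_of_mem _ hbB
      rw [h, Subgroup.mem_bot] at h1
      exact hbA ((QuotientGroup.eq_one_iff b).mp h1)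
    have hMmin : ∀ N : Subgroup (G ⧸ A), N.Normal → N ≤ M → N = ⊥ ∨ N = M := by
      intro N hN hNM
      have hcomapB : M.comap (QuotientGroup.mk' A) = B := by
        rw [hMdef, Subgroup.comap_map_eq, QuotientGroup.ker_mk', sup_eq_left.mpr hAB.le]
      have h1 : (N.comap (QuotientGroup.mk' A)).Normal := hN.comap _
      have h2 : A ≤ N.comap (QuotientGroup.mk' A) := by
        intro a ha
        rw [Subgroup.mem_comap]
        have h0 : QuotientGroup.mk' A a = 1 := (QuotientGroup.eq_one_iff a).mpr ha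
        rw [h0]; exact N.one_mem
      have h3 : N.comap (QuotientGroup.mk' A) ≤ B := by
        rw [← hcomapB]; exact Subgroup.comap_mono hNM
      have h4 : N = (N.comap (QuotientGroup.mk' A)).map (QuotientGroup.mk' A) :=
        (Subgroup.map_comap_eq_self_of_surjective hπ N).symm
      rcases hchief _ h1 h2 h3 with h | h
      · left
        rw [h4, h]
        exact (Subgroup.map_eq_bot_iff _).mpr (by rw [QuotientGroup.ker_mk'])
      · right
        rw [h4, h, hMdef]
    have hMnc : ¬ M ≤ Subgroup.center (G ⧸ A) := by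
      intro hcen
      apply hnc
      rw [Subgroup.commutator_le]
      intro b hb g _
      have h1 : QuotientGroup.mk' A b ∈ Subgroup.center (G ⧸ A) :=
        hcen (by rw [hMdef]; exact Subgroup.mem_map_of_mem _ hb)
      have h2 := (Subgroup.mem_center_iff.mp h1) (QuotientGroup.mk' A g)
      apply (QuotientGroup.eq_one_iff _).mp
      show QuotientGroup.mk' A ⁅b, g⁆ = 1
      rw [commutatorElement_def, map_mul, map_mul, map_mul, map_inv, map_inv, ← h2]
      group
    have hE := minNormal_inf_systemNormalizer (fun p => (K p).map (QuotientGroup.mk' A)) hKb M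
      hM0 hMmin hMnc
    have h1 : QuotientGroup.mk' A x ∈
        M ⊓ Cfsg.systemNormalizer (fun p => (K p).map (QuotientGroup.mk' A)) := by
      refine Subgroup.mem_inf.mpr ⟨?_, ?_⟩
      · rw [hMdef]; exact Subgroup.mem_map_of_mem _ hxB
      · rw [hDb]; exact Subgroup.mem_map_of_mem _ hxD
    rw [hE, Subgroup.mem_bot] at h1
    exact (QuotientGroup.eq_one_iff x).mp h1

end Cfsg.Agent.Helper4
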