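import Mathlib
import Cfsg.Prelude.Def_CaseTheorems
import Cfsg.Agent.Helper8.DihSylow
import Cfsg.Agent.Helper21.CoprimeAbelian
import Cfsg.Agent.Helper21.Primary

set_option autoImplicit false

namespace Cfsg.Agent.Helper4

open Cfsg.Agent.Helper8

/-- A Sylow `2`-subgroup of order at most `4` and exponent `2` containing a central involution of
the whole group: normal `2`-complement (Burnside). -/
theorem npc_of_small_sylow {C : Type*} [Group C] [Finite C] (R : Sylow 2 C) (t : C)
    (htc : ∀ g : C, g * t = t * g) (ht2 : t * t = 1) (ht1 : t ≠ 1) (htR : t ∈ (R : Subgroup C))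
    (hcard : Nat.card (R : Subgroup C) ≤ 4) (hexp : ∀ r ∈ (R : Subgroup C), r * r = 1) :
    Cfsg.HasNormalPComplement 2 C := by
  classical
  haveI : Fact (Nat.Prime 2) := ⟨Nat.prime_two⟩
  have hab : ∀ a ∈ (R : Subgroup C), ∀ b ∈ (R : Subgroup C), a * b = b * a := by
    intro a ha b hb
    have h1 := hexp (a * b) (mul_mem ha hb)
    have h2 := hexp a ha
    have h3 := hexp b hb
    calc a * b = a * (a * b * (a * b)) * b := by rw [h1, mul_one]
      _ = (a * a) * b * a * (b * b) := by group
      _ = b * a := by rw [h2, h3, one_mul, mul_one]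
  have hNC : Subgroup.normalizer ((R : Subgroup C) : Set C)
      ≤ Subgroup.centralizer ((R : Subgroup C) : Set C) := by
    intro g hg
    rw [Subgroup.mem_centralizer_iff]
    intro u hu
    by_contra hne
    have hgu : g * u * g⁻¹ ∈ (R : Subgroup C) := (Subgroup.mem_normalizer_iff.mp hg u).mp hu
    have hgu_ne : g * u * g⁻¹ ≠ u := by
      intro h
      apply hne
      calc u * g = (g * u * g⁻¹) * g := by rw [h]
        _ = g * u := by group
    have hu1 : u ≠ 1 := by
      intro h
      rw [h] at hgu_ne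
      exact hgu_ne (by group)
    have hut : u ≠ t := by
      intro h
      rw [h] at hgu_ne
      apply hgu_ne
      calc g * t * g⁻¹ = t * g * g⁻¹ := by rw [htc g]
        _ = t := by group
    have h4 : ({1, t, u, u * t} : Finset C).card = 4 := by
      have n1 : (1 : C) ∉ ({t, u, u * t} : Finset C) := by
        simp only [Finset.mem_insert, Finset.mem_singleton, not_or]
        refine ⟨fun h => ht1 h.symm, fun h => hu1 h.symm, fun h => hut ?_⟩
        calc u = u * (t * t) := by rw [ht2, mul_one]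
          _ = (u * t) * t := by group
          _ = t := by rw [← h, one_mul]
      have n2 : t ∉ ({u, u * t} : Finset C) := by
        simp only [Finset.mem_insert, Finset.mem_singleton, not_or]
        refine ⟨fun h => hut h.symm, fun h => hu1 ?_⟩
        calc u = (u * t) * t⁻¹ := by group
          _ = 1 := by rw [← h]; group
      have n3 : u ∉ ({u * t} : Finset C) := by
        simp only [Finset.mem_singleton]
        intro h
        apply ht1
        calc t = u⁻¹ * (u * t) := by group
          _ = 1 := by rw [← h]; group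
      rw [Finset.card_insert_of_notMem n1, Finset.card_insert_of_notMem n2,
        Finset.card_insert_of_notMem n3, Finset.card_singleton]
    have hA : (({1, t, u, u * t} : Finset C) : Set C) = ((R : Subgroup C) : Set C) := by
      apply Set.eq_of_subset_of_ncard_le
      · intro x hx
        simp only [Finset.coe_insert, Finset.coe_singleton, Set.mem_insert_iff,
          Set.mem_singleton_iff] at hx
        rcases hx with h | h | h | h
        · rw [h]; exact one_mem _
        · rw [h]; exact htR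
        · rw [h]; exact hu
        · rw [h]; exact mul_mem hu htR
      · rw [Set.ncard_coe_finset, h4]
        have : ((R : Subgroup C) : Set C).ncard = Nat.card (R : Subgroup C) :=
          (Nat.card_coe_set_eq _).symm
        rw [this]
        exact hcard
      · exact Set.toFinite _
    have hv : g * u * g⁻¹ ∈ (({1, t, u, u * t} : Finset C) : Set C) := by rw [hA]; exact hgu
    simp only [Finset.coe_insert, Finset.coe_singleton, Set.mem_insert_iff,
      Set.mem_singleton_iff] at hv
    rcases hv with h | h | h | h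
    · apply hu1
      calc u = g⁻¹ * (g * u * g⁻¹) * g := by group
        _ = 1 := by rw [h]; group
    · apply hut
      calc u = g⁻¹ * (g * u * g⁻¹) * g := by group
        _ = g⁻¹ * t * g := by rw [h]
        _ = g⁻¹ * (t * g) := by group
        _ = g⁻¹ * (g * t) := by rw [htc g]
        _ = t := by group
    · exact hgu_ne h
    · have h5 : g * (u * t) * g⁻¹ = u := by
        calc g * (u * t) * g⁻¹ = (g * u * g⁻¹) * (g * t) * g⁻¹ := by group
          _ = (u * t) * (t * g) * g⁻¹ := by rw [h, htc g]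
          _ = u * (t * t) := by group
          _ = u := by rw [ht2, mul_one]
      have hsq : g ^ 2 ∈ Subgroup.centralizer ({u} : Set C) := by
        rw [Subgroup.mem_centralizer_iff]
        intro w hw
        rw [Set.mem_singleton_iff] at hw
        rw [hw]
        calc u * g ^ 2 = (g * (u * t) * g⁻¹) * g ^ 2 := by rw [h5]
          _ = g * (u * t) * g := by rw [pow_two]; group
          _ = g * (g * u * g⁻¹) * g := by rw [h]
          _ = g ^ 2 * u := by rw [pow_two]; group
      obtain ⟨a, m, hm2, -, hom⟩ := Cfsg.Agent.Helper21.exists_pparts 2 g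
      have hgmN : g ^ m ∈ Subgroup.normalizer ((R : Subgroup C) : Set C) := pow_mem hg m
      have hgmR : g ^ m ∈ (R : Subgroup C) :=
        Cfsg.Agent.Helper21.mem_sylow_of_mem_normalizer_of_orderOf R hgmN hom
      have hgm : g ^ m ∈ Subgroup.centralizer ({u} : Set C) := by
        rw [Subgroup.mem_centralizer_iff]
        intro w hw
        rw [Set.mem_singleton_iff] at hw
        rw [hw]
        exact hab u hu _ hgmR
      have hgC : g ∈ Subgroup.centralizer ({u} : Set C) :=
        Cfsg.Agent.Helper21.mem_of_pow_mem_of_coprime (Nat.Coprime.symm hm2) hsq hgm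
      apply hne
      exact Subgroup.mem_centralizer_iff.mp hgC u rfl
  exact ⟨R, _, MonoidHom.normal_ker _, MonoidHom.ker_transferSylow_isComplement' R hNC⟩

/-- A dihedral Sylow `2`-subgroup of order at least `8` whose central involution is central in
the whole group: normal `2`-complement (Thompson transfer). -/
theorem npc_of_dihedral_central {C : Type*} [Group C] [Finite C] (R : Sylow 2 C) (k : ℕ)
    (hk : 0 < k) (hk2 : 2 ∣ k) (e : (R : Subgroup C) ≃* DihedralGroup (2 * k)) (t : C)
    (htc : ∀ g : C, g * t = t * g) (ht2 : t * t = 1) (ht1 : t ≠ 1) (htR : t ∈ (R : Subgroup C)) :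
    Cfsg.HasNormalPComplement 2 C := by
  haveI : Fact (Nat.Prime 2) := ⟨Nat.prime_two⟩
  obtain ⟨z, ϕ, ⟨hzz, hz1, hzc⟩, hϕ, ⟨t₁, t₂, ht₁, ht₁1, ht₁z, ht₂, ht₂1, ht₂z, hord⟩, -,
    hconj⟩ := dih_package hk e
  have hzt : z = ⟨t, htR⟩ := by
    by_contra hne
    obtain ⟨b, hb⟩ := hconj hk2 ⟨t, htR⟩ (Subtype.ext ht2)
      (fun h => ht1 (congrArg Subtype.val h)) (Ne.symm hne)
    have h1 : (b * ⟨t, htR⟩ * b⁻¹ : ↥(R : Subgroup C)) = ⟨t, htR⟩ := by
      apply Subtype.ext
      show (b : C) * t * (b : C)⁻¹ = t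
      rw [htc (b : C)]; group
    rw [h1] at hb
    apply hz1
    calc z = z * ⟨t, htR⟩ * (⟨t, htR⟩ : ↥(R : Subgroup C))⁻¹ := by group
      _ = 1 := by rw [← hb]; group
  have hA : ∀ w : ↥(R : Subgroup C), w ≠ z → ∀ g : C, g * (w : C) * g⁻¹ ≠ (z : C) := by
    intro w hwz g hg
    apply hwz
    rw [hzt] at hg ⊢
    apply Subtype.ext
    show (w : C) = t
    have hg' : g * (w : C) * g⁻¹ = t := hg
    calc (w : C) = g⁻¹ * (g * (w : C) * g⁻¹) * g := by group
      _ = g⁻¹ * t * g := by rw [hg']
      _ = g⁻¹ * (t * g) := by group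
      _ = g⁻¹ * (g * t) := by rw [htc g]
      _ = t := by group
  have hV1 := transfer_neg_one R z ϕ hϕ t₁ ht₁ ht₁1 (hA t₁ ht₁z)
  have hV2 := transfer_neg_one R z ϕ hϕ t₂ ht₂ ht₂1 (hA t₂ ht₂z)
  have hidx : (MonoidHom.transfer ϕ).ker.index = 2 := index_ker_of_units _ _ hV1
  have hρ : ((t₁ * t₂ : ↥(R : Subgroup C)) : C) ∈ (MonoidHom.transfer ϕ).ker := by
    rw [MonoidHom.mem_ker]
    show MonoidHom.transfer ϕ ((t₁ : C) * (t₂ : C)) = 1
    rw [map_mul, hV1, hV2]; decide
  have hcardS : Nat.card (R : Subgroup C) = 2 * (2 * k) := by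
    rw [Nat.card_congr e.toEquiv, DihedralGroup.nat_card]
  have hordX : orderOf ((t₁ * t₂ : ↥(R : Subgroup C)) : C) = 2 * k := by
    rw [Subgroup.orderOf_coe, hord]
  exact npc_of_index_two_cyclic R _ hidx _ hρ (by rw [hordX, hcardS])
    (by rw [hordX]; exact dvd_mul_right _ _)

/-- the centralizer of a reflection in a dihedral group -/
theorem dihedral_centralizer_sr {k : ℕ} (hk : 0 < k) (j : ZMod (2 * k))
    (d : DihedralGroup (2 * k))
    (hd : d * DihedralGroup.sr j = DihedralGroup.sr j * d) :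
    d * d = 1 ∧ d ∈ ({DihedralGroup.r 0, DihedralGroup.r (k : ZMod (2 * k)), DihedralGroup.sr j,
      DihedralGroup.sr (j + (k : ZMod (2 * k)))} : Finset (DihedralGroup (2 * k))) := by
  rcases d with i | i
  · rw [DihedralGroup.r_mul_sr, DihedralGroup.sr_mul_r] at hd
    have h1 : j - i = j + i := DihedralGroup.sr.inj hd
    have h2 : i + i = 0 := by
      have e : i + i = (j + i) - (j - i) := by ring
      rw [e, h1]; ring
    refine ⟨?_, ?_⟩
    · rw [DihedralGroup.r_mul_r, h2]; rfl
    · rcases zmod_double_eq_zero hk i h2 with h0 | h0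
      · rw [h0]; simp
      · rw [h0]; simp
  · rw [DihedralGroup.sr_mul_sr, DihedralGroup.sr_mul_sr] at hd
    have h1 : j - i = i - j := DihedralGroup.r.inj hd
    have h2 : (i - j) + (i - j) = 0 := by
      have e : (i - j) + (i - j) = (i - j) - (j - i) := by ring
      rw [e, h1]; ring
    refine ⟨?_, ?_⟩
    · rw [DihedralGroup.sr_mul_sr, sub_self]; rfl
    · rcases zmod_double_eq_zero hk (i - j) h2 with h0 | h0
      · have h3 : i = j := sub_eq_zero.mp h0
        rw [h3]; simp
      · have h3 : i = j + k := by rw [← h0]; ring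
        rw [h3]; simp

theorem dihedral_two_sq (k : ℕ) (hk1 : k = 1) (d : DihedralGroup (2 * k)) : d * d = 1 := by
  subst hk1
  rcases d with a | a
  · have h2 : ((2 * 1 : ℕ) : ZMod (2 * 1)) = 0 := ZMod.natCast_self _
    have e : a + a = ((2 * 1 : ℕ) : ZMod (2 * 1)) * a := by push_cast; ring
    rw [DihedralGroup.r_mul_r, e, h2, zero_mul]; rfl
  · rw [DihedralGroup.sr_mul_sr, sub_self]; rfl

theorem small_of_embedding {R D : Type*} [Group R] [Group D] (f : R →* D)
    (hf : Function.Injective f) (A : Finset D) (hA : A.card ≤ 4)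
    (h : ∀ x : R, f x * f x = 1 ∧ f x ∈ A) :
    Nat.card R ≤ 4 ∧ ∀ x : R, x * x = 1 := by
  refine ⟨?_, fun x => ?_⟩
  · have hinj : Function.Injective (fun x : R => (⟨f x, (h x).2⟩ : A)) := by
      intro x y hxy
      apply hf
      exact congrArg Subtype.val hxy
    have := Nat.card_le_card_of_injective _ hinj
    rw [Nat.card_eq_fintype_card (α := ↥A), Fintype.card_coe] at this
    exact this.trans hA
  · apply hf
    rw [map_mul, map_one]
    exact (h x).1

theorem exists_hom_of_map_le {X : Type*} [Group X] (K : Subgroup X) (R : Subgroup K)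
    (S₁ : Subgroup X) (hle : R.map K.subtype ≤ S₁) :
    ∃ ι : R →* S₁, Function.Injective ι ∧ ∀ x : R, ((ι x : S₁) : X) = ((x : K) : X) := by
  refine ⟨(K.subtype.comp R.subtype).codRestrict S₁ (fun x => hle ⟨x.1, x.2, rfl⟩), ?_, ?_⟩
  · intro x y hxy
    have h1 : ((x : K) : X) = ((y : K) : X) := congrArg (fun z : S₁ => (z : X)) hxy
    exact Subtype.ext (Subtype.ext h1)
  · intro x
    rfl

theorem dihedral_involution_centralizer_npc {X : Type*} [Group X] [Finite X]
    (S : Sylow 2 X) (n : ℕ) (hn : 2 ≤ n) (hS : Nonempty ((S : Subgroup X) ≃* DihedralGroup n))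
    (t : X) (ht : orderOf t = 2) :
    Cfsg.HasNormalPComplement 2 (Subgroup.centralizer ({t} : Set X)) := by
  haveI : Fact (Nat.Prime 2) := ⟨Nat.prime_two⟩
  obtain ⟨eS⟩ := hS
  have ht2 : t * t = 1 := by rw [← pow_two, ← ht, pow_orderOf_eq_one]
  have ht1 : t ≠ 1 := by
    intro h; rw [h, orderOf_one] at ht; omega
  have htC : t ∈ Subgroup.centralizer ({t} : Set X) := by
    rw [Subgroup.mem_centralizer_iff]
    intro w hw
    rw [Set.mem_singleton_iff] at hw
    rw [hw]
  obtain ⟨R⟩ : Nonempty (Sylow 2 (Subgroup.centralizer ({t} : Set X))) := inferInstance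
  have htc : ∀ g : Subgroup.centralizer ({t} : Set X), g * ⟨t, htC⟩ = ⟨t, htC⟩ * g := by
    intro g
    apply Subtype.ext
    show (g : X) * t = t * (g : X)
    exact (Subgroup.mem_centralizer_iff.mp g.2 t rfl).symm
  have ht2' : (⟨t, htC⟩ : Subgroup.centralizer ({t} : Set X)) * ⟨t, htC⟩ = 1 := Subtype.ext ht2
  have ht1' : (⟨t, htC⟩ : Subgroup.centralizer ({t} : Set X)) ≠ 1 :=
    fun h => ht1 (congrArg Subtype.val h)
  have hord' : orderOf (⟨t, htC⟩ : Subgroup.centralizer ({t} : Set X)) = 2 ^ 1 := by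
    rw [Subgroup.orderOf_mk, ht, pow_one]
  have htR : (⟨t, htC⟩ : Subgroup.centralizer ({t} : Set X)) ∈ (R : Subgroup _) := by
    apply Cfsg.Agent.Helper21.mem_sylow_of_mem_normalizer_of_orderOf R _ hord'
    rw [Subgroup.mem_normalizer_iff]
    intro h
    have e : (⟨t, htC⟩ : Subgroup.centralizer ({t} : Set X)) * h * (⟨t, htC⟩)⁻¹ = h := by
      rw [← htc h]; group
    rw [e]
  obtain ⟨S₁, hS₁⟩ := (R.2.map (Subgroup.centralizer ({t} : Set X)).subtype).exists_le_sylow
  have e₁ : (S₁ : Subgroup X) ≃* DihedralGroup n := (Sylow.equiv S₁ S).trans eS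
  obtain ⟨i, rfl⟩ := dih_sylow_two_pow S₁ n hn e₁
  have hk : 0 < 2 ^ i := by positivity
  have hm2 : 2 ^ (i + 1) = 2 * 2 ^ i := pow_succ' 2 i
  rw [hm2] at e₁
  have htS₁ : t ∈ (S₁ : Subgroup X) := hS₁ ⟨⟨t, htC⟩, htR, rfl⟩
  have hττ : e₁ ⟨t, htS₁⟩ * e₁ ⟨t, htS₁⟩ = 1 := by
    rw [← map_mul]
    have : (⟨t, htS₁⟩ : (S₁ : Subgroup X)) * ⟨t, htS₁⟩ = 1 := Subtype.ext ht2
    rw [this, map_one]
  obtain ⟨ι, hιinj, hι⟩ := exists_hom_of_map_le (Subgroup.centralizer ({t} : Set X))
    (R : Subgroup (Subgroup.centralizer ({t} : Set X))) (S₁ : Subgroup X) hS₁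
  rcases hτ : e₁ ⟨t, htS₁⟩ with j | j
  · -- `t` is central in `S₁`
    rw [hτ, DihedralGroup.r_mul_r, DihedralGroup.one_def] at hττ
    have hjj : j + j = 0 := DihedralGroup.r.inj hττ
    have hcen : ∀ s ∈ (S₁ : Subgroup X), s * t = t * s := by
      intro s hs
      have h1 : e₁ ⟨s, hs⟩ * e₁ ⟨t, htS₁⟩ = e₁ ⟨t, htS₁⟩ * e₁ ⟨s, hs⟩ := by
        rw [hτ]
        rcases h : e₁ ⟨s, hs⟩ with a | a
        · rw [DihedralGroup.r_mul_r, DihedralGroup.r_mul_r, add_comm]
        · rw [DihedralGroup.sr_mul_r, DihedralGroup.r_mul_sr]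
          congr 1
          calc a + j = a + j - (j + j) := by rw [hjj, sub_zero]
            _ = a - j := by ring
      rw [← map_mul, ← map_mul] at h1
      have h2 := e₁.injective h1
      exact congrArg Subtype.val h2
    have hS₁C : (S₁ : Subgroup X) ≤ Subgroup.centralizer ({t} : Set X) := by
      intro s hs
      rw [Subgroup.mem_centralizer_iff]
      intro w hw
      rw [Set.mem_singleton_iff] at hw
      rw [hw]
      exact (hcen s hs).symm
    have hRS : (S₁ : Subgroup X).subgroupOf (Subgroup.centralizer ({t} : Set X))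
        = (R : Subgroup _) := by
      apply R.3 S₁.2.comap_subtype
      intro x hx
      show (x : X) ∈ (S₁ : Subgroup X)
      exact hS₁ ⟨x, hx, rfl⟩
    have eR : ↥(R : Subgroup (Subgroup.centralizer ({t} : Set X)))
        ≃* DihedralGroup (2 * 2 ^ i) :=
      (MulEquiv.subgroupCongr hRS.symm).trans ((Subgroup.subgroupOfEquivOfLe hS₁C).trans e₁)
    rcases Nat.eq_zero_or_pos i with hi0 | hipos
    · have hcard : Nat.card ↥(R : Subgroup (Subgroup.centralizer ({t} : Set X))) ≤ 4 := by
        rw [Nat.card_congr eR.toEquiv, DihedralGroup.nat_card, hi0]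
        norm_num
      have hexp : ∀ r ∈ (R : Subgroup (Subgroup.centralizer ({t} : Set X))), r * r = 1 := by
        intro r hr
        have h1 : eR (⟨r, hr⟩ * ⟨r, hr⟩) = eR 1 := by
          rw [map_mul, map_one]
          exact dihedral_two_sq (2 ^ i) (by rw [hi0, pow_zero]) _
        exact congrArg Subtype.val (eR.injective h1)
      exact npc_of_small_sylow R ⟨t, htC⟩ htc ht2' ht1' htR hcard hexp
    · exact npc_of_dihedral_central R (2 ^ i) hk (dvd_pow_self 2 (by omega)) eR ⟨t, htC⟩ htc
        ht2' ht1' htR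
  · -- `t` is a reflection: its centralizer in `S₁` is small
    have hcomm : ∀ x : ↥(R : Subgroup (Subgroup.centralizer ({t} : Set X))),
        e₁ (ι x) * DihedralGroup.sr j = DihedralGroup.sr j * e₁ (ι x) := by
      intro x
      rw [← hτ, ← map_mul, ← map_mul]
      congr 1
      apply Subtype.ext
      show ((ι x : (S₁ : Subgroup X)) : X) * t = t * ((ι x : (S₁ : Subgroup X)) : X)
      rw [hι x]
      exact (Subgroup.mem_centralizer_iff.mp x.1.2 t rfl).symm
    obtain ⟨hcard, hexp⟩ := small_of_embedding (e₁.toMonoidHom.comp ι)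
      (e₁.injective.comp hιinj) _ Finset.card_le_four
      (fun x => dihedral_centralizer_sr hk j _ (hcomm x))
    exact npc_of_small_sylow R ⟨t, htC⟩ htc ht2' ht1' htR hcard
      (fun r hr => congrArg Subtype.val (hexp ⟨r, hr⟩))

theorem dihedral_involution_centralizer {X : Type*} [Group X] [Finite X]
    (S : Sylow 2 X) (n : ℕ) (hn : 2 ≤ n) (hS : Nonempty ((S : Subgroup X) ≃* DihedralGroup n))
    (t : X) (ht : orderOf t = 2) :
    ∃ N : Subgroup (Subgroup.centralizer ({t} : Set X)), N.Normal ∧ Odd (Nat.card N) ∧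
      ∃ k : ℕ, N.index = 2 ^ k := by
  haveI : Fact (Nat.Prime 2) := ⟨Nat.prime_two⟩
  obtain ⟨P, N, hNn, hc⟩ := dihedral_involution_centralizer_npc S n hn hS t ht
  refine ⟨N, hNn, ?_, ?_⟩
  · have h1 := hc.index_eq_card
    rw [← h1, ← Nat.not_even_iff_odd, even_iff_two_dvd]
    exact P.not_dvd_index
  · have h1 := hc.symm.index_eq_card
    rw [h1]
    exact (IsPGroup.iff_card).mp P.isPGroup'

end Cfsg.Agent.Helper4
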