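import Mathlib
import Cfsg.Agent.S0080
import Cfsg.Agent.Helper4.CardMul
import Cfsg.Agent.Helper4.Subnormal

set_option autoImplicit false

universe u

namespace Cfsg.Agent.Helper4

open scoped commutatorElement

/-- A subgroup whose order divides the order of a normal Hall subgroup lies in it. -/
theorem le_of_card_dvd_of_normal_hall {G : Type*} [Group G] [Finite G] (N : Subgroup G)
    [N.Normal] (hN : (Nat.card N).Coprime N.index) (X : Subgroup G)
    (hX : Nat.card X ∣ Nat.card N) : X ≤ N := by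
  have h1 : Nat.card (X.map (QuotientGroup.mk' N)) ∣ Nat.card X := Subgroup.card_map_dvd X _
  have h2 : Nat.card (X.map (QuotientGroup.mk' N)) ∣ N.index := by
    rw [Subgroup.index_eq_card]; exact Subgroup.card_subgroup_dvd_card _
  have h3 : Nat.card (X.map (QuotientGroup.mk' N)) = 1 :=
    Nat.eq_one_of_dvd_coprimes hN (h1.trans hX) h2
  have h4 : X.map (QuotientGroup.mk' N) = ⊥ := Subgroup.card_eq_one.mp h3
  have h5 := (Subgroup.map_eq_bot_iff X).mp h4
  rwa [QuotientGroup.ker_mk'] at h5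

theorem focal_map_le {G : Type*} [Group G] (L : Subgroup G) (K' : Subgroup L) (K : Subgroup G)
    (hle : K'.map L.subtype ≤ K) :
    (Subgroup.focalSubgroup K').map L.subtype ≤ Subgroup.focalSubgroup K := by
  rw [Subgroup.focalSubgroup_def, MonoidHom.map_closure, Subgroup.closure_le]
  rintro y ⟨g, ⟨hgK, x, hx, u, hgu⟩, rfl⟩
  rw [Subgroup.focalSubgroup_def]
  apply Subgroup.subset_closure
  refine ⟨hle (Subgroup.mem_map_of_mem _ hgK), (x : G), hle (Subgroup.mem_map_of_mem _ hx),
    (u : G), ?_⟩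
  rw [hgu]
  exact map_commutatorElement L.subtype x u

/-- S0557: a Hall subgroup whose iterated focal subgroups reach `⊥` has a normal complement. -/
theorem focal_iter_complement : ∀ (n : ℕ) (G : Type u) [Group G] [Finite G] (H : Subgroup G),
    (Nat.card H).Coprime H.index →
    (fun K : Subgroup G => Subgroup.focalSubgroup K)^[n] H = ⊥ →
    ∃ N : Subgroup G, N.Normal ∧ Subgroup.IsComplement' N H := by
  intro n
  induction n with
  | zero =>
    intro G _ _ H _ hfoc
    rw [Function.iterate_zero, id_eq] at hfoc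
    rw [hfoc]
    exact ⟨⊤, inferInstance, Subgroup.isComplement'_top_bot⟩
  | succ n ih =>
    intro G _ _ H hHall hfoc
    rw [Function.iterate_succ_apply] at hfoc
    have hcop : Nat.Coprime H.index (⁅H, H⁆.relIndex H) :=
      (Nat.Coprime.coprime_dvd_left (Subgroup.relIndex_dvd_card _ _) hHall).symm
    obtain ⟨hfocal, N₁, hN₁n, hN₁H, hN₁top⟩ := Cfsg.Agent.S0080.result H hcop
    haveI := hN₁n
    obtain ⟨H₁, hH₁⟩ : ∃ H₁ : Subgroup G, H₁ = Subgroup.focalSubgroup H := ⟨_, rfl⟩
    rw [← hH₁] at hfoc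
    have hH₁eq : H₁ = N₁ ⊓ H := by rw [hH₁, hfocal, hN₁H]
    have hH₁N : H₁ ≤ N₁ := by rw [hH₁eq]; exact inf_le_left
    have hH₁H : H₁ ≤ H := by rw [hH₁eq]; exact inf_le_right
    have hcard₁ : Nat.card (H₁.subgroupOf N₁) = Nat.card H₁ :=
      Nat.card_congr (Subgroup.subgroupOfEquivOfLe hH₁N).toEquiv
    have hHall₁ : (Nat.card (H₁.subgroupOf N₁)).Coprime (H₁.subgroupOf N₁).index := by
      rw [hcard₁]
      have h1 : (H₁.subgroupOf N₁).index = H.relIndex N₁ := by
        show H₁.relIndex N₁ = H.relIndex N₁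
        rw [hH₁eq, inf_comm, Subgroup.inf_relIndex_right]
      rw [h1]
      exact Nat.Coprime.coprime_dvd_left (Subgroup.card_dvd_of_le hH₁H)
        (Nat.Coprime.coprime_dvd_right (relIndex_dvd_index_of_normal_right H N₁) hHall)
    have hiter : ∀ k : ℕ,
        ((fun K : Subgroup N₁ => Subgroup.focalSubgroup K)^[k] (H₁.subgroupOf N₁)).map N₁.subtype
          ≤ (fun K : Subgroup G => Subgroup.focalSubgroup K)^[k] H₁ := by
      intro k
      induction k with
      | zero =>
        rw [Function.iterate_zero, id_eq, Function.iterate_zero, id_eq]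
        rintro y ⟨x, hx, rfl⟩
        exact Subgroup.mem_subgroupOf.mp hx
      | succ k ihk =>
        rw [Function.iterate_succ_apply', Function.iterate_succ_apply']
        exact focal_map_le N₁ _ _ ihk
    have hfoc₁ : (fun K : Subgroup N₁ => Subgroup.focalSubgroup K)^[n] (H₁.subgroupOf N₁) = ⊥ := by
      have h1 := hiter n
      rw [hfoc] at h1
      exact (Subgroup.map_eq_bot_iff_of_injective _ N₁.subtype_injective).mp (le_bot_iff.mp h1)
    obtain ⟨M', hM'n, hM'c⟩ := ih N₁ (H₁.subgroupOf N₁) hHall₁ hfoc₁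
    haveI := hM'n
    obtain ⟨hM'card, hM'dis⟩ := Subgroup.isComplement'_iff_card_mul_and_disjoint.mp hM'c
    have hM'Hall : (Nat.card M').Coprime M'.index := by
      have h1 : M'.index = Nat.card (H₁.subgroupOf N₁) := by
        have h2 := Subgroup.card_mul_index M'
        rw [← hM'card] at h2
        exact Nat.eq_of_mul_eq_mul_left Nat.card_pos h2
      have h3 : (H₁.subgroupOf N₁).index = Nat.card M' := by
        have h2 := Subgroup.card_mul_index (H₁.subgroupOf N₁)
        have h4 : Nat.card (H₁.subgroupOf N₁) * (H₁.subgroupOf N₁).index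
            = Nat.card (H₁.subgroupOf N₁) * Nat.card M' := by
          rw [h2, ← hM'card, mul_comm]
        exact Nat.eq_of_mul_eq_mul_left Nat.card_pos h4
      rw [h1, ← h3]
      exact hHall₁.symm
    obtain ⟨M, hMdef⟩ : ∃ M : Subgroup G, M = M'.map N₁.subtype := ⟨_, rfl⟩
    have hMN : M ≤ N₁ := by rw [hMdef]; exact Subgroup.map_subtype_le _
    have hMcard : Nat.card M = Nat.card M' := by
      rw [hMdef]; exact Subgroup.card_map_of_injective N₁.subtype_injective
    have hMmem : ∀ (x : G) (hx : x ∈ N₁), x ∈ M ↔ (⟨x, hx⟩ : N₁) ∈ M' := by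
      intro x hx
      rw [hMdef]
      constructor
      · rintro ⟨y, hy, hyx⟩
        have e : y = ⟨x, hx⟩ := Subtype.ext hyx
        rw [← e]; exact hy
      · intro h
        exact ⟨⟨x, hx⟩, h, rfl⟩
    have hMn : M.Normal := by
      constructor
      intro m hm g
      have hmN : m ∈ N₁ := hMN hm
      have hgN : g * m * g⁻¹ ∈ N₁ := hN₁n.conj_mem m hmN g
      obtain ⟨X, hXdef⟩ : ∃ X : Subgroup G, X = M.map (MulAut.conj g).toMonoidHom := ⟨_, rfl⟩
      have hXcard : Nat.card X = Nat.card M := by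
        rw [hXdef]; exact Subgroup.card_map_of_injective (MulAut.conj g).injective
      have hXN : X ≤ N₁ := by
        rw [hXdef]
        rintro y ⟨m', hm', rfl⟩
        exact hN₁n.conj_mem m' (hMN hm') g
      have hX' : X.subgroupOf N₁ ≤ M' := by
        apply le_of_card_dvd_of_normal_hall M' hM'Hall
        rw [Nat.card_congr (Subgroup.subgroupOfEquivOfLe hXN).toEquiv, hXcard, hMcard]
      have h1 : (⟨g * m * g⁻¹, hgN⟩ : N₁) ∈ X.subgroupOf N₁ := by
        rw [Subgroup.mem_subgroupOf, hXdef]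
        exact ⟨m, hm, rfl⟩
      exact (hMmem _ hgN).mpr (hX' h1)
    refine ⟨M, hMn, ?_⟩
    apply Subgroup.isComplement'_of_card_mul_and_disjoint
    · have h1 := card_sup_mul_card_inf H N₁ (by rw [Subgroup.normalizer_eq_top]; exact le_top)
      rw [sup_comm, hN₁top, Subgroup.card_top, inf_comm, ← hH₁eq] at h1
      rw [← hM'card, hcard₁, ← hMcard] at h1
      have h2 : Nat.card G * Nat.card H₁ = (Nat.card M * Nat.card H) * Nat.card H₁ := by
        rw [h1]; ring
      exact (Nat.eq_of_mul_eq_mul_right Nat.card_pos h2).symm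
    · rw [disjoint_iff, eq_bot_iff]
      intro x hx
      obtain ⟨hxM, hxH⟩ := Subgroup.mem_inf.mp hx
      have hxN : x ∈ N₁ := hMN hxM
      have hxH₁ : x ∈ H₁ := by rw [hH₁eq]; exact Subgroup.mem_inf.mpr ⟨hxN, hxH⟩
      have h1 : (⟨x, hxN⟩ : N₁) ∈ M' ⊓ H₁.subgroupOf N₁ :=
        Subgroup.mem_inf.mpr ⟨(hMmem x hxN).mp hxM, Subgroup.mem_subgroupOf.mpr hxH₁⟩
      rw [disjoint_iff.mp hM'dis, Subgroup.mem_bot] at h1
      rw [Subgroup.mem_bot]
      exact congrArg Subtype.val h1

end Cfsg.Agent.Helper4
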