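import Mathlib
import Cfsg.Prelude.Def_CaseTheorems
import Cfsg.Agent.Helper24.FourConn
import Cfsg.Agent.Helper12.AlpInd

/-!
The commuting graph of Klein four-subgroups and the 2-generated core (S0520).
-/

set_option autoImplicit false

namespace Cfsg.Agent.Helper4

universe u

variable {G : Type u} [Group G]

/-- The conjugate `g U g⁻¹`. -/
def fcCj (g : G) (U : Subgroup G) : Subgroup G := U.map (MulAut.conj g).toMonoidHom

theorem fc_mem_cj (g : G) (U : Subgroup G) (x : G) : x ∈ fcCj g U ↔ g⁻¹ * x * g ∈ U :=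
  Cfsg.Agent.Helper12.mem_map_conj_iff U g x

theorem fc_cj_mono (g : G) {U V : Subgroup G} (h : U ≤ V) : fcCj g U ≤ fcCj g V :=
  Subgroup.map_mono h

theorem fc_cj_mul (g h : G) (U : Subgroup G) : fcCj (g * h) U = fcCj g (fcCj h U) := by
  ext x
  rw [fc_mem_cj, fc_mem_cj, fc_mem_cj]
  have e : (g * h)⁻¹ * x * (g * h) = h⁻¹ * (g⁻¹ * x * g) * h := by group
  rw [e]

theorem fc_cj_one (U : Subgroup G) : fcCj 1 U = U := by
  ext x
  rw [fc_mem_cj]
  have e : (1 : G)⁻¹ * x * 1 = x := by group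
  rw [e]

theorem fc_cj_inv_cj (g : G) (U : Subgroup G) : fcCj g⁻¹ (fcCj g U) = U := by
  rw [← fc_cj_mul, inv_mul_cancel, fc_cj_one]

theorem fc_card_cj (g : G) (U : Subgroup G) : Nat.card ↥(fcCj g U) = Nat.card ↥U :=
  (Nat.card_congr (U.equivMapOfInjective _ (MulAut.conj g).injective).toEquiv).symm

theorem fc_kf_of_equiv {A B : Type*} [Group A] [Group B] (e : A ≃* B) (h : IsKleinFour A) :
    IsKleinFour B :=
  { card_four := by rw [← Nat.card_congr e.toEquiv]; exact h.card_four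
    exponent_two := by rw [← Monoid.exponent_eq_of_mulEquiv e]; exact h.exponent_two }

theorem fc_kf_cj (g : G) {V : Subgroup G} (h : IsKleinFour ↥V) : IsKleinFour ↥(fcCj g V) :=
  fc_kf_of_equiv (V.equivMapOfInjective _ (MulAut.conj g).injective) h

theorem fc_kf_subgroupOf {V Q : Subgroup G} (hle : V ≤ Q) (h : IsKleinFour ↥V) :
    IsKleinFour ↥(V.subgroupOf Q) :=
  fc_kf_of_equiv (Subgroup.subgroupOfEquivOfLe hle).symm h

theorem fc_kf_map_subtype {Q : Subgroup G} (A : Subgroup ↥Q) (h : IsKleinFour ↥A) :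
    IsKleinFour ↥(A.map Q.subtype) :=
  fc_kf_of_equiv (A.equivMapOfInjective _ Q.subtype_injective) h

theorem fc_kf_sq {A : Subgroup G} (hA : IsKleinFour ↥A) : ∀ a ∈ A, a * a = 1 := by
  intro a ha
  haveI := hA
  exact congrArg Subtype.val (IsKleinFour.mul_self (⟨a, ha⟩ : ↥A))

/-- The relation "commuting Klein four-subgroups". -/
abbrev fcRel (G : Type u) [Group G] : Subgroup G → Subgroup G → Prop :=
  fun A B => IsKleinFour A ∧ IsKleinFour B ∧ ∀ a ∈ A, ∀ b ∈ B, a * b = b * a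

theorem fc_lift {α β : Type*} {r : α → α → Prop} {p : β → β → Prop} (f : α → β)
    (h : ∀ a b, r a b → p (f a) (f b)) {a b : α} (hab : Relation.ReflTransGen r a b) :
    Relation.ReflTransGen p (f a) (f b) := by
  induction hab with
  | refl => exact Relation.ReflTransGen.refl
  | tail _ hbc ih => exact Relation.ReflTransGen.tail ih (h _ _ hbc)

theorem fc_conj_chain (g : G) {U V : Subgroup G} (h : Relation.ReflTransGen (fcRel G) U V) :
    Relation.ReflTransGen (fcRel G) (fcCj g U) (fcCj g V) :=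
  fc_lift (p := fcRel G) (fcCj g) (fun A B hAB => ⟨fc_kf_cj g hAB.1, fc_kf_cj g hAB.2.1, by
    rintro _ ⟨a, ha, rfl⟩ _ ⟨b, hb, rfl⟩
    rw [← map_mul, ← map_mul, hAB.2.2 a ha b hb]⟩) h

/-- A group of 2-rank at least 2 has a Klein four-subgroup. -/
theorem fc_four_of_rank' {P : Type*} [Group P] (h : ¬ Cfsg.PRankLE 2 1 P) :
    ∃ V : Subgroup P, IsKleinFour ↥V := by
  classical
  have hex : ∃ A : Subgroup P, IsMulCommutative ↥A ∧ (∀ a ∈ A, a ^ 2 = 1) ∧ 2 < Nat.card ↥A := by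
    by_contra hcon
    apply h
    intro A hAc hA2
    by_contra hc
    exact hcon ⟨A, hAc, hA2, by
      have h21 : (2 : ℕ) ^ 1 = 2 := by norm_num
      omega⟩
  obtain ⟨A, hAc, hA2, hAcard⟩ := hex
  obtain ⟨a, haA, ha1⟩ := Cfsg.Agent.Helper24.exists_mem_notMem_finset A {1}
    (by rw [Finset.card_singleton]; omega)
  obtain ⟨b, hbA, hb⟩ := Cfsg.Agent.Helper24.exists_mem_notMem_finset A {1, a}
    (lt_of_le_of_lt Finset.card_le_two hAcard)
  simp only [Finset.mem_insert, Finset.mem_singleton, not_or] at hb ha1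
  have haa : a * a = 1 := by rw [← pow_two]; exact hA2 a haA
  have hbb : b * b = 1 := by rw [← pow_two]; exact hA2 b hbA
  have hab : a * b = b * a :=
    congrArg Subtype.val (hAc.is_comm.comm (⟨a, haA⟩ : ↥A) ⟨b, hbA⟩)
  exact ⟨Cfsg.Agent.Helper24.fourSub a b haa hbb hab,
    Cfsg.Agent.Helper24.fourSub_isKleinFour haa hbb hab ha1 hb.1 (fun h => hb.2 h.symm)⟩

theorem fc_four_of_rank {Q : Subgroup G} (h : ¬ Cfsg.PRankLE 2 1 ↥Q) :
    ∃ V : Subgroup G, V ≤ Q ∧ IsKleinFour ↥V := by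
  obtain ⟨A, hA⟩ := fc_four_of_rank' h
  exact ⟨A.map Q.subtype, Subgroup.map_subtype_le A, fc_kf_map_subtype A hA⟩

theorem fc_rank_of_four {Q V : Subgroup G} (hVQ : V ≤ Q) (hV : IsKleinFour ↥V) :
    ¬ Cfsg.PRankLE 2 1 ↥Q := by
  intro h
  have hK : IsKleinFour ↥(V.subgroupOf Q) := fc_kf_subgroupOf hVQ hV
  haveI := hK
  have h1 := h (V.subgroupOf Q) IsKleinFour.isMulCommutative (fun a ha => by
    rw [pow_two]
    exact congrArg Subtype.val (IsKleinFour.mul_self (⟨a, ha⟩ : ↥(V.subgroupOf Q))))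
  rw [hK.card_four] at h1
  norm_num at h1

theorem fc_sylow_conj [Finite G] {p : ℕ} [Fact p.Prime] (S : Sylow p G) {U : Subgroup G}
    (hU : IsPGroup p ↥U) : ∃ g : G, fcCj g U ≤ (S : Subgroup G) := by
  obtain ⟨Q, hQ⟩ := hU.exists_le_sylow
  obtain ⟨g, hg⟩ := MulAction.exists_smul_eq G Q S
  refine ⟨g, ?_⟩
  have h1 : fcCj g U ≤ fcCj g (Q : Subgroup G) := fc_cj_mono g hQ
  have h2 : fcCj g (Q : Subgroup G) = ((g • Q : Sylow p G) : Subgroup G) :=
    (Cfsg.Agent.Helper12.sylow_smul_coe_eq_map Q g).symm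
  rw [h2, hg] at h1
  exact h1

theorem fc_sylow_conj_in [Finite G] {p : ℕ} [Fact p.Prime] (S : Sylow p G) {H P : Subgroup G}
    (hSH : (S : Subgroup G) ≤ H) (hPH : P ≤ H) (hP : IsPGroup p ↥P) :
    ∃ h ∈ H, fcCj h P ≤ (S : Subgroup G) := by
  have hP' : IsPGroup p ↥(P.subgroupOf H) := hP.comap_subtype
  obtain ⟨h, hh⟩ := fc_sylow_conj (S.subtype hSH) hP'
  refine ⟨(h : G), h.2, ?_⟩
  intro x hx
  rw [fc_mem_cj] at hx
  have hxH : x ∈ H := by
    have h1 : (h : G)⁻¹ * x * (h : G) ∈ H := hPH hx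
    have h2 : (h : G) * ((h : G)⁻¹ * x * (h : G)) * (h : G)⁻¹ ∈ H :=
      H.mul_mem (H.mul_mem h.2 h1) (H.inv_mem h.2)
    have e : (h : G) * ((h : G)⁻¹ * x * (h : G)) * (h : G)⁻¹ = x := by group
    rwa [e] at h2
  have h3 : (⟨x, hxH⟩ : ↥H) ∈ fcCj h (P.subgroupOf H) := by
    rw [fc_mem_cj, Subgroup.mem_subgroupOf]
    exact hx
  have h4 : (⟨x, hxH⟩ : ↥H) ∈ (S : Subgroup G).subgroupOf H := hh h3
  exact Subgroup.mem_subgroupOf.mp h4

/-- The product of two elementwise commuting subgroups. -/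
def fcProd (A B : Subgroup G) (h : ∀ a ∈ A, ∀ b ∈ B, a * b = b * a) : Subgroup G where
  carrier := {x | ∃ a ∈ A, ∃ b ∈ B, x = a * b}
  one_mem' := ⟨1, A.one_mem, 1, B.one_mem, (mul_one 1).symm⟩
  mul_mem' := by
    rintro _ _ ⟨a, ha, b, hb, rfl⟩ ⟨a', ha', b', hb', rfl⟩
    refine ⟨a * a', A.mul_mem ha ha', b * b', B.mul_mem hb hb', ?_⟩
    calc a * b * (a' * b') = a * (b * a') * b' := by simp only [mul_assoc]
      _ = a * (a' * b) * b' := by rw [h a' ha' b hb]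
      _ = a * a' * (b * b') := by simp only [mul_assoc]
  inv_mem' := by
    rintro _ ⟨a, ha, b, hb, rfl⟩
    refine ⟨a⁻¹, A.inv_mem ha, b⁻¹, B.inv_mem hb, ?_⟩
    rw [mul_inv_rev]
    exact (h a⁻¹ (A.inv_mem ha) b⁻¹ (B.inv_mem hb)).symm

theorem fc_left_le_prod (A B : Subgroup G) (h : ∀ a ∈ A, ∀ b ∈ B, a * b = b * a) :
    A ≤ fcProd A B h := fun a ha => ⟨a, ha, 1, B.one_mem, (mul_one a).symm⟩

theorem fc_right_le_prod (A B : Subgroup G) (h : ∀ a ∈ A, ∀ b ∈ B, a * b = b * a) :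
    B ≤ fcProd A B h := fun b hb => ⟨1, A.one_mem, b, hb, (one_mul b).symm⟩

theorem fc_prod_pgroup {A B : Subgroup G} (h : ∀ a ∈ A, ∀ b ∈ B, a * b = b * a)
    (hA : ∀ a ∈ A, a * a = 1) (hB : ∀ b ∈ B, b * b = 1) : IsPGroup 2 ↥(fcProd A B h) := by
  rintro ⟨x, a, ha, b, hb, rfl⟩
  refine ⟨1, Subtype.ext ?_⟩
  show (a * b) ^ 2 ^ 1 = 1
  rw [pow_one, pow_two]
  calc a * b * (a * b) = a * (b * a) * b := by simp only [mul_assoc]
    _ = a * (a * b) * b := by rw [h a ha b hb]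
    _ = (a * a) * (b * b) := by simp only [mul_assoc]
    _ = 1 := by rw [hA a ha, hB b hb, one_mul]

/-- If the 2-generated core is everything, the four-graph of `G` is connected. -/
theorem fc_conn_of_top [Finite G] (S : Sylow 2 G) (hS : Cfsg.IsFourConnected (S : Subgroup G))
    (hT : (⨆ Q : {Q : Subgroup G // Q ≤ (S : Subgroup G) ∧ ¬ Cfsg.PRankLE 2 1 Q},
          Subgroup.normalizer ((Q : Subgroup G) : Set G)) = ⊤) : Cfsg.IsFourConnected G := by
  classical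
  haveI : Fact (Nat.Prime 2) := ⟨Nat.prime_two⟩
  have hSc : ∀ W₀ W : Subgroup G, W₀ ≤ (S : Subgroup G) → W ≤ (S : Subgroup G) →
      IsKleinFour ↥W₀ → IsKleinFour ↥W → Relation.ReflTransGen (fcRel G) W₀ W := by
    intro W₀ W h0 h1 k0 k1
    have h := hS (W₀.subgroupOf S) (W.subgroupOf S) (fc_kf_subgroupOf h0 k0)
      (fc_kf_subgroupOf h1 k1)
    have h' := fc_lift (p := fcRel G)
      (fun A : Subgroup ↥(S : Subgroup G) => A.map (S : Subgroup G).subtype)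
      (fun A B hAB => ⟨fc_kf_map_subtype A hAB.1, fc_kf_map_subtype B hAB.2.1, by
        rintro _ ⟨a, ha, rfl⟩ _ ⟨b, hb, rfl⟩
        exact congrArg Subtype.val (hAB.2.2 a ha b hb)⟩) h
    rwa [Subgroup.map_subgroupOf_eq_of_le h0, Subgroup.map_subgroupOf_eq_of_le h1] at h'
  have hP : ∀ g : G, ∀ W : Subgroup G, IsKleinFour ↥W →
      (∀ W₀ : Subgroup G, W₀ ≤ (S : Subgroup G) → IsKleinFour ↥W₀ →
        Relation.ReflTransGen (fcRel G) W₀ W) →
      (∀ W₀ : Subgroup G, W₀ ≤ (S : Subgroup G) → IsKleinFour ↥W₀ →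
        Relation.ReflTransGen (fcRel G) W₀ (fcCj g W)) := by
    intro g
    have hg : g ∈ (⨆ Q : {Q : Subgroup G // Q ≤ (S : Subgroup G) ∧ ¬ Cfsg.PRankLE 2 1 Q},
          Subgroup.normalizer ((Q : Subgroup G) : Set G)) := by
      rw [hT]; exact Subgroup.mem_top g
    refine Subgroup.iSup_induction
      (C := fun g => ∀ W : Subgroup G, IsKleinFour ↥W →
        (∀ W₀ : Subgroup G, W₀ ≤ (S : Subgroup G) → IsKleinFour ↥W₀ →
          Relation.ReflTransGen (fcRel G) W₀ W) →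
        (∀ W₀ : Subgroup G, W₀ ≤ (S : Subgroup G) → IsKleinFour ↥W₀ →
          Relation.ReflTransGen (fcRel G) W₀ (fcCj g W))) _ hg ?_ ?_ ?_
    · rintro ⟨Q, hQS, hQr⟩ x hx W hW hWc W₀ hW₀S hW₀
      obtain ⟨V, hVQ, hV⟩ := fc_four_of_rank hQr
      have h1 : Relation.ReflTransGen (fcRel G) V W := hWc V (hVQ.trans hQS) hV
      have h2 := fc_conj_chain x h1
      have hVx : fcCj x V ≤ (S : Subgroup G) := by
        intro y hy
        rw [fc_mem_cj] at hy
        have hy' : x⁻¹ * y * x ∈ Q := hVQ hy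
        have h3 : x * (x⁻¹ * y * x) * x⁻¹ ∈ Q := (Subgroup.mem_normalizer_iff.mp hx _).mp hy'
        have e : x * (x⁻¹ * y * x) * x⁻¹ = y := by group
        rw [e] at h3
        exact hQS h3
      exact (hSc W₀ (fcCj x V) hW₀S hVx hW₀ (fc_kf_cj x hV)).trans h2
    · intro W hW hWc W₀ hW₀S hW₀
      rw [fc_cj_one]; exact hWc W₀ hW₀S hW₀
    · intro x y hx hy W hW hWc W₀ hW₀S hW₀
      rw [fc_cj_mul]
      exact hx (fcCj y W) (fc_kf_cj y hW) (hy W hW hWc) W₀ hW₀S hW₀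
  have key : ∀ U : Subgroup G, IsKleinFour ↥U → ∃ W : Subgroup G, W ≤ (S : Subgroup G) ∧
      IsKleinFour ↥W ∧ Relation.ReflTransGen (fcRel G) W U := by
    intro U hU
    have hU2 : IsPGroup 2 ↥U := IsPGroup.of_card (n := 2) (by rw [hU.card_four]; norm_num)
    obtain ⟨g, hg⟩ := fc_sylow_conj S hU2
    have hW : IsKleinFour ↥(fcCj g U) := fc_kf_cj g hU
    refine ⟨fcCj g U, hg, hW, ?_⟩
    have h1 := hP g⁻¹ (fcCj g U) hW (fun W₀ h0 k0 => hSc W₀ _ h0 hg k0 hW) (fcCj g U) hg hW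
    rwa [fc_cj_inv_cj] at h1
  intro U V hU hV
  obtain ⟨W1, hW1S, hW1, hc1⟩ := key U hU
  obtain ⟨W2, hW2S, hW2, hc2⟩ := key V hV
  have hsymm : ∀ A B : Subgroup G, fcRel G A B → fcRel G B A :=
    fun A B h => ⟨h.2.1, h.1, fun a ha b hb => (h.2.2 b hb a ha).symm⟩
  exact (Cfsg.Agent.Helper24.reflTransGen_symm_of_symm hsymm hc1).trans
    ((hSc W1 W2 hW1S hW2S hW1 hW2).trans hc2)

/-- Alperin-type induction: if `S ∩ gSg⁻¹` contains a four-group then `g` lies in the core. -/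
theorem fc_lemmaA [Finite G] (S : Sylow 2 G) (H : Subgroup G)
    (hH : ∀ Q : Subgroup G, Q ≤ (S : Subgroup G) → (∃ V : Subgroup G, V ≤ Q ∧ IsKleinFour ↥V) →
      Subgroup.normalizer (Q : Set G) ≤ H) :
    ∀ (m : ℕ) (g : G),
      Nat.card ↥(S : Subgroup G) - Nat.card ↥((S : Subgroup G) ⊓ fcCj g (S : Subgroup G)) = m →
      (∃ V : Subgroup G, V ≤ (S : Subgroup G) ⊓ fcCj g (S : Subgroup G) ∧ IsKleinFour ↥V) →
      g ∈ H := by
  classical
  haveI : Fact (Nat.Prime 2) := ⟨Nat.prime_two⟩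
  intro m
  induction m using Nat.strong_induction_on with
  | _ m IH =>
    intro g hm hV
    obtain ⟨V, hVR, hV4⟩ := hV
    obtain ⟨R, hR⟩ : ∃ R : Subgroup G, R = (S : Subgroup G) ⊓ fcCj g (S : Subgroup G) :=
      ⟨_, rfl⟩
    rw [← hR] at hm hVR
    have hRS : R ≤ (S : Subgroup G) := by rw [hR]; exact inf_le_left
    have hRSg : R ≤ fcCj g (S : Subgroup G) := by rw [hR]; exact inf_le_right
    have hNS : Subgroup.normalizer ((S : Subgroup G) : Set G) ≤ H :=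
      hH (S : Subgroup G) le_rfl ⟨V, hVR.trans hRS, hV4⟩
    have hNR : Subgroup.normalizer (R : Set G) ≤ H := hH R hRS ⟨V, hVR, hV4⟩
    have hSH : (S : Subgroup G) ≤ H := Subgroup.le_normalizer.trans hNS
    have hSg2 : IsPGroup 2 ↥(fcCj g (S : Subgroup G)) := S.isPGroup'.map _
    by_cases hRS' : R = fcCj g (S : Subgroup G)
    · have hle : fcCj g (S : Subgroup G) ≤ (S : Subgroup G) := hRS' ▸ hRS
      have heq : fcCj g (S : Subgroup G) = (S : Subgroup G) := by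
        apply Subgroup.eq_of_le_of_card_ge hle
        rw [fc_card_cj]
      have hgN : g ∈ Subgroup.normalizer ((S : Subgroup G) : Set G) := by
        rw [Subgroup.mem_normalizer_iff]
        intro x
        constructor
        · intro hx
          have hx' : g * x * g⁻¹ ∈ fcCj g (S : Subgroup G) := by
            rw [fc_mem_cj]
            have e : g⁻¹ * (g * x * g⁻¹) * g = x := by group
            rw [e]; exact hx
          rw [heq] at hx'
          exact hx'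
        · intro hx
          rw [← heq, fc_mem_cj] at hx
          have e : g⁻¹ * (g * x * g⁻¹) * g = x := by group
          rwa [e] at hx
      exact hNS hgN
    · have hlt := Cfsg.Agent.Helper12.card_lt_card_inf_normalizer hSg2 hRSg hRS'
      obtain ⟨N1, hN1⟩ : ∃ N1 : Subgroup G,
          N1 = fcCj g (S : Subgroup G) ⊓ Subgroup.normalizer (R : Set G) := ⟨_, rfl⟩
      rw [← hN1] at hlt
      have hN1H : N1 ≤ H := by rw [hN1]; exact inf_le_right.trans hNR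
      have hN1p : IsPGroup 2 ↥N1 := by rw [hN1]; exact hSg2.to_le inf_le_left
      have hRN1 : R ≤ N1 := by rw [hN1]; exact le_inf hRSg Subgroup.le_normalizer
      have hN1Sg : N1 ≤ fcCj g (S : Subgroup G) := by rw [hN1]; exact inf_le_left
      obtain ⟨h, hhH, hh⟩ := fc_sylow_conj_in S hSH hN1H hN1p
      have h1 : fcCj h N1 ≤ (S : Subgroup G) ⊓ fcCj (h * g) (S : Subgroup G) := by
        apply le_inf hh
        rw [fc_cj_mul]
        exact fc_cj_mono h hN1Sg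
      have h2 : Nat.card ↥N1 ≤
          Nat.card ↥((S : Subgroup G) ⊓ fcCj (h * g) (S : Subgroup G)) := by
        rw [← fc_card_cj h N1]; exact Subgroup.card_le_of_le h1
      have h3 : Nat.card ↥((S : Subgroup G) ⊓ fcCj (h * g) (S : Subgroup G)) ≤
          Nat.card ↥(S : Subgroup G) := Subgroup.card_le_of_le inf_le_left
      have hmlt : Nat.card ↥(S : Subgroup G) -
          Nat.card ↥((S : Subgroup G) ⊓ fcCj (h * g) (S : Subgroup G)) < m := by
        rw [← hm]; omega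
      have hV' : ∃ V' : Subgroup G,
          V' ≤ (S : Subgroup G) ⊓ fcCj (h * g) (S : Subgroup G) ∧ IsKleinFour ↥V' :=
        ⟨fcCj h V, (fc_cj_mono h (hVR.trans hRN1)).trans h1, fc_kf_cj h hV4⟩
      have hmem := IH _ hmlt (h * g) rfl hV'
      have e : g = h⁻¹ * (h * g) := by group
      rw [e]
      exact H.mul_mem (H.inv_mem hhH) hmem

/-- If the four-graph of `G` is connected, the 2-generated core is everything. -/
theorem fc_top_of_conn [Finite G] (S : Sylow 2 G) (h2 : ¬ Cfsg.PRankLE 2 1 G)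
    (hc : Cfsg.IsFourConnected G) :
    (⨆ Q : {Q : Subgroup G // Q ≤ (S : Subgroup G) ∧ ¬ Cfsg.PRankLE 2 1 Q},
          Subgroup.normalizer ((Q : Subgroup G) : Set G)) = ⊤ := by
  classical
  haveI : Fact (Nat.Prime 2) := ⟨Nat.prime_two⟩
  obtain ⟨H, hHdef⟩ : ∃ H : Subgroup G,
      H = (⨆ Q : {Q : Subgroup G // Q ≤ (S : Subgroup G) ∧ ¬ Cfsg.PRankLE 2 1 Q},
          Subgroup.normalizer ((Q : Subgroup G) : Set G)) := ⟨_, rfl⟩
  rw [← hHdef]
  have hH : ∀ Q : Subgroup G, Q ≤ (S : Subgroup G) →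
      (∃ V : Subgroup G, V ≤ Q ∧ IsKleinFour ↥V) → Subgroup.normalizer (Q : Set G) ≤ H := by
    rintro Q hQS ⟨V, hVQ, hV⟩
    rw [hHdef]
    exact le_iSup (fun Q : {Q : Subgroup G // Q ≤ (S : Subgroup G) ∧ ¬ Cfsg.PRankLE 2 1 Q} =>
      Subgroup.normalizer ((Q : Subgroup G) : Set G)) ⟨Q, hQS, fc_rank_of_four hVQ hV⟩
  have hA := fc_lemmaA S H hH
  obtain ⟨U₁, hU₁⟩ := fc_four_of_rank' h2
  have hU₁2 : IsPGroup 2 ↥U₁ := IsPGroup.of_card (n := 2) (by rw [hU₁.card_four]; norm_num)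
  obtain ⟨g₀, hg₀⟩ := fc_sylow_conj S hU₁2
  have hU₀ : IsKleinFour ↥(fcCj g₀ U₁) := fc_kf_cj g₀ hU₁
  have hUq : ∀ (V : Subgroup G) (x y : G), IsKleinFour ↥V → V ≤ fcCj x (S : Subgroup G) →
      V ≤ fcCj y (S : Subgroup G) → x⁻¹ * y ∈ H := by
    intro V x y hV hx hy
    have h1 : fcCj x⁻¹ V ≤ (S : Subgroup G) := by
      have h := fc_cj_mono x⁻¹ hx
      rwa [fc_cj_inv_cj] at h
    have h2' : fcCj x⁻¹ V ≤ fcCj (x⁻¹ * y) (S : Subgroup G) := by
      have h := fc_cj_mono x⁻¹ hy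
      rwa [← fc_cj_mul] at h
    exact hA _ (x⁻¹ * y) rfl ⟨fcCj x⁻¹ V, le_inf h1 h2', fc_kf_cj x⁻¹ hV⟩
  have hstep : ∀ (A B : Subgroup G), fcRel G A B → ∀ x : G, A ≤ fcCj x (S : Subgroup G) →
      ∃ y : G, B ≤ fcCj y (S : Subgroup G) ∧ x⁻¹ * y ∈ H := by
    intro A B hAB x hAx
    have hE2 : IsPGroup 2 ↥(fcProd A B hAB.2.2) :=
      fc_prod_pgroup hAB.2.2 (fc_kf_sq hAB.1) (fc_kf_sq hAB.2.1)
    obtain ⟨g, hg⟩ := fc_sylow_conj S hE2
    have hle : fcProd A B hAB.2.2 ≤ fcCj g⁻¹ (S : Subgroup G) := by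
      have h := fc_cj_mono g⁻¹ hg
      rwa [fc_cj_inv_cj] at h
    exact ⟨g⁻¹, (fc_right_le_prod A B hAB.2.2).trans hle,
      hUq A x g⁻¹ hAB.1 hAx ((fc_left_le_prod A B hAB.2.2).trans hle)⟩
  have hchain : ∀ (U V : Subgroup G), Relation.ReflTransGen (fcRel G) U V →
      ∀ x : G, U ≤ fcCj x (S : Subgroup G) →
      ∃ y : G, V ≤ fcCj y (S : Subgroup G) ∧ x⁻¹ * y ∈ H := by
    intro U V hUV
    induction hUV with
    | refl =>
      intro x hx
      exact ⟨x, hx, by rw [inv_mul_cancel]; exact H.one_mem⟩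
    | @tail B C _ hBC ih =>
      intro x hx
      obtain ⟨y, hy, hxy⟩ := ih x hx
      obtain ⟨z, hz, hyz⟩ := hstep B C hBC y hy
      refine ⟨z, hz, ?_⟩
      have e : x⁻¹ * z = (x⁻¹ * y) * (y⁻¹ * z) := by group
      rw [e]; exact H.mul_mem hxy hyz
  rw [Subgroup.eq_top_iff']
  intro g
  have hcg : Relation.ReflTransGen (fcRel G) (fcCj g₀ U₁) (fcCj g (fcCj g₀ U₁)) :=
    hc (fcCj g₀ U₁) (fcCj g (fcCj g₀ U₁)) hU₀ (fc_kf_cj g hU₀)
  have h1 : fcCj g₀ U₁ ≤ fcCj 1 (S : Subgroup G) := by rw [fc_cj_one]; exact hg₀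
  obtain ⟨y, hy, hyH⟩ := hchain _ _ hcg 1 h1
  have hyH' : y ∈ H := by
    have e : (1 : G)⁻¹ * y = y := by group
    rwa [e] at hyH
  have h3 : g⁻¹ * y ∈ H :=
    hUq (fcCj g (fcCj g₀ U₁)) g y (fc_kf_cj g hU₀) (fc_cj_mono g hg₀) hy
  have e : g = y * (g⁻¹ * y)⁻¹ := by group
  rw [e]
  exact H.mul_mem hyH' (H.inv_mem h3)

theorem fc_main [Finite G] (h2 : ¬ Cfsg.PRankLE 2 1 G)
    (S : Sylow 2 G) (hS : Cfsg.IsFourConnected (S : Subgroup G)) :
    ¬ Cfsg.IsFourConnected G ↔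
      (⨆ Q : {Q : Subgroup G // Q ≤ (S : Subgroup G) ∧ ¬ Cfsg.PRankLE 2 1 Q},
          Subgroup.normalizer ((Q : Subgroup G) : Set G)) ≠ ⊤ := by
  constructor
  · intro h hT
    exact h (fc_conn_of_top S hS hT)
  · intro h hc
    exact h (fc_top_of_conn S h2 hc)

end Cfsg.Agent.Helper4
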