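import Mathlib
import Cfsg.Agent.Helper21.Frobenius
import Cfsg.Agent.Helper20.Real

set_option autoImplicit false

namespace Cfsg.Agent.Helper4

universe u

/-- The number of `x` with `x ^ n` conjugate to `c` is divisible by `gcd (h n, |G|)`,
`h` the class size of `c`. -/
theorem card_roots_class_dvd {G : Type u} [Group G] [Finite G] (c : G) (n : ℕ) :
    Nat.gcd (Nat.card {y : G // IsConj c y} * n) (Nat.card G) ∣
      Nat.card {x : G // IsConj c (x ^ n)} := by
  classical
  rcases Nat.eq_zero_or_pos n with hn | hn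
  · subst hn
    rw [Nat.mul_zero, Nat.gcd_zero_left]
    by_cases hc : c = 1
    · subst hc
      have h1 : Nat.card {x : G // IsConj (1 : G) (x ^ 0)} = Nat.card G := by
        apply Nat.card_congr
        exact Equiv.subtypeUnivEquiv (fun x => by rw [pow_zero])
      rw [h1]
    · have h1 : IsEmpty {x : G // IsConj c (x ^ 0)} := by
        constructor
        rintro ⟨x, hx⟩
        rw [pow_zero] at hx
        exact hc (isConj_one_right.mp hx.symm)
      have h2 : Nat.card {x : G // IsConj c (x ^ 0)} = 0 := Nat.card_of_isEmpty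
      rw [h2]
      exact dvd_zero _
  set C := Subgroup.centralizer ({c} : Set G) with hC
  have hcC : c ∈ C := by
    rw [hC, Subgroup.mem_centralizer_iff]
    intro h hh
    rw [Set.mem_singleton_iff] at hh
    rw [hh]
  have hcen : (⟨c, hcC⟩ : C) ∈ Subgroup.center C := by
    rw [Subgroup.mem_center_iff]
    intro w
    apply Subtype.ext
    have h1 := Subgroup.mem_centralizer_iff.mp w.2 c (Set.mem_singleton c)
    exact h1.symm
  have hfrob := Cfsg.Agent.Helper21.frobenius_gcd_dvd (G := C) n hn ⟨c, hcC⟩ hcen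
  -- transfer the count to `G`
  have hmemC : ∀ z : G, z ^ n = c → z ∈ C := by
    intro z hz
    rw [hC, Subgroup.mem_centralizer_iff]
    intro h hh
    rw [Set.mem_singleton_iff] at hh
    rw [hh, ← hz, ← pow_succ, ← pow_succ']
  have hN : Nat.card {z : C // z ^ n = ⟨c, hcC⟩} = Nat.card {z : G // z ^ n = c} := by
    apply Nat.card_congr
    exact
      { toFun := fun w => ⟨w.1.1, congrArg Subtype.val w.2⟩
        invFun := fun z => ⟨⟨z.1, hmemC z.1 z.2⟩, Subtype.ext z.2⟩
        left_inv := fun w => rfl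
        right_inv := fun z => rfl }
  rw [hN] at hfrob
  -- class size
  have hh : Nat.card {y : G // IsConj c y} * Nat.card C = Nat.card G := by
    rw [← Cfsg.Agent.Helper20.index_centralizer_eq_card_isConj]
    exact Subgroup.index_mul_card _
  -- count = h * N
  have hcount : Nat.card {x : G // IsConj c (x ^ n)} =
      Nat.card {y : G // IsConj c y} * Nat.card {z : G // z ^ n = c} := by
    rw [← Nat.card_prod]
    have hg : ∀ y : {y : G // IsConj c y}, ∃ g : G, g * c * g⁻¹ = y.1 :=
      fun y => isConj_iff.mp y.2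
    choose g hg using hg
    symm
    apply Nat.card_congr
    refine Equiv.ofBijective
      (fun q : {y : G // IsConj c y} × {z : G // z ^ n = c} =>
        (⟨g q.1 * q.2.1 * (g q.1)⁻¹, ?_⟩ : {x : G // IsConj c (x ^ n)})) ⟨?_, ?_⟩
    · rw [conj_pow, q.2.2, hg]
      exact q.1.2
    · rintro ⟨y, z⟩ ⟨y', z'⟩ h
      have h1 : g y * z.1 * (g y)⁻¹ = g y' * z'.1 * (g y')⁻¹ :=
        congrArg (fun w : {x : G // IsConj c (x ^ n)} => w.1) h
      have h2 : y.1 = y'.1 := by
        have e1 : (g y * z.1 * (g y)⁻¹) ^ n = y.1 := by rw [conj_pow, z.2, hg]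
        have e2 : (g y' * z'.1 * (g y')⁻¹) ^ n = y'.1 := by rw [conj_pow, z'.2, hg]
        rw [← e1, ← e2, h1]
      have h3 : y = y' := Subtype.ext h2
      subst h3
      have h4 : z.1 = z'.1 := by
        have := mul_left_cancel (mul_right_cancel h1)
        exact this
      rw [Subtype.ext h4]
    · rintro ⟨x, hx⟩
      refine ⟨(⟨x ^ n, hx⟩, ⟨(g ⟨x ^ n, hx⟩)⁻¹ * x * g ⟨x ^ n, hx⟩, ?_⟩), ?_⟩
      · have h1 : g ⟨x ^ n, hx⟩ * c * (g ⟨x ^ n, hx⟩)⁻¹ = x ^ n := hg ⟨x ^ n, hx⟩
        generalize g ⟨x ^ n, hx⟩ = gx at h1 ⊢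
        have h2 : (gx⁻¹ * x * gx) ^ n = gx⁻¹ * x ^ n * gx := by
          have := conj_pow (a := gx⁻¹) (b := x) (i := n)
          rwa [inv_inv] at this
        rw [h2, ← h1]
        group
      · apply Subtype.ext
        show g ⟨x ^ n, hx⟩ * ((g ⟨x ^ n, hx⟩)⁻¹ * x * g ⟨x ^ n, hx⟩) * (g ⟨x ^ n, hx⟩)⁻¹ = x
        group
  rw [hcount, ← hh, Nat.gcd_mul_left]
  exact Nat.mul_dvd_mul_left _ hfrob

end Cfsg.Agent.Helper4
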