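import Mathlib
import Cfsg.Agent.Helper1.SZ
import Cfsg.Agent.Helper21.Frobenius
import Cfsg.Agent.Helper4.PSolvSylow

set_option autoImplicit false

namespace Cfsg.Agent.Helper4

universe u

/-- In a finite solvable group, if `x ^ n = 1` has exactly `n` solutions (`n ∣ |G|`), the
solutions form a normal subgroup. -/
theorem solutions_normal_subgroup : ∀ (N₀ : ℕ) (G : Type u) [Group G] [Finite G]
    [Group.IsSolvable G], Nat.card G = N₀ → ∀ n : ℕ, n ∣ Nat.card G →
    Nat.card {x : G // x ^ n = 1} = n →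
    ∃ H : Subgroup G, H.Normal ∧ (H : Set G) = {x : G | x ^ n = 1} := by
  intro N₀
  induction N₀ using Nat.strong_induction_on with
  | _ N₀ ih =>
  intro G _ _ _ hcard n hn hcount
  classical
  by_cases htriv : Subsingleton G
  · refine ⟨⊥, inferInstance, ?_⟩
    ext x
    simp [Subsingleton.elim x 1]
  rw [not_subsingleton_iff_nontrivial] at htriv
  obtain ⟨p, hp, K, hKchar, hKne, hKcomm, hKexp⟩ := Cfsg.Agent.Helper1.exists_char_elemAbelian G
  haveI : Fact p.Prime := ⟨hp⟩
  haveI hKn : K.Normal := inferInstance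
  have hn0 : 0 < n := Nat.pos_of_dvd_of_pos hn Nat.card_pos
  have hKp : IsPGroup p K := by
    intro x
    refine ⟨1, ?_⟩
    rw [pow_one]
    exact Subtype.ext (hKexp x x.2)
  obtain ⟨i, hi⟩ := (IsPGroup.iff_card).mp hKp
  have hi0 : i ≠ 0 := by
    rintro rfl
    rw [pow_zero] at hi
    exact hKne ((Subgroup.card_eq_one).mp hi)
  have hpi : p ∣ p ^ i := dvd_pow_self p hi0
  set π := QuotientGroup.mk' K with hπ
  have hcardQ : Nat.card (G ⧸ K) * p ^ i = Nat.card G := by
    rw [← hi, ← Subgroup.index_eq_card]; exact Subgroup.index_mul_card K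
  have hlt : Nat.card (G ⧸ K) < N₀ := by
    rw [← hcard, ← hcardQ]
    have h1 : 1 < p ^ i := Nat.one_lt_pow hi0 hp.one_lt
    have h2 : 0 < Nat.card (G ⧸ K) := Nat.card_pos
    nlinarith
  have hpre : ∀ m : ℕ, Nat.card {x : G // (π x) ^ m = 1} =
      p ^ i * Nat.card {y : G ⧸ K // y ^ m = 1} := by
    intro m
    have h1 := QuotientGroup.card_preimage_mk K {y : G ⧸ K | y ^ m = 1}
    rw [hi] at h1
    exact h1
  have hposQ : ∀ m : ℕ, 0 < Nat.card {y : G ⧸ K // y ^ m = 1} := by
    intro m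
    haveI : Nonempty {y : G ⧸ K // y ^ m = 1} := ⟨⟨1, one_pow m⟩⟩
    exact Nat.card_pos
  -- general inequality: if the preimage of the `m`-solutions consists of `n`-solutions
  have hle : ∀ m : ℕ, (∀ x : G, (π x) ^ m = 1 → x ^ n = 1) →
      p ^ i * Nat.card {y : G ⧸ K // y ^ m = 1} ≤ n := by
    intro m hsub
    rw [← hpre m, ← hcount]
    exact Nat.card_le_card_of_injective
      (fun x : {x : G // (π x) ^ m = 1} => (⟨x.1, hsub x.1 x.2⟩ : {x : G // x ^ n = 1}))
      (by
        intro a b h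
        exact Subtype.ext (congrArg (fun z : {x : G // x ^ n = 1} => z.1) h))
  have hmemK : ∀ (x : G) (m : ℕ), (π x) ^ m = 1 → x ^ m ∈ K := by
    intro x m hx
    rw [← QuotientGroup.eq_one_iff]
    exact hx
  by_cases hpn : p ∣ n
  · by_cases hin : p ^ i ∣ n
    · obtain ⟨n', hn'⟩ := hin
      have hn'dvd : n' ∣ Nat.card (G ⧸ K) := by
        rw [hn', ← hcardQ, mul_comm] at hn
        exact Nat.dvd_of_mul_dvd_mul_right (pow_pos hp.pos i) hn
      have hfrob := Cfsg.Agent.Helper21.frobenius_dvd (G := G ⧸ K) n' hn'dvd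
      have hsub : ∀ x : G, (π x) ^ n' = 1 → x ^ n = 1 := by
        intro x hx
        have h2 := hKexp _ (hmemK x n' hx)
        obtain ⟨c, hc⟩ := hpi
        rw [hn', mul_comm, pow_mul, hc, pow_mul, h2, one_pow]
      have hle' := hle n' hsub
      have heq : Nat.card {y : G ⧸ K // y ^ n' = 1} = n' := by
        have h1 : n' ≤ Nat.card {y : G ⧸ K // y ^ n' = 1} := Nat.le_of_dvd (hposQ n') hfrob
        have h2 : Nat.card {y : G ⧸ K // y ^ n' = 1} ≤ n' := by
          rw [hn'] at hle'
          exact Nat.le_of_mul_le_mul_left hle' (pow_pos hp.pos i)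
        omega
      obtain ⟨Hb, hHbn, hHb⟩ := ih _ hlt (G ⧸ K) rfl n' hn'dvd heq
      refine ⟨Hb.comap π, hHbn.comap π, ?_⟩
      have hn1 : Set.ncard {x : G | x ^ n = 1} = n := by
        rw [← Nat.card_coe_set_eq]; exact hcount
      have hn2 : Set.ncard {x : G | (π x) ^ n' = 1} = p ^ i * n' := by
        rw [← Nat.card_coe_set_eq]
        have h3 := hpre n'
        rw [heq] at h3
        exact h3
      have hseteq : {x : G | (π x) ^ n' = 1} = {x : G | x ^ n = 1} :=
        Set.eq_of_subset_of_ncard_le (fun x hx => hsub x hx)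
          (hn1.trans (hn'.trans hn2.symm)).le (Set.toFinite _)
      rw [← hseteq]
      ext x
      have h1 : x ∈ Hb.comap π ↔ π x ∈ (Hb : Set (G ⧸ K)) := Iff.rfl
      rw [SetLike.mem_coe, h1, hHb]
      rfl
    · exfalso
      obtain ⟨s, m, hm, hnsm⟩ := Nat.exists_eq_pow_mul_and_not_dvd hn0.ne' p hp.ne_one
      have hs1 : s < i := by
        by_contra h
        push Not at h
        apply hin
        rw [hnsm]
        exact Dvd.dvd.mul_right (pow_dvd_pow p h) m
      have hs0 : s ≠ 0 := by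
        rintro rfl
        rw [pow_zero, one_mul] at hnsm
        exact hm (hnsm ▸ hpn)
      have hmcop : m.Coprime p := ((Nat.Prime.coprime_iff_not_dvd hp).mpr hm).symm
      have hmdvd : m ∣ Nat.card (G ⧸ K) := by
        have h1 : m ∣ Nat.card (G ⧸ K) * p ^ i := by
          rw [hcardQ]; exact (Dvd.intro_left _ hnsm.symm).trans hn
        exact Nat.Coprime.dvd_of_dvd_mul_right (hmcop.pow_right i) h1
      have hfrob := Cfsg.Agent.Helper21.frobenius_dvd (G := G ⧸ K) m hmdvd
      have hsub : ∀ x : G, (π x) ^ m = 1 → x ^ n = 1 := by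
        intro x hx
        have h2 := hKexp _ (hmemK x m hx)
        obtain ⟨c, hc⟩ := dvd_pow_self p hs0
        rw [hnsm, mul_comm, pow_mul, hc, pow_mul, h2, one_pow]
      have hle' := hle m hsub
      have h1 : m ≤ Nat.card {y : G ⧸ K // y ^ m = 1} := Nat.le_of_dvd (hposQ m) hfrob
      have h2 : p ^ i * m ≤ p ^ s * m := by
        rw [← hnsm]
        exact le_trans (Nat.mul_le_mul_left _ h1) hle'
      have hm0 : 0 < m := Nat.pos_of_ne_zero (by rintro rfl; simp at hm)
      have h3 : p ^ i ≤ p ^ s := Nat.le_of_mul_le_mul_right h2 hm0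
      have h4 : i ≤ s := (Nat.pow_le_pow_iff_right hp.one_lt).mp h3
      omega
  · have hcop : n.Coprime p := ((Nat.Prime.coprime_iff_not_dvd hp).mpr hpn).symm
    have hndvd : n ∣ Nat.card (G ⧸ K) := by
      have h1 : n ∣ Nat.card (G ⧸ K) * p ^ i := by rw [hcardQ]; exact hn
      exact Nat.Coprime.dvd_of_dvd_mul_right (hcop.pow_right i) h1
    have hfrob := Cfsg.Agent.Helper21.frobenius_dvd (G := G ⧸ K) n hndvd
    let φ : {x : G // x ^ n = 1} → {y : G ⧸ K // y ^ n = 1} :=
      fun x => ⟨π x.1, by rw [← map_pow, x.2, map_one]⟩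
    have hφsurj : Function.Surjective φ := by
      rintro ⟨y, hy⟩
      obtain ⟨x, rfl⟩ := QuotientGroup.mk'_surjective K y
      have hy' : (π x) ^ n = 1 := hy
      have hxnp : x ^ (n * p) = 1 := by
        rw [pow_mul]; exact hKexp _ (hmemK x n hy')
      have hb := Nat.gcd_eq_gcd_ab n p
      rw [Nat.Coprime.gcd_eq_one hcop] at hb
      set A := Nat.gcdA n p with hA
      set B := Nat.gcdB n p with hB
      have hb' : (p : ℤ) * B = 1 - (n : ℤ) * A := by
        push_cast at hb
        linarith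
      have h1 : (x ^ ((p : ℤ) * B)) ^ n = 1 := by
        calc (x ^ ((p : ℤ) * B)) ^ n = x ^ ((p : ℤ) * B * n) := by
              rw [← zpow_natCast, ← zpow_mul]
          _ = x ^ (((n * p : ℕ) : ℤ) * B) := by
              congr 1; push_cast; ring
          _ = (x ^ (n * p)) ^ B := by rw [zpow_mul, zpow_natCast]
          _ = 1 := by rw [hxnp, one_zpow]
      refine ⟨⟨x ^ ((p : ℤ) * B), h1⟩, ?_⟩
      apply Subtype.ext
      show π (x ^ ((p : ℤ) * B)) = π x
      rw [map_zpow, hb', zpow_sub, zpow_one, zpow_mul, zpow_natCast, hy', one_zpow, inv_one,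
        mul_one]
    have hge : Nat.card {y : G ⧸ K // y ^ n = 1} ≤ n := by
      have h1 := Nat.card_le_card_of_surjective φ hφsurj
      rwa [hcount] at h1
    have heq : Nat.card {y : G ⧸ K // y ^ n = 1} = n :=
      le_antisymm hge (Nat.le_of_dvd (hposQ n) hfrob)
    have hφinj : Function.Injective φ :=
      (Function.Surjective.bijective_of_nat_card_le hφsurj (by rw [hcount, heq])).1
    obtain ⟨Hb, hHbn, hHb⟩ := ih _ hlt (G ⧸ K) rfl n hndvd heq
    set H₁ := Hb.comap π with hH₁
    haveI hH₁n : H₁.Normal := hHbn.comap π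
    have hLH₁ : ∀ x : G, x ^ n = 1 → x ∈ H₁ := by
      intro x hx
      show π x ∈ Hb
      have h1 : π x ∈ (Hb : Set (G ⧸ K)) := by
        rw [hHb]
        show (π x) ^ n = 1
        rw [← map_pow, hx, map_one]
      exact h1
    have hcent : ∀ x : G, x ^ n = 1 → ∀ k ∈ K, k * x = x * k := by
      intro x hx k hk
      have h1 : (k * x * k⁻¹) ^ n = 1 := by rw [conj_pow, hx]; group
      have h2 : φ ⟨k * x * k⁻¹, h1⟩ = φ ⟨x, hx⟩ := by
        apply Subtype.ext
        show π (k * x * k⁻¹) = π x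
        have hk1 : π k = 1 := (QuotientGroup.eq_one_iff k).mpr hk
        rw [map_mul, map_mul, map_inv, hk1]; group
      have h3 : k * x * k⁻¹ = x :=
        congrArg (fun z : {x : G // x ^ n = 1} => z.1) (hφinj h2)
      calc k * x = (k * x * k⁻¹) * k := by group
        _ = x * k := by rw [h3]
    have hKH₁ : K ≤ H₁ := by
      intro k hk
      show π k ∈ Hb
      have hk1 : π k = 1 := (QuotientGroup.eq_one_iff k).mpr hk
      rw [hk1]
      exact one_mem _
    have hcardH₁ : Nat.card H₁ = p ^ i * n := by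
      have h1 := QuotientGroup.card_preimage_mk K (Hb : Set (G ⧸ K))
      rw [hi] at h1
      have h2 : Nat.card (Hb : Set (G ⧸ K)) = n := by rw [hHb]; exact heq
      rw [h2] at h1
      exact h1
    set C := H₁ ⊓ Subgroup.centralizer (K : Set G) with hC
    have hCeq : C = H₁ := by
      apply Subgroup.eq_of_le_of_card_ge inf_le_left
      rw [hcardH₁, ← hi, ← hcount, ← Nat.card_prod]
      refine Nat.card_le_card_of_injective
        (fun q : ↥K × {x : G // x ^ n = 1} => (⟨(q.1 : G) * q.2.1, ?_⟩ : ↥C)) ?_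
      · refine C.mul_mem (Subgroup.mem_inf.mpr ⟨hKH₁ q.1.2, ?_⟩)
          (Subgroup.mem_inf.mpr ⟨hLH₁ _ q.2.2, ?_⟩)
        · rw [Subgroup.mem_centralizer_iff]
          intro h hh
          exact hKcomm h hh _ q.1.2
        · rw [Subgroup.mem_centralizer_iff]
          intro h hh
          exact hcent _ q.2.2 h hh
      · rintro ⟨k, y⟩ ⟨k', y'⟩ h
        have h1 : (k : G) * y.1 = (k' : G) * y'.1 := congrArg (fun z : ↥C => (z : G)) h
        have h2 : φ y = φ y' := by
          apply Subtype.ext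
          show π y.1 = π y'.1
          have hk1 : π (k : G) = 1 := (QuotientGroup.eq_one_iff (k : G)).mpr k.2
          have hk2 : π (k' : G) = 1 := (QuotientGroup.eq_one_iff (k' : G)).mpr k'.2
          have e1 : π ((k : G) * y.1) = π y.1 := by
            rw [map_mul, hk1, one_mul]
          have e2 : π ((k' : G) * y'.1) = π y'.1 := by
            rw [map_mul, hk2, one_mul]
          rw [← e1, ← e2, h1]
        have h3 : y = y' := hφinj h2
        subst h3
        have h4 : (k : G) = k' := mul_right_cancel h1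
        rw [Subtype.ext h4]
    have hZc : ∀ z ∈ K, ∀ x ∈ H₁, z * x = x * z := by
      intro z hz x hx
      have hxC : x ∈ C := by rw [hCeq]; exact hx
      exact Subgroup.mem_centralizer_iff.mp (Subgroup.mem_inf.mp hxC).2 z hz
    have hidx : ¬ p ∣ K.relIndex H₁ := by
      have h1 := Subgroup.relIndex_mul_relIndex ⊥ K H₁ bot_le hKH₁
      rw [Subgroup.relIndex_bot_left, Subgroup.relIndex_bot_left, hi, hcardH₁] at h1
      have h2 : K.relIndex H₁ = n := Nat.eq_of_mul_eq_mul_left (pow_pos hp.pos i) h1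
      rw [h2]; exact hpn
    obtain ⟨Kc, hKcn, hKccop, hKcmem⟩ :=
      exists_normal_pprime_of_central_sylow p H₁ K hH₁n hKp hZc hidx
    haveI := hKcn
    refine ⟨Kc ⊓ H₁, inferInstance, ?_⟩
    have hsub : {x : G | x ^ n = 1} ⊆ ((Kc ⊓ H₁ : Subgroup G) : Set G) := by
      intro x hx
      have hx' : x ^ n = 1 := hx
      refine Subgroup.mem_inf.mpr ⟨hKcmem x (hLH₁ x hx') ?_, hLH₁ x hx'⟩
      exact Nat.Coprime.coprime_dvd_left (orderOf_dvd_of_pow_eq_one hx') hcop
    have hn1 : Set.ncard {x : G | x ^ n = 1} = n := by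
      rw [← Nat.card_coe_set_eq]; exact hcount
    have hn2 : Set.ncard ((Kc ⊓ H₁ : Subgroup G) : Set G) = Nat.card ↥(Kc ⊓ H₁) := by
      rw [← Nat.card_coe_set_eq]; rfl
    have h3 : Nat.card ↥(Kc ⊓ H₁) ∣ p ^ i * n := by
      rw [← hcardH₁]; exact Subgroup.card_dvd_of_le inf_le_right
    have h4 : (Nat.card ↥(Kc ⊓ H₁)).Coprime (p ^ i) :=
      (Nat.Coprime.coprime_dvd_left (Subgroup.card_dvd_of_le inf_le_left) hKccop).pow_right i
    have h5 : Nat.card ↥(Kc ⊓ H₁) ≤ n := Nat.le_of_dvd hn0 (Nat.Coprime.dvd_of_dvd_mul_left h4 h3)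
    exact (Set.eq_of_subset_of_ncard_le hsub (by rw [hn1, hn2]; exact h5) (Set.toFinite _)).symm

end Cfsg.Agent.Helper4
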