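import Mathlib
import Cfsg.Agent.Helper1.FrobConj
import Cfsg.Agent.Helper4.CardMul

set_option autoImplicit false

namespace Cfsg.Agent.Helper4

open scoped Pointwise

/-- A subgroup whose order divides the order of a Frobenius complement lies in a conjugate
of it. -/
theorem frob_sub_conj {G : Type*} [Group G] [Finite G] (H : Subgroup G)
    (hH : Cfsg.IsFrobeniusComplement H) (L : Subgroup G) (hL : Nat.card L ∣ Nat.card H) :
    ∃ x : G, L ≤ MulAut.conj x • H := by
  classical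
  obtain ⟨N, hNK, hNn, hc, hNne, hfpf, -⟩ := Cfsg.Agent.Helper1.frob_data H hH
  haveI := hNn
  obtain ⟨-, -, hTI⟩ := id hH
  by_cases hL1 : L = ⊥
  · exact ⟨1, by rw [hL1]; exact bot_le⟩
  have hcop : (Nat.card L).Coprime (Nat.card N) :=
    Nat.Coprime.coprime_dvd_left hL (Cfsg.Agent.Helper1.fpf_coprime_sub N H hfpf H le_rfl)
  have hdisj : ∀ l ∈ L, l ∈ N → l = 1 := by
    intro l hl hn
    have h1 : orderOf l ∣ Nat.card L := by
      have := orderOf_dvd_natCard (⟨l, hl⟩ : L)
      rwa [Subgroup.orderOf_mk] at this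
    have h2 : orderOf l ∣ Nat.card N := by
      have := orderOf_dvd_natCard (⟨l, hn⟩ : N)
      rwa [Subgroup.orderOf_mk] at this
    have h3 : orderOf l = 1 := Nat.Coprime.eq_one_of_dvd (Nat.Coprime.coprime_dvd_left h1 hcop) h2
    exact orderOf_eq_one_iff.mp h3
  have hconj : ∀ l ∈ L, l ≠ 1 → ∃ g : G, l ∈ MulAut.conj g • H := by
    intro l hl hl1
    by_contra hne
    push_neg at hne
    have h0 : l ∈ Cfsg.frobeniusKernel H := Or.inr hne
    rw [← hNK] at h0
    exact hl1 (hdisj l hl h0)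
  have hfpfL : ∀ l ∈ L, l ≠ 1 → N ⊓ Subgroup.centralizer {l} = ⊥ := by
    intro l hl hl1
    obtain ⟨g, hg⟩ := hconj l hl hl1
    rw [Cfsg.Agent.Helper1.mem_conj_smul] at hg
    have hne : g⁻¹ * l * g ≠ 1 := by
      intro h
      apply hl1
      have e : l = g * (g⁻¹ * l * g) * g⁻¹ := by group
      rw [e, h]; group
    have h0 := hfpf _ hg hne
    rw [eq_bot_iff]
    intro n hn
    obtain ⟨hn1, hn2⟩ := Subgroup.mem_inf.mp hn
    have h1 : g⁻¹ * n * g ∈ N ⊓ Subgroup.centralizer {g⁻¹ * l * g} := by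
      refine Subgroup.mem_inf.mpr ⟨?_, ?_⟩
      · have h2 := hNn.conj_mem n hn1 g⁻¹
        simpa using h2
      · rw [Subgroup.mem_centralizer_iff]
        intro x hx
        rw [Set.mem_singleton_iff.mp hx]
        have hc2 := (Subgroup.mem_centralizer_iff.mp hn2) l (Set.mem_singleton l)
        calc g⁻¹ * l * g * (g⁻¹ * n * g) = g⁻¹ * (l * n) * g := by group
          _ = g⁻¹ * (n * l) * g := by rw [hc2]
          _ = g⁻¹ * n * g * (g⁻¹ * l * g) := by group
    rw [h0, Subgroup.mem_bot] at h1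
    rw [Subgroup.mem_bot]
    have e : n = g * (g⁻¹ * n * g) * g⁻¹ := by group
    rw [e, h1]; group
  have hZ : ∃ z ∈ L, z ≠ 1 ∧ ∀ x ∈ L, x * z = z * x := by
    obtain ⟨M, hM⟩ : ∃ M : Subgroup G, M = N ⊔ L := ⟨_, rfl⟩
    have hNM : N ≤ M := hM ▸ le_sup_left
    have hLM : L ≤ M := hM ▸ le_sup_right
    have hK'ne : N.subgroupOf M ≠ ⊥ := by
      intro h
      rw [Subgroup.subgroupOf_eq_bot] at h
      exact hNne (disjoint_self.mp (h.mono_right hNM))
    have hH'ne : L.subgroupOf M ≠ ⊥ := by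
      intro h
      rw [Subgroup.subgroupOf_eq_bot] at h
      exact hL1 (disjoint_self.mp (h.mono_right hLM))
    have h1 : Nat.card (N.subgroupOf M) = Nat.card N :=
      Nat.card_congr (Subgroup.subgroupOfEquivOfLe hNM).toEquiv
    have h2 : Nat.card (L.subgroupOf M) = Nat.card L :=
      Nat.card_congr (Subgroup.subgroupOfEquivOfLe hLM).toEquiv
    have hcardM : Nat.card (N.subgroupOf M) * Nat.card (L.subgroupOf M) = Nat.card M := by
      have h3 := Cfsg.Agent.Helper4.card_sup_mul_card_inf L N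
        (by rw [Subgroup.normalizer_eq_top]; exact le_top)
      have h4 : L ⊓ N = ⊥ := by
        rw [eq_bot_iff]; intro x hx; rw [Subgroup.mem_bot]
        exact hdisj x (Subgroup.mem_inf.mp hx).1 (Subgroup.mem_inf.mp hx).2
      rw [h4, Subgroup.card_bot, mul_one, sup_comm, ← hM] at h3
      rw [h1, h2, h3, mul_comm]
    have hc' : Subgroup.IsComplement' (N.subgroupOf M) (L.subgroupOf M) :=
      Subgroup.isComplement'_of_coprime hcardM (by rw [h1, h2]; exact hcop.symm)
    have hfpf' : ∀ h ∈ L.subgroupOf M, h ≠ 1 →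
        N.subgroupOf M ⊓ Subgroup.centralizer {h} = ⊥ := by
      intro h hh hh1
      have hhL : (h : G) ∈ L := Subgroup.mem_subgroupOf.mp hh
      have hh1' : (h : G) ≠ 1 := fun e => hh1 (Subtype.ext e)
      have h0 := hfpfL (h : G) hhL hh1'
      rw [eq_bot_iff]
      intro n hn
      obtain ⟨hn1, hn2⟩ := Subgroup.mem_inf.mp hn
      have h5 : (n : G) ∈ N ⊓ Subgroup.centralizer {(h : G)} := by
        refine Subgroup.mem_inf.mpr ⟨Subgroup.mem_subgroupOf.mp hn1, ?_⟩
        rw [Subgroup.mem_centralizer_iff]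
        intro x hx
        rw [Set.mem_singleton_iff.mp hx]
        have hc2 := (Subgroup.mem_centralizer_iff.mp hn2) h (Set.mem_singleton h)
        exact congrArg Subtype.val hc2
      rw [h0, Subgroup.mem_bot] at h5
      rw [Subgroup.mem_bot]
      exact Subtype.ext h5
    have hZ' := Cfsg.Agent.Helper1.fpf_center_ne_bot (N.subgroupOf M) (L.subgroupOf M) hc'
      hK'ne hH'ne hfpf'
    obtain ⟨⟨z, hzc⟩, hz1⟩ := (Subgroup.ne_bot_iff_exists_ne_one).mp hZ'
    refine ⟨((z : M) : G), Subgroup.mem_subgroupOf.mp z.2, ?_, ?_⟩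
    · intro h
      exact hz1 (Subtype.ext (Subtype.ext (Subtype.ext h)))
    · intro x hx
      have h6 := Subgroup.mem_center_iff.mp hzc ⟨⟨x, hLM hx⟩, Subgroup.mem_subgroupOf.mpr hx⟩
      exact congrArg (fun t : L.subgroupOf M => ((t : M) : G)) h6
  obtain ⟨z, hzL, hz1, hzc⟩ := hZ
  obtain ⟨g, hg⟩ := hconj z hzL hz1
  refine ⟨g, ?_⟩
  intro x hx
  by_contra hxn
  have hTI' := Cfsg.Agent.Helper1.frob_conj_TI H hTI g x hxn
  have hzx : z ∈ MulAut.conj x • (MulAut.conj g • H) := by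
    rw [Cfsg.Agent.Helper1.mem_conj_smul]
    have e : x⁻¹ * z * x = z := by
      calc x⁻¹ * z * x = x⁻¹ * (z * x) := by group
        _ = x⁻¹ * (x * z) := by rw [hzc x hx]
        _ = z := by group
    rw [e]; exact hg
  have h1 : z ∈ (MulAut.conj g • H) ⊓ MulAut.conj x • (MulAut.conj g • H) :=
    Subgroup.mem_inf.mpr ⟨hg, hzx⟩
  rw [hTI', Subgroup.mem_bot] at h1
  exact hz1 h1

end Cfsg.Agent.Helper4
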