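import Mathlib
import Cfsg.Prelude.Def_Local
import Cfsg.Agent.Helper4.HallHigman

set_option autoImplicit false

namespace Cfsg.Agent.Helper4

universe u

/-- Hall–Higman 1.2.5: in a `p`-solvable group, `G / O_{p',p}(G)` acts faithfully on the Frattini
quotient of `O_{p',p}(G) / O_{p'}(G)`. -/
theorem hh_faithful_frattini {G : Type u} [Group G] [Finite G] {p : ℕ} [Fact p.Prime]
    (hG : Cfsg.IsPSolvable p G) (g : G) :
    (∀ x ∈ Cfsg.pPrimePCore p G, g * x * g⁻¹ * x⁻¹ ∈
      ((frattini (↥(Cfsg.pPrimePCore p G) ⧸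
        (Cfsg.pPrimeCore p G).subgroupOf (Cfsg.pPrimePCore p G))).comap
        (QuotientGroup.mk' ((Cfsg.pPrimeCore p G).subgroupOf (Cfsg.pPrimePCore p G)))).map
        (Cfsg.pPrimePCore p G).subtype) ↔ g ∈ Cfsg.pPrimePCore p G := by
  classical
  have hpp : p.Prime := Fact.out
  set N := Cfsg.pPrimeCore p G with hN
  haveI hNn : N.Normal := inferInstance
  set π := QuotientGroup.mk' N with hπ
  have hπs : Function.Surjective π := QuotientGroup.mk'_surjective N
  set U := Cfsg.pCore p (G ⧸ N) with hU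
  haveI hUn : U.Normal := Cfsg.pCore_normal p (G ⧸ N)
  have hUp : IsPGroup p U := Cfsg.Agent.Helper9.pCore_isPGroup p
  have hWdef : Cfsg.pPrimePCore p G = U.comap π := rfl
  rw [hWdef]
  set W := U.comap π with hW
  have hmemW : ∀ x : G, x ∈ W ↔ π x ∈ U := fun x => Iff.rfl
  haveI hWn : W.Normal := hUn.comap π
  set N' := N.subgroupOf W with hN'
  haveI hN'n : N'.Normal := inferInstance
  set ρ := QuotientGroup.mk' N' with hρ
  let φ : ↥W →* ↥U := π.subgroupComap U
  have hφ : ∀ w : ↥W, (φ w : G ⧸ N) = π (w : G) := fun w => rfl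
  have hφs : Function.Surjective φ := π.subgroupComap_surjective_of_surjective U hπs
  have hker : N' ≤ φ.ker := by
    intro w hw
    rw [MonoidHom.mem_ker]
    apply Subtype.ext
    rw [hφ]
    exact (QuotientGroup.eq_one_iff (w : G)).mpr (Subgroup.mem_subgroupOf.mp hw)
  let ψ : (↥W ⧸ N') →* ↥U := QuotientGroup.lift N' φ hker
  have hψ : ∀ w : ↥W, ψ (ρ w) = φ w := fun w => rfl
  have hψs : Function.Surjective ψ := by
    intro u
    obtain ⟨w, rfl⟩ := hφs u
    exact ⟨ρ w, hψ w⟩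
  have hfr : frattini (↥W ⧸ N') ≤ (frattini ↥U).comap ψ :=
    frattini_le_comap_frattini_of_surjective hψs
  have hYp : IsPGroup p (↥W ⧸ N') := by
    intro y
    obtain ⟨w, rfl⟩ := QuotientGroup.mk'_surjective N' y
    obtain ⟨k, hk⟩ := hUp (φ w)
    refine ⟨k, ?_⟩
    rw [← map_pow]
    apply (QuotientGroup.eq_one_iff _).mpr
    rw [Subgroup.mem_subgroupOf]
    rw [← QuotientGroup.eq_one_iff]
    have h1 : ((φ w ^ p ^ k : ↥U) : G ⧸ N) = 1 := by rw [hk]; rfl
    rw [Subgroup.coe_pow, hφ, ← map_pow] at h1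
    exact h1
  set Φ' := (frattini ↥U).map U.subtype with hΦ'
  have hΦn : Φ'.Normal := inferInstance
  constructor
  · intro h
    let D : Subgroup (G ⧸ N) :=
      { carrier := {k | ∀ q ∈ U, k * q * k⁻¹ * q⁻¹ ∈ Φ'}
        one_mem' := by
          intro q _
          have e : (1 : G ⧸ N) * q * 1⁻¹ * q⁻¹ = 1 := by group
          rw [e]
          exact one_mem _
        mul_mem' := by
          intro a b ha hb q hq
          have e : a * b * q * (a * b)⁻¹ * q⁻¹ =
              a * (b * q * b⁻¹ * q⁻¹) * a⁻¹ * (a * q * a⁻¹ * q⁻¹) := by group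
          rw [e]
          exact Φ'.mul_mem (hΦn.conj_mem _ (hb q hq) a) (ha q hq)
        inv_mem' := by
          intro a ha q hq
          have hq' : a⁻¹ * q * a ∈ U := by
            have h0 := hUn.conj_mem q hq a⁻¹
            rwa [inv_inv] at h0
          have h1 := ha _ hq'
          have e : a⁻¹ * q * a⁻¹⁻¹ * q⁻¹ =
              (a * (a⁻¹ * q * a) * a⁻¹ * (a⁻¹ * q * a)⁻¹)⁻¹ := by group
          rw [e]
          exact Φ'.inv_mem h1 }
    have hDn : D.Normal := by
      constructor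
      intro k hk t q hq
      have hq' : t⁻¹ * q * t ∈ U := by
        have h0 := hUn.conj_mem q hq t⁻¹
        rwa [inv_inv] at h0
      have h1 := hk _ hq'
      have e : t * k * t⁻¹ * q * (t * k * t⁻¹)⁻¹ * q⁻¹ =
          t * (k * (t⁻¹ * q * t) * k⁻¹ * (t⁻¹ * q * t)⁻¹) * t⁻¹ := by group
      rw [e]
      exact hΦn.conj_mem _ h1 t
    have hHH : Subgroup.centralizer (U : Set (G ⧸ N)) ≤ U :=
      centralizer_pCore_le_of_psolvable p (Cfsg.Agent.Helper20.isPSolvable_quotient p hG N)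
        (Cfsg.Agent.Helper9.pPrimeCore_quotient_eq_bot p)
    have hDp : IsPGroup p D := by
      apply Cfsg.Agent.Helper11.isPGroup_of_frattini_action U hUn hUp hHH D
      intro k hk q hq
      have h1 : k * q * k⁻¹ * q⁻¹ ∈ Φ' := hk q hq
      have e : q⁻¹ * k * q * k⁻¹ = q⁻¹ * (k * q * k⁻¹ * q⁻¹) * q⁻¹⁻¹ := by group
      rw [e]
      exact hΦn.conj_mem _ h1 q⁻¹
    have hDU : D ≤ U := Cfsg.Agent.Helper9.le_pCore hDn hDp
    apply (hmemW g).mpr
    apply hDU
    intro q hq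
    obtain ⟨x, rfl⟩ := hπs q
    have hxW : x ∈ W := (hmemW x).mpr hq
    obtain ⟨w, hw, hwx⟩ := Subgroup.mem_map.mp (h x hxW)
    have h1 : φ w ∈ frattini ↥U := hfr (Subgroup.mem_comap.mp hw)
    refine Subgroup.mem_map.mpr ⟨φ w, h1, ?_⟩
    show (φ w : G ⧸ N) = _
    rw [hφ]
    have h2 : (w : G) = g * x * g⁻¹ * x⁻¹ := hwx
    rw [h2, map_mul, map_mul, map_mul, map_inv, map_inv]
  · intro hg x hx
    refine Subgroup.mem_map.mpr
      ⟨(⟨g, hg⟩ : ↥W) * ⟨x, hx⟩ * (⟨g, hg⟩ : ↥W)⁻¹ * (⟨x, hx⟩ : ↥W)⁻¹, ?_, rfl⟩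
    rw [Subgroup.mem_comap]
    apply Cfsg.Agent.Lead.commutator_le_frattini hYp
    rw [map_mul, map_mul, map_mul, map_inv, map_inv, ← commutatorElement_def, commutator_def]
    exact Subgroup.commutator_mem_commutator (Subgroup.mem_top _) (Subgroup.mem_top _)

end Cfsg.Agent.Helper4
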