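import Mathlib

/-!
# 3/2-transitive groups with a regular normal subgroup (non-Frobenius case)

Elementary counting proof: the regular normal subgroup is elementary abelian and is the
unique minimal normal subgroup.
-/

set_option autoImplicit false

namespace Cfsg.Agent.Helper4

universe u v

/-- Counting: if all point stabilizers have the same order `c`, then `|S|` divides `c * |X|`. -/
theorem ht_cnt_gen {S : Type u} {X : Type v} [Group S] [MulAction S X] [Finite S] [Finite X]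
    (c : ℕ) (hc : ∀ x : X, Nat.card (MulAction.stabilizer S x) = c) :
    Nat.card S ∣ c * Nat.card X := by
  classical
  haveI : Fintype (Quotient (MulAction.orbitRel S X)) := Fintype.ofFinite _
  have h1 : Nat.card X = _ :=
    (Nat.card_congr (MulAction.selfEquivSigmaOrbitsQuotientStabilizer S X)).trans Nat.card_sigma
  rw [h1, Finset.mul_sum]
  apply Finset.dvd_sum
  intro ω _
  have h2 := Subgroup.index_mul_card (MulAction.stabilizer S ω.out)
  rw [hc] at h2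
  have h3 : Nat.card (S ⧸ MulAction.stabilizer S ω.out) * c = Nat.card S := h2
  exact dvd_of_eq (h3.symm.trans (mul_comm _ _))

variable {G : Type u} [Group G]

/-- Conjugation action of a subgroup on an invariant subset. -/
def htConj (S : Subgroup G) (X : Set G) (hX : ∀ s ∈ S, ∀ y ∈ X, s * y * s⁻¹ ∈ X) :
    MulAction ↥S ↥X where
  smul s y := ⟨(s : G) * (y : G) * (s : G)⁻¹, hX s s.2 y y.2⟩
  one_smul y := by
    apply Subtype.ext
    show ((1 : ↥S) : G) * (y : G) * ((1 : ↥S) : G)⁻¹ = (y : G)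
    simp
  mul_smul s t y := by
    apply Subtype.ext
    show ((s * t : ↥S) : G) * (y : G) * ((s * t : ↥S) : G)⁻¹
      = (s : G) * ((t : G) * (y : G) * (t : G)⁻¹) * (s : G)⁻¹
    simp only [Subgroup.coe_mul]
    group

/-- Elements of `H` commuting with `x`. -/
def htD (H : Subgroup G) (x : G) : Subgroup G where
  carrier := {h | h ∈ H ∧ h * x = x * h}
  one_mem' := ⟨H.one_mem, by simp⟩
  mul_mem' := by
    rintro a b ⟨ha, ha'⟩ ⟨hb, hb'⟩
    exact ⟨H.mul_mem ha hb, by rw [mul_assoc, hb', ← mul_assoc, ha', mul_assoc]⟩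
  inv_mem' := by
    rintro a ⟨ha, ha'⟩
    refine ⟨H.inv_mem ha, ?_⟩
    rw [eq_mul_inv_iff_mul_eq, mul_assoc, ← ha', inv_mul_cancel_left]

theorem ht_mem_D {H : Subgroup G} {x h : G} : h ∈ htD H x ↔ h ∈ H ∧ h * x = x * h := Iff.rfl

/-- Elements of `H` stabilizing the set `X` under conjugation. -/
def htStab (H : Subgroup G) (X : Set G) : Subgroup G where
  carrier := {h | h ∈ H ∧ ∀ u, u ∈ X ↔ h * u * h⁻¹ ∈ X}
  one_mem' := ⟨H.one_mem, fun u => by simp⟩
  mul_mem' := by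
    rintro a b ⟨ha, ha'⟩ ⟨hb, hb'⟩
    refine ⟨H.mul_mem ha hb, fun u => ?_⟩
    rw [hb' u, ha' (b * u * b⁻¹)]
    have e : a * (b * u * b⁻¹) * a⁻¹ = a * b * u * (a * b)⁻¹ := by group
    rw [e]
  inv_mem' := by
    rintro a ⟨ha, ha'⟩
    refine ⟨H.inv_mem ha, fun u => ?_⟩
    rw [ha' (a⁻¹ * u * a⁻¹⁻¹)]
    have e : a * (a⁻¹ * u * a⁻¹⁻¹) * a⁻¹ = u := by group
    rw [e]

theorem ht_mem_stab {H : Subgroup G} {X : Set G} {h : G} :
    h ∈ htStab H X ↔ h ∈ H ∧ ∀ u, u ∈ X ↔ h * u * h⁻¹ ∈ X := Iff.rfl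

theorem ht_le_stab (H D : Subgroup G) (X : Set G) (hDH : D ≤ H)
    (h : ∀ d ∈ D, ∀ u ∈ X, d * u * d⁻¹ ∈ X) : D ≤ htStab H X := by
  intro d hd
  refine ht_mem_stab.mpr ⟨hDH hd, fun u => ⟨h d hd u, fun hu => ?_⟩⟩
  have h1 := h d⁻¹ (D.inv_mem hd) _ hu
  have e : d⁻¹ * (d * u * d⁻¹) * d⁻¹⁻¹ = u := by group
  rwa [e] at h1

/-- Counting for a conjugation action on a subset. -/
theorem ht_cnt [Finite G] (S : Subgroup G) (X : Set G)
    (hX : ∀ s ∈ S, ∀ y ∈ X, s * y * s⁻¹ ∈ X) (c : ℕ)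
    (hc : ∀ y ∈ X, Nat.card ↥(htD S y) = c) :
    Nat.card ↥S ∣ c * Nat.card ↥X := by
  letI := htConj S X hX
  apply ht_cnt_gen (S := ↥S) (X := ↥X) c
  intro y
  refine (Nat.card_congr ?_).trans (hc y.1 y.2)
  refine
    { toFun := fun s => ⟨(s.1 : G), ht_mem_D.mpr ⟨s.1.2, ?_⟩⟩
      invFun := fun t => ⟨⟨t.1, (ht_mem_D.mp t.2).1⟩, ?_⟩
      left_inv := fun s => rfl
      right_inv := fun t => rfl }
  · have hs : s.1 • y = y := s.2
    have hs' : (s.1 : G) * y.1 * (s.1 : G)⁻¹ = y.1 := congrArg Subtype.val hs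
    exact mul_inv_eq_iff_eq_mul.mp hs'
  · show (⟨t.1, (ht_mem_D.mp t.2).1⟩ : ↥S) • y = y
    apply Subtype.ext
    show t.1 * y.1 * t.1⁻¹ = y.1
    have ht : t.1 * y.1 = y.1 * t.1 := (ht_mem_D.mp t.2).2
    rw [ht, mul_inv_cancel_right]

/-- Hypotheses of the core lemma. -/
structure HtHyp (N H : Subgroup G) (c k : ℕ) : Prop where
  hc1 : 1 < c
  hD : ∀ x ∈ N, x ≠ 1 → Nat.card ↥(htD H x) = c
  hHk : Nat.card ↥H = c * k
  hfaith : ∀ h ∈ H, (∀ n ∈ N, h * n = n * h) → h = 1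

theorem ht_D_eq [Finite G] (N H : Subgroup G) (c k : ℕ) (hh : HtHyp N H c k) {x y : G}
    (hx : x ∈ N) (hx1 : x ≠ 1) (hy : y ∈ N) (hy1 : y ≠ 1)
    (hxy : ∀ d ∈ htD H x, d * y = y * d) : htD H x = htD H y := by
  have hle : htD H x ≤ htD H y := fun d hd => ht_mem_D.mpr ⟨(ht_mem_D.mp hd).1, hxy d hd⟩
  exact Subgroup.eq_of_le_of_card_ge hle
    (le_of_eq ((hh.hD y hy hy1).trans (hh.hD x hx hx1).symm))

theorem ht_coprime [Finite G] (N H : Subgroup G) [hNn : N.Normal] (c k : ℕ)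
    (hh : HtHyp N H c k) (m : ℕ) (hmk : m ∣ k) (hmN : m ∣ Nat.card ↥N) : m = 1 := by
  have hX : ∀ s ∈ H, ∀ y ∈ ((N : Set G) \ {1}), s * y * s⁻¹ ∈ ((N : Set G) \ {1}) := by
    intro s _ y hy
    refine ⟨hNn.conj_mem y hy.1 s, ?_⟩
    intro h1
    have h1' : s * y * s⁻¹ = 1 := h1
    apply hy.2
    show y = 1
    calc y = s⁻¹ * (s * y * s⁻¹) * s := by group
      _ = 1 := by rw [h1']; group
  have h1 := ht_cnt H ((N : Set G) \ {1}) hX c (fun y hy => hh.hD y hy.1 hy.2)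
  have h2 : Nat.card ↥((N : Set G) \ {1}) = Nat.card ↥N - 1 :=
    Set.ncard_sdiff_singleton_of_mem (s := (N : Set G)) N.one_mem
  have hc0 : 0 < c := by have := hh.hc1; omega
  have hpos : 0 < Nat.card ↥N := Nat.card_pos
  have h3 : k ∣ Nat.card ↥N - 1 := by
    rw [← h2]
    rw [hh.hHk] at h1
    exact Nat.dvd_of_mul_dvd_mul_left hc0 h1
  have h4 : m ∣ Nat.card ↥N - (Nat.card ↥N - 1) := Nat.dvd_sub hmN (hmk.trans h3)
  have h5 : Nat.card ↥N - (Nat.card ↥N - 1) = 1 := by omega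
  rw [h5] at h4
  exact Nat.dvd_one.mp h4

/-- Lemma U: a set `X ⊆ N \ {1}` of size dividing `|N|`, stabilized by every `D x'`, `x' ∈ X`,
has all `D x'` equal to its stabilizer. -/
theorem ht_U [Finite G] (N H : Subgroup G) [hNn : N.Normal] (c k : ℕ) (hh : HtHyp N H c k)
    (X : Set G) (hXN : ∀ x ∈ X, x ∈ N ∧ x ≠ 1) (hcard : Nat.card ↥X ∣ Nat.card ↥N)
    (hst : ∀ x ∈ X, htD H x ≤ htStab H X) :
    ∀ x ∈ X, htD H x = htStab H X := by
  intro x hx
  obtain ⟨S, hS⟩ : ∃ S, S = htStab H X := ⟨_, rfl⟩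
  rw [← hS] at hst ⊢
  have hSH : S ≤ H := by
    rw [hS]
    exact fun s hs => (ht_mem_stab.mp hs).1
  have hact : ∀ s ∈ S, ∀ y ∈ X, s * y * s⁻¹ ∈ X := by
    intro s hs y hy
    rw [hS] at hs
    exact ((ht_mem_stab.mp hs).2 y).mp hy
  have hDS : ∀ y ∈ X, htD S y = htD H y := by
    intro y hy
    apply le_antisymm
    · intro d hd
      exact ht_mem_D.mpr ⟨hSH (ht_mem_D.mp hd).1, (ht_mem_D.mp hd).2⟩
    · intro d hd
      exact ht_mem_D.mpr ⟨hst y hy hd, (ht_mem_D.mp hd).2⟩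
  have h1 := ht_cnt S X hact c
    (fun y hy => by rw [hDS y hy]; exact hh.hD y (hXN y hy).1 (hXN y hy).2)
  have h2 : c ∣ Nat.card ↥S := by
    have h := Subgroup.card_dvd_of_le (hst x hx)
    rwa [hh.hD x (hXN x hx).1 (hXN x hx).2] at h
  have h3 : Nat.card ↥S ∣ c * k := by
    rw [← hh.hHk]; exact Subgroup.card_dvd_of_le hSH
  obtain ⟨m, hm⟩ := h2
  have hc0 : 0 < c := by have := hh.hc1; omega
  have hmk : m ∣ k := by
    rw [hm] at h3; exact Nat.dvd_of_mul_dvd_mul_left hc0 h3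
  have hmN : m ∣ Nat.card ↥N := by
    rw [hm] at h1; exact (Nat.dvd_of_mul_dvd_mul_left hc0 h1).trans hcard
  have hm1 := ht_coprime N H c k hh m hmk hmN
  rw [hm1, mul_one] at hm
  exact Subgroup.eq_of_le_of_card_ge (hst x hx)
    (le_of_eq (hm.trans (hh.hD x (hXN x hx).1 (hXN x hx).2).symm))

/-- The `N`-conjugacy class of `x`. -/
def htCls (N : Subgroup G) (x : G) : Set G := {u | ∃ n ∈ N, u = n * x * n⁻¹}

theorem ht_mem_cls {N : Subgroup G} {x u : G} :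
    u ∈ htCls N x ↔ ∃ n ∈ N, u = n * x * n⁻¹ := Iff.rfl

theorem ht_cls_eq (N : Subgroup G) {x x' : G} (hx' : x' ∈ htCls N x) :
    htCls N x' = htCls N x := by
  obtain ⟨n, hn, rfl⟩ := ht_mem_cls.mp hx'
  ext u
  constructor
  · intro hu
    obtain ⟨m, hm, rfl⟩ := ht_mem_cls.mp hu
    exact ht_mem_cls.mpr ⟨m * n, N.mul_mem hm hn, by group⟩
  · intro hu
    obtain ⟨m, hm, rfl⟩ := ht_mem_cls.mp hu
    exact ht_mem_cls.mpr ⟨m * n⁻¹, N.mul_mem hm (N.inv_mem hn), by group⟩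

/-- (P6) `D` is constant on `N`-classes. -/
theorem ht_P6 [Finite G] (N H : Subgroup G) [hNn : N.Normal] (c k : ℕ) (hh : HtHyp N H c k)
    {x : G} (hx : x ∈ N) (hx1 : x ≠ 1) (n : G) (hn : n ∈ N) :
    htD H (n * x * n⁻¹) = htD H x := by
  have hXN : ∀ u ∈ htCls N x, u ∈ N ∧ u ≠ 1 := by
    intro u hu
    obtain ⟨m, hm, rfl⟩ := ht_mem_cls.mp hu
    refine ⟨N.mul_mem (N.mul_mem hm hx) (N.inv_mem hm), fun h => hx1 ?_⟩
    calc x = m⁻¹ * (m * x * m⁻¹) * m := by group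
      _ = 1 := by rw [h]; group
  have hact : ∀ s ∈ N, ∀ y ∈ htCls N x, s * y * s⁻¹ ∈ htCls N x := by
    intro s hs y hy
    obtain ⟨m, hm, rfl⟩ := ht_mem_cls.mp hy
    exact ht_mem_cls.mpr ⟨s * m, N.mul_mem hs hm, by group⟩
  have hxX : x ∈ htCls N x := ht_mem_cls.mpr ⟨1, N.one_mem, by group⟩
  have hcard : Nat.card ↥(htCls N x) ∣ Nat.card ↥N := by
    letI := htConj N (htCls N x) hact
    haveI : MulAction.IsPretransitive ↥N ↥(htCls N x) := by
      refine ⟨fun u v => ?_⟩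
      obtain ⟨u, hu⟩ := u
      obtain ⟨v, hv⟩ := v
      obtain ⟨m₁, hm₁, rfl⟩ := ht_mem_cls.mp hu
      obtain ⟨m₂, hm₂, rfl⟩ := ht_mem_cls.mp hv
      refine ⟨⟨m₂ * m₁⁻¹, N.mul_mem hm₂ (N.inv_mem hm₁)⟩, Subtype.ext ?_⟩
      show (m₂ * m₁⁻¹) * (m₁ * x * m₁⁻¹) * (m₂ * m₁⁻¹)⁻¹ = m₂ * x * m₂⁻¹
      group
    have h := MulAction.index_stabilizer_of_transitive ↥N (⟨x, hxX⟩ : ↥(htCls N x))
    rw [← h]
    exact Subgroup.index_dvd_card _
  have hst : ∀ u ∈ htCls N x, htD H u ≤ htStab H (htCls N x) := by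
    intro u hu
    rw [← ht_cls_eq N hu]
    apply ht_le_stab H (htD H u) (htCls N u) (fun d hd => (ht_mem_D.mp hd).1)
    intro d hd w hw
    obtain ⟨m, hm, rfl⟩ := ht_mem_cls.mp hw
    refine ht_mem_cls.mpr ⟨d * m * d⁻¹, hNn.conj_mem m hm d, ?_⟩
    have e : d * u * d⁻¹ = u := by rw [(ht_mem_D.mp hd).2, mul_inv_cancel_right]
    calc d * (m * u * m⁻¹) * d⁻¹
        = (d * m * d⁻¹) * (d * u * d⁻¹) * (d * m * d⁻¹)⁻¹ := by group
      _ = (d * m * d⁻¹) * u * (d * m * d⁻¹)⁻¹ := by rw [e]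
  have hU := ht_U N H c k hh (htCls N x) hXN hcard hst
  rw [hU x hxX, hU (n * x * n⁻¹) (ht_mem_cls.mpr ⟨n, hn, rfl⟩)]

/-- (P4) For an `H`-invariant subgroup `B ≤ N` and `y ∈ N \ B`, `D y` centralizes `B`. -/
theorem ht_P4 [Finite G] (N H : Subgroup G) [hNn : N.Normal] (c k : ℕ) (hh : HtHyp N H c k)
    (B : Subgroup G) (hBN : B ≤ N) (hBH : ∀ h ∈ H, ∀ b ∈ B, h * b * h⁻¹ ∈ B)
    {y : G} (hy : y ∈ N) (hyB : y ∉ B) (d : G) (hd : d ∈ htD H y) (b : G) (hb : b ∈ B) :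
    d * b = b * d := by
  obtain ⟨X, hXdef⟩ : ∃ X : Set G, X = (fun b => y * b) '' (B : Set G) := ⟨_, rfl⟩
  have hmem : ∀ u, u ∈ X ↔ ∃ b ∈ B, y * b = u := by
    intro u
    rw [hXdef]
    exact Iff.rfl
  have hXN : ∀ x ∈ X, x ∈ N ∧ x ≠ 1 := by
    intro x hx
    obtain ⟨b', hb', rfl⟩ := (hmem x).mp hx
    refine ⟨N.mul_mem hy (hBN hb'), fun h => hyB ?_⟩
    have e : y = b'⁻¹ := eq_inv_of_mul_eq_one_left h
    rw [e]
    exact B.inv_mem hb'
  have hcard : Nat.card ↥X ∣ Nat.card ↥N := by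
    have e : Nat.card ↥X = Nat.card ↥B := by
      rw [hXdef]
      exact Nat.card_image_of_injective (mul_right_injective y) (B : Set G)
    rw [e]
    exact Subgroup.card_dvd_of_le hBN
  have hst : ∀ x ∈ X, htD H x ≤ htStab H X := by
    intro x hx
    obtain ⟨b', hb', rfl⟩ := (hmem x).mp hx
    apply ht_le_stab H (htD H (y * b')) X (fun d hd => (ht_mem_D.mp hd).1)
    intro d' hd' u hu
    obtain ⟨b₂, hb₂, rfl⟩ := (hmem u).mp hu
    rw [hmem]
    refine ⟨b' * (d' * (b'⁻¹ * b₂) * d'⁻¹),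
      B.mul_mem hb' (hBH d' (ht_mem_D.mp hd').1 _ (B.mul_mem (B.inv_mem hb') hb₂)), ?_⟩
    have e : d' * (y * b') * d'⁻¹ = y * b' := by
      rw [(ht_mem_D.mp hd').2, mul_inv_cancel_right]
    calc y * (b' * (d' * (b'⁻¹ * b₂) * d'⁻¹))
        = (y * b') * (d' * (b'⁻¹ * b₂) * d'⁻¹) := by group
      _ = (d' * (y * b') * d'⁻¹) * (d' * (b'⁻¹ * b₂) * d'⁻¹) := by rw [e]
      _ = d' * (y * b₂) * d'⁻¹ := by group
  have hU := ht_U N H c k hh X hXN hcard hst
  have hy1 : y * 1 ∈ X := (hmem _).mpr ⟨1, B.one_mem, rfl⟩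
  have hyb : y * b ∈ X := (hmem _).mpr ⟨b, hb, rfl⟩
  have e1 : htD H (y * b) = htD H y := by
    have e2 := (hU _ hyb).trans (hU _ hy1).symm
    rwa [mul_one] at e2
  have hd' : d ∈ htD H (y * b) := by rw [e1]; exact hd
  have h1 : d * y = y * d := (ht_mem_D.mp hd).2
  have h2 : d * (y * b) = (y * b) * d := (ht_mem_D.mp hd').2
  calc d * b = y⁻¹ * (d * y) * b := by rw [h1]; group
    _ = y⁻¹ * (d * (y * b)) := by group
    _ = y⁻¹ * ((y * b) * d) := by rw [h2]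
    _ = b * d := by group

/-- (B) `N` has no proper nontrivial `H`-invariant subgroup. -/
theorem ht_B [Finite G] (N H : Subgroup G) [hNn : N.Normal] (c k : ℕ) (hh : HtHyp N H c k)
    (B : Subgroup G) (hBN : B ≤ N) (hBH : ∀ h ∈ H, ∀ b ∈ B, h * b * h⁻¹ ∈ B) :
    B = ⊥ ∨ B = N := by
  by_contra hcon
  rw [not_or] at hcon
  obtain ⟨hB1, hB2⟩ := hcon
  obtain ⟨b₀, hb₀, hb₀1⟩ : ∃ b ∈ B, b ≠ 1 := by
    by_contra h
    push Not at h
    exact hB1 ((Subgroup.eq_bot_iff_forall B).mpr h)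
  obtain ⟨y₀, hy₀, hy₀B⟩ : ∃ y ∈ N, y ∉ B := by
    by_contra h
    push Not at h
    exact hB2 (le_antisymm hBN h)
  have hb₀N : b₀ ∈ N := hBN hb₀
  have key1 : ∀ n ∈ N, n ∉ B → ∀ d ∈ htD H b₀, d * n = n * d := by
    intro n hn hnB d hd
    have hn1 : n ≠ 1 := by
      rintro rfl
      exact hnB B.one_mem
    have hDn : htD H n = htD H b₀ :=
      ht_D_eq N H c k hh hn hn1 hb₀N hb₀1
        (fun d' hd' => ht_P4 N H c k hh B hBN hBH hn hnB d' hd' b₀ hb₀)
    rw [← hDn] at hd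
    exact (ht_mem_D.mp hd).2
  have key2 : ∀ n ∈ N, ∀ d ∈ htD H b₀, d * n = n * d := by
    intro n hn d hd
    by_cases hnB : n ∈ B
    · have h1 := key1 y₀ hy₀ hy₀B d hd
      have h2 := key1 (y₀ * n) (N.mul_mem hy₀ hn) (fun h => hy₀B (by
        have h3 := B.mul_mem h (B.inv_mem hnB)
        rwa [mul_inv_cancel_right] at h3)) d hd
      calc d * n = y₀⁻¹ * (d * y₀) * n := by rw [h1]; group
        _ = y₀⁻¹ * (d * (y₀ * n)) := by group
        _ = y₀⁻¹ * ((y₀ * n) * d) := by rw [h2]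
        _ = n * d := by group
    · exact key1 n hn hnB d hd
  have hbot : ∀ d ∈ htD H b₀, d = 1 :=
    fun d hd => hh.hfaith d (ht_mem_D.mp hd).1 (fun n hn => key2 n hn d hd)
  have hcard : Nat.card ↥(htD H b₀) = 1 := by
    rw [(Subgroup.eq_bot_iff_forall _).mpr hbot]
    exact Subgroup.card_bot
  have h1 := hh.hD b₀ hb₀N hb₀1
  have h2 := hh.hc1
  omega

theorem ht_comm_inv {d z : G} (h : d * z = z * d) : d * z⁻¹ = z⁻¹ * d := by
  calc d * z⁻¹ = z⁻¹ * (z * d) * z⁻¹ := by group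
    _ = z⁻¹ * (d * z) * z⁻¹ := by rw [h]
    _ = z⁻¹ * d := by group

/-- (P8) elements with different `D` commute. -/
theorem ht_P8 [Finite G] (N H : Subgroup G) [hNn : N.Normal] (c k : ℕ) (hh : HtHyp N H c k)
    {a b : G} (ha : a ∈ N) (ha1 : a ≠ 1) (hb : b ∈ N) (hb1 : b ≠ 1)
    (hne : htD H a ≠ htD H b) : a * b = b * a := by
  by_contra hab
  have hw1 : a * b * a⁻¹ * b⁻¹ ≠ 1 := by
    intro h
    apply hab
    calc a * b = (a * b * a⁻¹ * b⁻¹) * (b * a) := by group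
      _ = b * a := by rw [h, one_mul]
  have hwN : a * b * a⁻¹ * b⁻¹ ∈ N :=
    N.mul_mem (N.mul_mem (N.mul_mem ha hb) (N.inv_mem ha)) (N.inv_mem hb)
  have h1 : htD H a = htD H (a * b * a⁻¹ * b⁻¹) := by
    apply ht_D_eq N H c k hh ha ha1 hwN hw1
    intro d hd
    have e1 : d * a = a * d := (ht_mem_D.mp hd).2
    have hd' : d ∈ htD H (b * a * b⁻¹) := by
      rw [ht_P6 N H c k hh ha ha1 b hb]; exact hd
    have e2 : d * (b * a * b⁻¹) = (b * a * b⁻¹) * d := (ht_mem_D.mp hd').2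
    have e3 : d * (b * a * b⁻¹)⁻¹ = (b * a * b⁻¹)⁻¹ * d := ht_comm_inv e2
    calc d * (a * b * a⁻¹ * b⁻¹) = (d * a) * (b * a * b⁻¹)⁻¹ := by group
      _ = a * (d * (b * a * b⁻¹)⁻¹) := by rw [e1]; group
      _ = a * ((b * a * b⁻¹)⁻¹ * d) := by rw [e3]
      _ = (a * b * a⁻¹ * b⁻¹) * d := by group
  have h2 : htD H b = htD H (a * b * a⁻¹ * b⁻¹) := by
    apply ht_D_eq N H c k hh hb hb1 hwN hw1
    intro d hd
    have e1 : d * b = b * d := (ht_mem_D.mp hd).2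
    have e1' : d * b⁻¹ = b⁻¹ * d := ht_comm_inv e1
    have hd' : d ∈ htD H (a * b * a⁻¹) := by
      rw [ht_P6 N H c k hh hb hb1 a ha]; exact hd
    have e2 : d * (a * b * a⁻¹) = (a * b * a⁻¹) * d := (ht_mem_D.mp hd').2
    calc d * (a * b * a⁻¹ * b⁻¹) = (d * (a * b * a⁻¹)) * b⁻¹ := by group
      _ = (a * b * a⁻¹) * (d * b⁻¹) := by rw [e2]; group
      _ = (a * b * a⁻¹) * (b⁻¹ * d) := by rw [e1']
      _ = (a * b * a⁻¹ * b⁻¹) * d := by group
  exact hne (h1.trans h2.symm)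

/-- (P9) `N` is abelian. -/
theorem ht_P9 [Finite G] (N H : Subgroup G) [hNn : N.Normal] (c k : ℕ) (hh : HtHyp N H c k) :
    ∀ a ∈ N, ∀ b ∈ N, a * b = b * a := by
  intro a ha b hb
  by_cases ha1 : a = 1
  · rw [ha1]; simp
  by_cases hb1 : b = 1
  · rw [hb1]; simp
  by_cases hab : htD H a = htD H b
  · obtain ⟨z, hz, hz1, hzD⟩ : ∃ z ∈ N, z ≠ 1 ∧ htD H z ≠ htD H a := by
      by_contra hcon
      push Not at hcon
      have hbot : ∀ d ∈ htD H a, d = 1 := by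
        intro d hd
        apply hh.hfaith d (ht_mem_D.mp hd).1
        intro n hn
        by_cases hn1 : n = 1
        · rw [hn1]; simp
        · have hdn : d ∈ htD H n := by rw [hcon n hn hn1]; exact hd
          exact (ht_mem_D.mp hdn).2
      have hcard : Nat.card ↥(htD H a) = 1 := by
        rw [(Subgroup.eq_bot_iff_forall _).mpr hbot]
        exact Subgroup.card_bot
      have h1 := hh.hD a ha ha1
      have h2 := hh.hc1
      omega
    have hbz : b * z = z * b :=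
      ht_P8 N H c k hh hb hb1 hz hz1 (by rw [← hab]; exact Ne.symm hzD)
    have haz1 : a * z ≠ 1 := by
      intro h
      apply hzD
      have hza : z = a⁻¹ := by
        calc z = a⁻¹ * (a * z) := by group
          _ = a⁻¹ := by rw [h, mul_one]
      apply ht_D_eq N H c k hh hz hz1 ha ha1
      intro d hd
      have e : d * a⁻¹ = a⁻¹ * d := by
        rw [← hza]; exact (ht_mem_D.mp hd).2
      have e' := ht_comm_inv e
      rwa [inv_inv] at e'
    have hazD : htD H (a * z) ≠ htD H b := by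
      intro h
      apply hzD
      symm
      apply ht_D_eq N H c k hh ha ha1 hz hz1
      intro d hd
      have e1 : d * a = a * d := (ht_mem_D.mp hd).2
      have hd' : d ∈ htD H (a * z) := by rw [h, ← hab]; exact hd
      have e2 : d * (a * z) = (a * z) * d := (ht_mem_D.mp hd').2
      calc d * z = a⁻¹ * (d * a) * z := by rw [e1]; group
        _ = a⁻¹ * (d * (a * z)) := by group
        _ = a⁻¹ * ((a * z) * d) := by rw [e2]
        _ = z * d := by group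
    have h3 : (a * z) * b = b * (a * z) :=
      ht_P8 N H c k hh (N.mul_mem ha hz) haz1 hb hb1 hazD
    calc a * b = a * (b * z) * z⁻¹ := by group
      _ = a * (z * b) * z⁻¹ := by rw [hbz]
      _ = ((a * z) * b) * z⁻¹ := by group
      _ = (b * (a * z)) * z⁻¹ := by rw [h3]
      _ = b * a := by group
  · exact ht_P8 N H c k hh ha ha1 hb hb1 hab

/-- The subgroup of elements of an abelian `N` killed by `p`. -/
def htPow (N : Subgroup G) (hcomm : ∀ a ∈ N, ∀ b ∈ N, a * b = b * a) (p : ℕ) : Subgroup G where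
  carrier := {x | x ∈ N ∧ x ^ p = 1}
  one_mem' := ⟨N.one_mem, one_pow p⟩
  mul_mem' := by
    rintro x y ⟨hx, hxp⟩ ⟨hy, hyp⟩
    refine ⟨N.mul_mem hx hy, ?_⟩
    have hc : Commute x y := hcomm x hx y hy
    rw [hc.mul_pow, hxp, hyp, one_mul]
  inv_mem' := by
    rintro x ⟨hx, hxp⟩
    exact ⟨N.inv_mem hx, by rw [inv_pow, hxp, inv_one]⟩

theorem ht_mem_pow {N : Subgroup G} {hcomm : ∀ a ∈ N, ∀ b ∈ N, a * b = b * a} {p : ℕ} {x : G} :
    x ∈ htPow N hcomm p ↔ x ∈ N ∧ x ^ p = 1 := Iff.rfl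

/-- (A) `N` has prime exponent. -/
theorem ht_A [Finite G] (N H : Subgroup G) [hNn : N.Normal] (c k : ℕ) (hh : HtHyp N H c k)
    (hcomm : ∀ a ∈ N, ∀ b ∈ N, a * b = b * a) :
    ∃ p : ℕ, p.Prime ∧ ∀ x ∈ N, x ^ p = 1 := by
  by_cases hN1 : ∀ x ∈ N, x = 1
  · exact ⟨2, Nat.prime_two, fun x hx => by rw [hN1 x hx, one_pow]⟩
  · push Not at hN1
    obtain ⟨x₀, hx₀, hx₀1⟩ := hN1
    have hord : orderOf x₀ ≠ 1 := fun h => hx₀1 (orderOf_eq_one_iff.mp h)
    obtain ⟨p, hp, hpd⟩ := Nat.exists_prime_and_dvd hord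
    refine ⟨p, hp, ?_⟩
    have hBH : ∀ h ∈ H, ∀ b ∈ htPow N hcomm p, h * b * h⁻¹ ∈ htPow N hcomm p := by
      intro h _ b hb
      exact ht_mem_pow.mpr ⟨hNn.conj_mem b (ht_mem_pow.mp hb).1 h,
        by rw [conj_pow, (ht_mem_pow.mp hb).2, mul_one, mul_inv_cancel]⟩
    have hBN : htPow N hcomm p ≤ N := fun x hx => (ht_mem_pow.mp hx).1
    rcases ht_B N H c k hh (htPow N hcomm p) hBN hBH with hbot | htop
    · exfalso
      have hpos : 0 < orderOf x₀ := orderOf_pos x₀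
      have hmem : x₀ ^ (orderOf x₀ / p) ∈ htPow N hcomm p := by
        refine ht_mem_pow.mpr ⟨N.pow_mem hx₀ _, ?_⟩
        rw [← pow_mul, Nat.div_mul_cancel hpd, pow_orderOf_eq_one]
      rw [hbot, Subgroup.mem_bot] at hmem
      have hdvd := orderOf_dvd_of_pow_eq_one hmem
      have h1 : 0 < orderOf x₀ / p := Nat.div_pos (Nat.le_of_dvd hpos hpd) hp.pos
      have h2 : orderOf x₀ / p < orderOf x₀ := Nat.div_lt_self hpos hp.one_lt
      have h3 := Nat.le_of_dvd h1 hdvd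
      omega
    · intro x hx
      have hxB : x ∈ htPow N hcomm p := by rw [htop]; exact hx
      exact (ht_mem_pow.mp hxB).2

/-- Main theorem: 3/2-transitive, non-Frobenius, with regular normal subgroup `N`. -/
theorem ht_main {G : Type u} {Ω : Type v} [Group G] [Finite G]
    [MulAction G Ω] [FaithfulSMul G Ω] [Finite Ω]
    (hhalf : ∀ a b c : Ω, b ≠ a → c ≠ a →
      Nat.card (MulAction.orbit (MulAction.stabilizer G a) b)
        = Nat.card (MulAction.orbit (MulAction.stabilizer G a) c))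
    (N : Subgroup G) [hN : N.Normal] (hNt : MulAction.IsPretransitive N Ω)
    (hNr : ∀ a : Ω, MulAction.stabilizer N a = ⊥)
    (hnotF : ∃ a b : Ω, a ≠ b ∧ MulAction.stabilizer G a ⊓ MulAction.stabilizer G b ≠ ⊥) :
    (∃ p : ℕ, p.Prime ∧ IsMulCommutative N ∧ ∀ x ∈ N, x ^ p = 1) ∧
    (∀ M : Subgroup G, M.Normal → M ≠ ⊥ → N ≤ M) := by
  obtain ⟨a, b, hab, hab2⟩ := hnotF
  -- regularity
  have hreg : ∀ n ∈ N, ∀ ω : Ω, n • ω = ω → n = 1 := by
    intro n hn ω h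
    have hmem : (⟨n, hn⟩ : ↥N) ∈ MulAction.stabilizer ↥N ω := h
    rw [hNr ω, Subgroup.mem_bot] at hmem
    exact congrArg Subtype.val hmem
  -- D x is a two-point stabilizer
  have hDx : ∀ x ∈ N, htD (MulAction.stabilizer G a) x
      = MulAction.stabilizer G a ⊓ MulAction.stabilizer G (x • a) := by
    intro x hx
    ext h
    constructor
    · intro hh
      obtain ⟨h1, h2⟩ := ht_mem_D.mp hh
      refine Subgroup.mem_inf.mpr ⟨h1, ?_⟩
      rw [MulAction.mem_stabilizer_iff] at h1 ⊢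
      rw [← mul_smul, h2, mul_smul, h1]
    · intro hh
      obtain ⟨h1, h2⟩ := Subgroup.mem_inf.mp hh
      refine ht_mem_D.mpr ⟨h1, ?_⟩
      rw [MulAction.mem_stabilizer_iff] at h1 h2
      have hm : x⁻¹ * (h⁻¹ * x * h) ∈ N := N.mul_mem (N.inv_mem hx) (by
        have h3 := hN.conj_mem x hx h⁻¹
        rwa [inv_inv] at h3)
      have hfix : (x⁻¹ * (h⁻¹ * x * h)) • a = a := by
        have h2' : h⁻¹ • (x • a) = x • a := by rw [inv_smul_eq_iff, h2]
        rw [mul_smul, mul_smul, mul_smul, h1, h2', inv_smul_smul]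
      have h4 := hreg _ hm a hfix
      calc h * x = h * x * (x⁻¹ * (h⁻¹ * x * h)) := by rw [h4, mul_one]
        _ = x * h := by group
  -- stabilizers inside the point stabilizer
  have hequiv : ∀ b' : Ω, Nat.card ↥(MulAction.stabilizer ↥(MulAction.stabilizer G a) b')
      = Nat.card ↥(MulAction.stabilizer G a ⊓ MulAction.stabilizer G b') := by
    intro b'
    refine Nat.card_congr ?_
    refine
      { toFun := fun s => ⟨(s.1 : G), Subgroup.mem_inf.mpr ⟨s.1.2, ?_⟩⟩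
        invFun := fun t => ⟨⟨t.1, (Subgroup.mem_inf.mp t.2).1⟩, ?_⟩
        left_inv := fun s => rfl
        right_inv := fun t => rfl }
    · exact s.2
    · exact (Subgroup.mem_inf.mp t.2).2
  have hconst : ∀ b' : Ω, b' ≠ a →
      Nat.card ↥(MulAction.stabilizer G a ⊓ MulAction.stabilizer G b')
        = Nat.card ↥(MulAction.stabilizer G a ⊓ MulAction.stabilizer G b) := by
    intro b' hb'
    rw [← hequiv b', ← hequiv b]
    have e1 := Nat.card_congr
      (MulAction.orbitProdStabilizerEquivGroup ↥(MulAction.stabilizer G a) b')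
    have e2 := Nat.card_congr
      (MulAction.orbitProdStabilizerEquivGroup ↥(MulAction.stabilizer G a) b)
    rw [Nat.card_prod] at e1 e2
    rw [hhalf a b' b hb' (Ne.symm hab), ← e2] at e1
    haveI : Nonempty ↥(MulAction.orbit ↥(MulAction.stabilizer G a) b) :=
      ⟨⟨b, MulAction.mem_orbit_self b⟩⟩
    have hpos : 0 < Nat.card ↥(MulAction.orbit ↥(MulAction.stabilizer G a) b) := Nat.card_pos
    exact Nat.eq_of_mul_eq_mul_left hpos e1
  have hc1 : 1 < Nat.card ↥(MulAction.stabilizer G a ⊓ MulAction.stabilizer G b) :=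
    (Subgroup.one_lt_card_iff_ne_bot _).mpr hab2
  obtain ⟨k, hk⟩ : Nat.card ↥(MulAction.stabilizer G a ⊓ MulAction.stabilizer G b)
      ∣ Nat.card ↥(MulAction.stabilizer G a) := Subgroup.card_dvd_of_le inf_le_left
  have hfaith : ∀ h ∈ MulAction.stabilizer G a, (∀ n ∈ N, h * n = n * h) → h = 1 := by
    intro h hh hcomm
    apply FaithfulSMul.eq_of_smul_eq_smul (α := Ω)
    intro ω
    obtain ⟨n, hn⟩ := MulAction.exists_smul_eq ↥N a ω
    have hn' : (n : G) • a = ω := hn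
    rw [one_smul, ← hn', ← mul_smul, hcomm n n.2, mul_smul,
      MulAction.mem_stabilizer_iff.mp hh]
  have hh : HtHyp N (MulAction.stabilizer G a)
      (Nat.card ↥(MulAction.stabilizer G a ⊓ MulAction.stabilizer G b)) k :=
    { hc1 := hc1
      hD := fun x hx hx1 => by
        rw [hDx x hx]
        exact hconst (x • a) (fun h => hx1 (hreg x hx a h))
      hHk := hk
      hfaith := hfaith }
  have hcomm := ht_P9 N (MulAction.stabilizer G a) _ k hh
  obtain ⟨p, hp, hpow⟩ := ht_A N (MulAction.stabilizer G a) _ k hh hcomm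
  refine ⟨⟨p, hp, ⟨⟨fun x y => Subtype.ext (hcomm x.1 x.2 y.1 y.2)⟩⟩, hpow⟩, ?_⟩
  intro M hM hM1
  have hBH : ∀ h ∈ MulAction.stabilizer G a, ∀ b ∈ M ⊓ N, h * b * h⁻¹ ∈ M ⊓ N := by
    intro h _ b hb
    exact Subgroup.mem_inf.mpr ⟨hM.conj_mem b (Subgroup.mem_inf.mp hb).1 h,
      hN.conj_mem b (Subgroup.mem_inf.mp hb).2 h⟩
  rcases ht_B N (MulAction.stabilizer G a) _ k hh (M ⊓ N) inf_le_right hBH with hbot | htop
  · exfalso
    apply hM1
    rw [Subgroup.eq_bot_iff_forall]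
    intro m hm
    have hmc : ∀ n ∈ N, m * n = n * m := by
      intro n hn
      have h1 : m * n * m⁻¹ * n⁻¹ ∈ M ⊓ N := by
        refine Subgroup.mem_inf.mpr ⟨?_, ?_⟩
        · have e : m * n * m⁻¹ * n⁻¹ = m * (n * m⁻¹ * n⁻¹) := by group
          rw [e]
          exact M.mul_mem hm (hM.conj_mem m⁻¹ (M.inv_mem hm) n)
        · exact N.mul_mem (hN.conj_mem n hn m) (N.inv_mem hn)
      rw [hbot, Subgroup.mem_bot] at h1
      calc m * n = (m * n * m⁻¹ * n⁻¹) * (n * m) := by group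
        _ = n * m := by rw [h1, one_mul]
    obtain ⟨n₀, hn₀⟩ := MulAction.exists_smul_eq ↥N a (m • a)
    have hn₀' : (n₀ : G) • a = m • a := hn₀
    have hH : (n₀ : G)⁻¹ * m ∈ MulAction.stabilizer G a := by
      rw [MulAction.mem_stabilizer_iff, mul_smul, ← hn₀', inv_smul_smul]
    have h1 : (n₀ : G)⁻¹ * m = 1 := by
      apply hfaith _ hH
      intro n hn
      have e1 := hmc n hn
      have e2 := hcomm (n₀ : G)⁻¹ (N.inv_mem n₀.2) n hn
      calc (n₀ : G)⁻¹ * m * n = (n₀ : G)⁻¹ * (m * n) := by group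
        _ = (n₀ : G)⁻¹ * (n * m) := by rw [e1]
        _ = ((n₀ : G)⁻¹ * n) * m := by group
        _ = (n * (n₀ : G)⁻¹) * m := by rw [e2]
        _ = n * ((n₀ : G)⁻¹ * m) := by group
    have hmn : m = (n₀ : G) := by
      calc m = (n₀ : G) * ((n₀ : G)⁻¹ * m) := by group
        _ = (n₀ : G) := by rw [h1, mul_one]
    have hmB : m ∈ M ⊓ N := Subgroup.mem_inf.mpr ⟨hm, by rw [hmn]; exact n₀.2⟩
    rw [hbot, Subgroup.mem_bot] at hmB
    exact hmB
  · exact inf_eq_right.mp htop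

end Cfsg.Agent.Helper4
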