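import Mathlib
import Cfsg.Agent.Helper1.Hall
import Cfsg.Agent.Helper1.Coprime
import Cfsg.Agent.Helper13.Codeg3
import Cfsg.Agent.Helper4.SolvPrim
import Cfsg.Agent.Helper4.CarterSys
import Cfsg.Agent.Helper4.CardMul
import Cfsg.Agent.Helper4.CLTHered2

set_option autoImplicit false

namespace Cfsg.Agent.Helper4

open scoped Pointwise

universe u

/-- If all subgroups of order `m` are conjugate to `H₀`, their number is the index of the
normalizer of `H₀`. -/
theorem card_subgroups_eq_index_normalizer {G : Type*} [Group G] [Finite G] (H₀ : Subgroup G)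
    (m : ℕ) (hH₀ : Nat.card H₀ = m)
    (hconj : ∀ H : Subgroup G, Nat.card H = m → ∃ g : G, MulAut.conj g • H₀ = H) :
    Nat.card {H : Subgroup G // Nat.card H = m} = (Subgroup.normalizer (H₀ : Set G)).index := by
  classical
  rw [Subgroup.index]
  symm
  let f : G ⧸ Subgroup.normalizer (H₀ : Set G) → {H : Subgroup G // Nat.card H = m} :=
    fun x => Quotient.liftOn' x
      (fun g => (⟨MulAut.conj g • H₀, by rw [Helper1.card_conj_smul]; exact hH₀⟩ :
        {H : Subgroup G // Nat.card H = m}))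
      (by
        intro a b hab
        rw [QuotientGroup.leftRel_apply] at hab
        apply Subtype.ext
        show MulAut.conj a • H₀ = MulAut.conj b • H₀
        have h1 := Helper1.mem_normalizer_iff_conj_smul.mp hab
        have h2 : MulAut.conj b = MulAut.conj a * MulAut.conj (a⁻¹ * b) := by
          rw [← map_mul]; congr 1; group
        rw [h2, mul_smul, h1])
  apply Nat.card_congr
  refine Equiv.ofBijective f ⟨?_, ?_⟩
  · intro x y
    refine Quotient.inductionOn₂' x y ?_
    intro a b hab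
    have hab' : MulAut.conj a • H₀ = MulAut.conj b • H₀ := congrArg Subtype.val hab
    apply Quotient.sound'
    rw [QuotientGroup.leftRel_apply]
    apply Helper1.mem_normalizer_iff_conj_smul.mpr
    rw [map_mul, mul_smul, ← hab', ← mul_smul, ← map_mul, inv_mul_cancel, map_one, one_smul]
  · rintro ⟨H, hH⟩
    obtain ⟨g, hg⟩ := hconj H hH
    exact ⟨QuotientGroup.mk g, Subtype.ext hg⟩

/-- The index of the centralizer of a solvable `q'`-group in a normal `q`-group is a product of
powers of `q`, each congruent to `1` modulo a prime dividing the order of the acting group. -/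
theorem cent_relIndex_list {G : Type u} [Group G] [Finite G] (N : Subgroup G) [hNn : N.Normal]
    (q a : ℕ) (hq : q.Prime) (hN : Nat.card N = q ^ a) :
    ∀ (c : ℕ) (X : Type u) [Group X] [Finite X] [Group.IsSolvable X] (φ : X →* G),
      Nat.card X = c → ¬ q ∣ c →
      ∃ l : List ℕ, (N ⊓ Subgroup.centralizer (Set.range φ)).relIndex N = l.prod ∧
        ∀ x ∈ l, (∃ e : ℕ, x = q ^ e) ∧ x ∣ Nat.card N ∧
          ∃ r : ℕ, r.Prime ∧ r ∣ c ∧ x ≡ 1 [MOD r] := by
  intro c
  induction c using Nat.strong_induction_on with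
  | _ c ih =>
  intro X _ _ _ φ hc hqc
  by_cases hcomm : commutator X = ⊤
  · have hsub : Subsingleton X := by
      by_contra hns
      rw [not_subsingleton_iff_nontrivial] at hns
      exact (Group.IsSolvable.commutator_lt_top_of_nontrivial X).ne hcomm
    refine ⟨[], ?_, by simp⟩
    have hcent : Subgroup.centralizer (Set.range φ) = ⊤ := by
      rw [eq_top_iff]
      intro g _
      rw [Subgroup.mem_centralizer_iff]
      rintro _ ⟨x, rfl⟩
      rw [Subsingleton.elim x 1, map_one, one_mul, mul_one]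
    rw [hcent, inf_top_eq, Subgroup.relIndex_self, List.prod_nil]
  · obtain ⟨M, hMn, -, hMp⟩ := Helper13.exists_normal_prime_index hcomm
    haveI := hMn
    obtain ⟨r, hr⟩ : ∃ r, r = Nat.card (X ⧸ M) := ⟨_, rfl⟩
    rw [← hr] at hMp
    have hcardM : Nat.card X = r * Nat.card M := by
      rw [hr]; exact Subgroup.card_eq_card_quotient_mul_card_subgroup M
    have hrc : r ∣ c := ⟨Nat.card M, by rw [← hc, hcardM]⟩
    have hMc : Nat.card M ∣ c := ⟨r, by rw [← hc, hcardM, mul_comm]⟩
    have hMlt : Nat.card M < c := by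
      have hMpos : 0 < Nat.card M := Nat.card_pos
      have : 2 ≤ r := hMp.two_le
      rw [← hc, hcardM]; nlinarith
    have hqM : ¬ q ∣ Nat.card M := fun h => hqc (h.trans hMc)
    have hrq : r ≠ q := fun h => hqc (h ▸ hrc)
    obtain ⟨l₁, hl₁, hl₁good⟩ := ih (Nat.card M) hMlt M (φ.comp M.subtype) rfl hqM
    obtain ⟨V₁, hV₁⟩ : ∃ V₁, V₁ = N ⊓ Subgroup.centralizer (Set.range (φ.comp M.subtype)) :=
      ⟨_, rfl⟩
    obtain ⟨V₀, hV₀⟩ : ∃ V₀, V₀ = N ⊓ Subgroup.centralizer (Set.range φ) := ⟨_, rfl⟩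
    rw [← hV₁] at hl₁
    rw [← hV₀]
    have hV₀₁ : V₀ ≤ V₁ := by
      rw [hV₀, hV₁]
      apply inf_le_inf_left
      apply Subgroup.centralizer_le
      rintro _ ⟨m, rfl⟩
      exact ⟨m, rfl⟩
    have hV₁N : V₁ ≤ N := by rw [hV₁]; exact inf_le_left
    have hmul : V₀.relIndex N = V₀.relIndex V₁ * V₁.relIndex N :=
      (Subgroup.relIndex_mul_relIndex V₀ V₁ N hV₀₁ hV₁N).symm
    have hMidx : M.index = r := hr.symm
    have hMtop : M ≠ ⊤ := by
      intro h
      rw [h, Subgroup.index_top] at hMidx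
      exact hMp.one_lt.ne hMidx
    obtain ⟨t, htM⟩ : ∃ t : X, t ∉ M := by
      by_contra hcon
      push Not at hcon
      exact hMtop (eq_top_iff.mpr fun x _ => hcon x)
    have htr : t ^ r ∈ M := by
      rw [← QuotientGroup.eq_one_iff, QuotientGroup.mk_pow, hr]
      exact pow_card_eq_one'
    have hcentM : ∀ v ∈ V₁, ∀ m ∈ M, φ m * v = v * φ m := by
      intro v hv m hm
      rw [hV₁] at hv
      exact (Subgroup.mem_centralizer_iff.mp hv.2) (φ m) ⟨⟨m, hm⟩, rfl⟩
    have hpres : ∀ v ∈ V₁, φ t * v * (φ t)⁻¹ ∈ V₁ := by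
      intro v hv
      have hvN : v ∈ N := hV₁N hv
      rw [hV₁]
      refine Subgroup.mem_inf.mpr ⟨hNn.conj_mem v hvN (φ t), ?_⟩
      rw [Subgroup.mem_centralizer_iff]
      rintro _ ⟨m, rfl⟩
      have hm' : t⁻¹ * (m : X) * t ∈ M := by
        have := hMn.conj_mem (m : X) m.2 t⁻¹
        simpa using this
      have hcm := hcentM v hv _ hm'
      show φ (m : X) * (φ t * v * (φ t)⁻¹) = φ t * v * (φ t)⁻¹ * φ (m : X)
      have e1 : φ (m : X) = φ t * φ (t⁻¹ * m * t) * (φ t)⁻¹ := by
        rw [← map_inv, ← map_mul, ← map_mul]; congr 1; group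
      rw [e1]
      calc φ t * φ (t⁻¹ * ↑m * t) * (φ t)⁻¹ * (φ t * v * (φ t)⁻¹)
          = φ t * (φ (t⁻¹ * ↑m * t) * v) * (φ t)⁻¹ := by group
        _ = φ t * (v * φ (t⁻¹ * ↑m * t)) * (φ t)⁻¹ := by rw [hcm]
        _ = _ := by group
    classical
    let f₀ : V₁ → V₁ := fun v => ⟨φ t * v * (φ t)⁻¹, hpres v v.2⟩
    let f : Function.End V₁ := f₀
    have hfpow : ∀ (k : ℕ) (v : V₁), (((f ^ k) v : V₁) : G) = φ t ^ k * v * (φ t ^ k)⁻¹ := by
      intro k
      induction k with
      | zero =>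
        intro v
        show ((v : V₁) : G) = _
        rw [pow_zero]; group
      | succ k ihk =>
        intro v
        have e : (f ^ (k + 1)) v = (f ^ k) (f v) := by rw [pow_succ]; rfl
        rw [e, ihk]
        show φ t ^ k * (φ t * v * (φ t)⁻¹) * (φ t ^ k)⁻¹ = _
        rw [pow_succ]; group
    haveI : Fact r.Prime := ⟨hMp⟩
    have hfr : f ^ r ^ 1 = 1 := by
      rw [pow_one]
      funext v
      apply Subtype.ext
      rw [hfpow]
      have hc' := hcentM v v.2 _ htr
      rw [← map_pow]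
      show φ (t ^ r) * ↑v * (φ (t ^ r))⁻¹ = ↑v
      rw [hc']; group
    haveI : Fintype V₁ := Fintype.ofFinite _
    have hmod := Equiv.Perm.card_fixedPoints_modEq (p := r) (n := 1) hfr
    have hfix : Nat.card (Function.fixedPoints f₀) = Nat.card V₀ := by
      apply Nat.card_congr
      refine ⟨fun v => ⟨((v : V₁) : G), ?_⟩, fun w => ⟨⟨(w : G), hV₀₁ w.2⟩, ?_⟩, ?_, ?_⟩
      · -- fixed point lies in V₀
        have hvfix : φ t * ((v : V₁) : G) * (φ t)⁻¹ = ((v : V₁) : G) :=
          congrArg Subtype.val v.2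
        have hvV₁ : ((v : V₁) : G) ∈ V₁ := (v : V₁).2
        rw [hV₀]
        refine Subgroup.mem_inf.mpr ⟨hV₁N hvV₁, ?_⟩
        rw [Subgroup.mem_centralizer_iff]
        rintro _ ⟨x, rfl⟩
        have hK : (Subgroup.centralizer ({((v : V₁) : G)} : Set G)).comap φ = ⊤ := by
          have hMK : M ≤ (Subgroup.centralizer ({((v : V₁) : G)} : Set G)).comap φ := by
            intro m hm
            rw [Subgroup.mem_comap, Subgroup.mem_centralizer_iff]
            intro y hy
            rw [Set.mem_singleton_iff] at hy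
            rw [hy]
            exact (hcentM _ hvV₁ m hm).symm
          have htK : t ∈ (Subgroup.centralizer ({((v : V₁) : G)} : Set G)).comap φ := by
            rw [Subgroup.mem_comap, Subgroup.mem_centralizer_iff]
            intro y hy
            rw [Set.mem_singleton_iff] at hy
            rw [hy]
            have : φ t * ((v : V₁) : G) = φ t * ((v : V₁) : G) * (φ t)⁻¹ * φ t := by group
            rw [this, hvfix]
          have h1 := Subgroup.relIndex_mul_index hMK
          rw [hMidx] at h1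
          have h2 : ((Subgroup.centralizer ({((v : V₁) : G)} : Set G)).comap φ).index ∣ r :=
            ⟨_, by rw [← h1, mul_comm]⟩
          rcases (Nat.dvd_prime hMp).mp h2 with h3 | h3
          · exact Subgroup.index_eq_one.mp h3
          · exfalso
            rw [h3] at h1
            have h4 : M.relIndex ((Subgroup.centralizer ({((v : V₁) : G)} : Set G)).comap φ) = 1 := by
              have hrpos : 0 < r := hMp.pos
              exact Nat.eq_of_mul_eq_mul_right hrpos (by rw [h1, one_mul])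
            exact htM (Subgroup.relIndex_eq_one.mp h4 htK)
        have hx : x ∈ (Subgroup.centralizer ({((v : V₁) : G)} : Set G)).comap φ := by
          rw [hK]; exact Subgroup.mem_top x
        rw [Subgroup.mem_comap, Subgroup.mem_centralizer_iff] at hx
        exact (hx _ rfl).symm
      · -- element of V₀ is fixed
        have hw : (w : G) ∈ N ⊓ Subgroup.centralizer (Set.range φ) := by
          rw [← hV₀]; exact w.2
        have hcw := (Subgroup.mem_centralizer_iff.mp hw.2) (φ t) ⟨t, rfl⟩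
        show f₀ ⟨(w : G), hV₀₁ w.2⟩ = ⟨(w : G), hV₀₁ w.2⟩
        apply Subtype.ext
        show φ t * (w : G) * (φ t)⁻¹ = (w : G)
        rw [hcw]; group
      · intro v; rfl
      · intro w; rfl
    have hmod' : Nat.card V₁ ≡ Nat.card V₀ [MOD r] := by
      rw [← hfix, Nat.card_eq_fintype_card, Nat.card_eq_fintype_card]
      convert hmod
    have hcardV : Nat.card V₀ * V₀.relIndex V₁ = Nat.card V₁ := card_mul_relIndex_of_le hV₀₁
    have hV₀dvd : Nat.card V₀ ∣ q ^ a := by
      rw [← hN]; exact Subgroup.card_dvd_of_le (hV₀₁.trans hV₁N)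
    have hcopr : Nat.gcd r (Nat.card V₀) = 1 := by
      have h1 : Nat.Coprime r (q ^ a) :=
        Nat.Coprime.pow_right _ ((Nat.coprime_primes hMp hq).mpr hrq)
      exact Nat.Coprime.coprime_dvd_right hV₀dvd h1
    have hx₀mod : V₀.relIndex V₁ ≡ 1 [MOD r] := by
      apply Nat.ModEq.cancel_left_of_coprime hcopr
      rw [hcardV, mul_one]
      exact hmod'
    have hx₀dvd : V₀.relIndex V₁ ∣ Nat.card N :=
      (Subgroup.relIndex_dvd_card V₀ V₁).trans (Subgroup.card_dvd_of_le hV₁N)
    refine ⟨V₀.relIndex V₁ :: l₁, ?_, ?_⟩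
    · rw [List.prod_cons, hmul, hl₁]
    · intro x hx
      rcases List.mem_cons.mp hx with rfl | hx
      · refine ⟨?_, hx₀dvd, r, hMp, hrc, hx₀mod⟩
        rw [hN] at hx₀dvd
        obtain ⟨e, -, he⟩ := (Nat.dvd_prime_pow hq).mp hx₀dvd
        exact ⟨e, he⟩
      · obtain ⟨h1, h2, r', hr', hr'M, hmod''⟩ := hl₁good x hx
        exact ⟨h1, h2, r', hr', hr'M.trans hMc, hmod''⟩

/-- The property required of each factor of the number of Hall subgroups. -/
def GoodFactor (G : Type*) [Group G] (m x : ℕ) : Prop :=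
  (∃ q e : ℕ, q.Prime ∧ x = q ^ e) ∧
  (∃ K L : Subgroup G, K.Normal ∧ L.Normal ∧ K < L ∧
    (∀ M : Subgroup G, M.Normal → K ≤ M → M ≤ L → M = K ∨ M = L) ∧ x ∣ K.relIndex L) ∧
  (∃ q : ℕ, q.Prime ∧ q ∣ m ∧ x ≡ 1 [MOD q])

theorem goodFactor_of_quotient {G : Type*} [Group G] (N : Subgroup G) [N.Normal] {m m' x : ℕ}
    (hmm : m' ∣ m) (h : GoodFactor (G ⧸ N) m' x) : GoodFactor G m x := by
  obtain ⟨h1, ⟨K, L, hK, hL, hKL, hmin, hdvd⟩, ⟨r, hr, hrm, hmod⟩⟩ := h
  have hsurj := QuotientGroup.mk'_surjective N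
  refine ⟨h1, ⟨K.comap (QuotientGroup.mk' N), L.comap (QuotientGroup.mk' N), hK.comap _,
    hL.comap _, ?_, ?_, ?_⟩, ⟨r, hr, hrm.trans hmm, hmod⟩⟩
  · exact (Subgroup.comap_lt_comap_of_surjective hsurj).mpr hKL
  · intro M hM hKM hML
    have hNM : N ≤ M := by
      refine le_trans ?_ hKM
      intro x hx
      rw [Subgroup.mem_comap]
      have : QuotientGroup.mk' N x = 1 := (QuotientGroup.eq_one_iff x).mpr hx
      rw [this]; exact K.one_mem
    have hMeq : (M.map (QuotientGroup.mk' N)).comap (QuotientGroup.mk' N) = M := by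
      rw [Subgroup.comap_map_eq, QuotientGroup.ker_mk', sup_eq_left.mpr hNM]
    have hMn : (M.map (QuotientGroup.mk' N)).Normal := hM.map _ hsurj
    have h1' : K ≤ M.map (QuotientGroup.mk' N) := by
      rw [← Subgroup.map_comap_eq_self_of_surjective hsurj K]
      exact Subgroup.map_mono hKM
    have h2' : M.map (QuotientGroup.mk' N) ≤ L := by
      rw [← Subgroup.map_comap_eq_self_of_surjective hsurj L]
      exact Subgroup.map_mono hML
    rcases hmin _ hMn h1' h2' with h | h
    · left; rw [← hMeq, h]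
    · right; rw [← hMeq, h]
  · rw [Subgroup.relIndex_comap, Subgroup.map_comap_eq_self_of_surjective hsurj]
    exact hdvd

theorem card_eq_of_index_eq {G : Type*} [Group G] [Finite G] (H : Subgroup G) {m n : ℕ}
    (hG : Nat.card G = m * n) (hn : 0 < n) (h : H.index = n) : Nat.card H = m := by
  have h1 := H.card_mul_index
  rw [h, hG] at h1
  exact Nat.eq_of_mul_eq_mul_right hn h1

theorem index_eq_of_card_eq {G : Type*} [Group G] [Finite G] (H : Subgroup G) {m n : ℕ}
    (hG : Nat.card G = m * n) (hm : 0 < m) (h : Nat.card H = m) : H.index = n := by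
  have h1 := H.card_mul_index
  rw [h, hG] at h1
  exact Nat.eq_of_mul_eq_mul_left hm h1

/-- Counting Hall subgroups across a normal subgroup of coprime order. -/
theorem hall_count_step {G : Type u} [Group G] [Finite G] [Group.IsSolvable G] (N₀ : Subgroup G)
    [hN₀n : N₀.Normal] (m n n' : ℕ) (hG : Nat.card G = m * n) (hcop : m.Coprime n)
    (hQ : Nat.card (G ⧸ N₀) = m * n') (hcop' : m.Coprime n')
    (hcopN : (Nat.card N₀).Coprime m)
    (H₀ : Subgroup G) (hH₀ : Nat.card H₀ = m) :
    Nat.card {H : Subgroup G // Nat.card H = m} =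
      Nat.card {H : Subgroup (G ⧸ N₀) // Nat.card H = m} *
        (N₀ ⊓ Subgroup.centralizer (H₀ : Set G)).relIndex N₀ := by
  have hGpos : 0 < Nat.card G := Nat.card_pos
  have hmpos : 0 < m := by
    rcases Nat.eq_zero_or_pos m with h | h
    · rw [h, zero_mul] at hG; omega
    · exact h
  have hQpos : 0 < Nat.card (G ⧸ N₀) := Nat.card_pos
  have hn'pos : 0 < n' := by
    rcases Nat.eq_zero_or_pos n' with h | h
    · rw [h, mul_zero] at hQ; omega
    · exact h
  have hN₀pos : 0 < Nat.card N₀ := Nat.card_pos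
  have h1 := card_subgroups_eq_index_normalizer H₀ m hH₀
    (fun H hH => Helper1.hall_conj m n hG hcop H₀ H hH₀ hH)
  have hsurj : Function.Surjective (QuotientGroup.mk' N₀) := QuotientGroup.mk'_surjective N₀
  have hker : (QuotientGroup.mk' N₀).ker = N₀ := QuotientGroup.ker_mk' N₀
  have hinf : H₀ ⊓ N₀ = ⊥ := Subgroup.inf_eq_bot_of_coprime (by rw [hH₀]; exact hcopN.symm)
  have hcardsup : Nat.card (H₀ ⊔ N₀ : Subgroup G) = m * Nat.card N₀ := by
    have := card_sup_mul_card_inf H₀ N₀ (by rw [Subgroup.normalizer_eq_top]; exact le_top)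
    rw [hinf, Subgroup.card_bot, mul_one, hH₀] at this
    exact this
  have hcardG' : Nat.card G = m * n' * Nat.card N₀ := by
    rw [← hQ]; exact Subgroup.card_eq_card_quotient_mul_card_subgroup N₀
  have hidxsup : (H₀ ⊔ N₀ : Subgroup G).index = n' := by
    have h := (H₀ ⊔ N₀ : Subgroup G).card_mul_index
    rw [hcardsup, hcardG'] at h
    have h' : m * Nat.card N₀ * (H₀ ⊔ N₀ : Subgroup G).index = m * Nat.card N₀ * n' := by
      rw [h]; ring
    exact Nat.eq_of_mul_eq_mul_left (Nat.mul_pos hmpos hN₀pos) h'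
  have hidximg : (H₀.map (QuotientGroup.mk' N₀)).index = n' := by
    rw [Subgroup.index_map, hker, hidxsup, MonoidHom.range_eq_top.mpr hsurj, Subgroup.index_top,
      mul_one]
  have hcardimg : Nat.card (H₀.map (QuotientGroup.mk' N₀)) = m :=
    card_eq_of_index_eq _ hQ hn'pos hidximg
  have h2 := card_subgroups_eq_index_normalizer (H₀.map (QuotientGroup.mk' N₀)) m hcardimg
    (fun H hH => Helper1.hall_conj m n' hQ hcop' (H₀.map (QuotientGroup.mk' N₀)) H hcardimg hH)
  have h3 : (Subgroup.normalizer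
      ((H₀.map (QuotientGroup.mk' N₀) : Subgroup (G ⧸ N₀)) : Set (G ⧸ N₀))).index =
      (Subgroup.normalizer ((H₀ ⊔ N₀ : Subgroup G) : Set G)).index := by
    rw [← Subgroup.index_comap_of_surjective _ hsurj,
      Subgroup.comap_normalizer_eq_of_surjective _ hsurj, Subgroup.comap_map_eq, hker]
  have h4 : Subgroup.normalizer ((H₀ ⊔ N₀ : Subgroup G) : Set G) =
      Subgroup.normalizer (H₀ : Set G) ⊔ N₀ := by
    apply le_antisymm
    · intro g hg
      have hg' := Helper1.mem_normalizer_iff_conj_smul.mp hg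
      have hB : MulAut.conj g • H₀ ≤ N₀ ⊔ H₀ := by
        rw [sup_comm]
        calc MulAut.conj g • H₀ ≤ MulAut.conj g • (H₀ ⊔ N₀) :=
              Subgroup.pointwise_smul_le_pointwise_smul_iff.mpr le_sup_left
          _ = H₀ ⊔ N₀ := hg'
      obtain ⟨d, hd, hdeq⟩ := Helper1.sz2 N₀ H₀ (MulAut.conj g • H₀)
        (by rw [Subgroup.normalizer_eq_top]; exact le_top) hB (Helper1.card_conj_smul H₀ g)
        (by rw [hH₀]; exact hcopN.symm) (Or.inl inferInstance)
      have hmem : d⁻¹ * g ∈ Subgroup.normalizer (H₀ : Set G) := by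
        apply Helper1.mem_normalizer_iff_conj_smul.mpr
        rw [map_mul, mul_smul, ← hdeq, ← mul_smul, ← map_mul, inv_mul_cancel, map_one, one_smul]
      have hgeq : g = d * (d⁻¹ * g) := by group
      rw [hgeq]
      exact Subgroup.mul_mem _ (Subgroup.mem_sup_right hd) (Subgroup.mem_sup_left hmem)
    · apply sup_le
      · intro g hg
        apply Helper1.mem_normalizer_iff_conj_smul.mpr
        rw [Subgroup.smul_sup, Helper1.mem_normalizer_iff_conj_smul.mp hg,
          Subgroup.Normal.conj_smul_eq_self]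
      · exact le_sup_right.trans Subgroup.le_normalizer
  have h5 : (Subgroup.normalizer (H₀ : Set G)).index =
      (Subgroup.normalizer (H₀ : Set G) ⊔ N₀).index *
        (Subgroup.normalizer (H₀ : Set G)).relIndex N₀ := by
    rw [← relIndex_sup_normal (Subgroup.normalizer (H₀ : Set G)) N₀, mul_comm]
    exact (Subgroup.relIndex_mul_index le_sup_left).symm
  have h6 : (Subgroup.normalizer (H₀ : Set G)).relIndex N₀ =
      (N₀ ⊓ Subgroup.centralizer (H₀ : Set G)).relIndex N₀ := by
    rw [← Subgroup.inf_relIndex_right]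
    congr 1
    ext x
    constructor
    · intro hx
      obtain ⟨hxn, hxN⟩ := Subgroup.mem_inf.mp hx
      refine Subgroup.mem_inf.mpr ⟨hxN, ?_⟩
      rw [Subgroup.mem_centralizer_iff]
      intro h hh
      have hin : x * h * x⁻¹ * h⁻¹ ∈ H₀ ⊓ N₀ := by
        refine Subgroup.mem_inf.mpr
          ⟨H₀.mul_mem ((Subgroup.mem_normalizer_iff.mp hxn h).mp hh) (H₀.inv_mem hh), ?_⟩
        have : x * h * x⁻¹ * h⁻¹ = x * (h * x⁻¹ * h⁻¹) := by group
        rw [this]
        exact N₀.mul_mem hxN (hN₀n.conj_mem _ (N₀.inv_mem hxN) h)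
      rw [hinf, Subgroup.mem_bot] at hin
      have hxh : x * h = (x * h * x⁻¹ * h⁻¹) * (h * x) := by group
      rw [hin, one_mul] at hxh
      exact hxh.symm
    · intro hx
      obtain ⟨hxN, hxc⟩ := Subgroup.mem_inf.mp hx
      exact Subgroup.mem_inf.mpr ⟨Subgroup.centralizer_le_normalizer _ hxc, hxN⟩
  rw [h1, h5, ← h4, ← h3, ← h2, h6]

theorem hall_count_aux : ∀ (c : ℕ) (G : Type u) [Group G] [Finite G] [Group.IsSolvable G],
    Nat.card G = c → ∀ m n : ℕ, c = m * n → m.Coprime n →
    ∃ l : List ℕ, Nat.card {H : Subgroup G // Nat.card H = m} = l.prod ∧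
      ∀ x ∈ l, GoodFactor G m x := by
  intro c
  induction c using Nat.strong_induction_on with
  | _ c ih =>
  intro G _ _ _ hc m n hmn hcop
  have hcpos : 0 < c := hc ▸ Nat.card_pos
  have hmpos : 0 < m := by
    rcases Nat.eq_zero_or_pos m with h | h
    · rw [h, zero_mul] at hmn; omega
    · exact h
  have hnpos : 0 < n := by
    rcases Nat.eq_zero_or_pos n with h | h
    · rw [h, mul_zero] at hmn; omega
    · exact h
  by_cases htriv : Nat.card G = 1
  · have hm1 : m = 1 := by
      have h1 : m * n = 1 := by rw [← hmn, ← hc, htriv]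
      exact Nat.eq_one_of_mul_eq_one_right h1
    refine ⟨[], ?_, by simp⟩
    rw [List.prod_nil, hm1, Nat.card_eq_one_iff_unique]
    refine ⟨⟨?_⟩, ⟨⟨⊥, Subgroup.card_bot⟩⟩⟩
    rintro ⟨A, hA⟩ ⟨B, hB⟩
    apply Subtype.ext
    show A = B
    rw [Subgroup.card_eq_one.mp hA, Subgroup.card_eq_one.mp hB]
  · haveI : Nontrivial G := by
      rw [← not_subsingleton_iff_nontrivial]
      intro hs
      exact htriv (Nat.card_eq_one_iff_unique.mpr ⟨hs, ⟨1⟩⟩)
    obtain ⟨N₀, hN₀min⟩ := exists_minimal_of_wellFoundedLT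
      (fun N : Subgroup G => N.Normal ∧ N ≠ ⊥) ⟨⊤, inferInstance, top_ne_bot⟩
    have hN₀n : N₀.Normal := hN₀min.prop.1
    have hN₀ne : N₀ ≠ ⊥ := hN₀min.prop.2
    haveI := hN₀n
    have hmin : ∀ K : Subgroup G, K.Normal → K ≤ N₀ → K = ⊥ ∨ K = N₀ := by
      intro K hK hKN
      by_cases hKb : K = ⊥
      · exact Or.inl hKb
      · exact Or.inr (le_antisymm hKN (hN₀min.le_of_le ⟨hK, hKb⟩ hKN))
    obtain ⟨q, hq, -, hexp⟩ := minNormal_elemAbelian N₀ hN₀ne hmin
    haveI : Fact q.Prime := ⟨hq⟩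
    have hN₀p : IsPGroup q N₀ := by
      intro x
      refine ⟨1, ?_⟩
      rw [pow_one]
      apply Subtype.ext
      rw [Subgroup.coe_pow]
      exact hexp x x.2
    obtain ⟨a, ha⟩ := IsPGroup.iff_card.mp hN₀p
    have hcardG : Nat.card G = Nat.card (G ⧸ N₀) * q ^ a := by
      rw [← ha]; exact Subgroup.card_eq_card_quotient_mul_card_subgroup N₀
    have hapos : 0 < a := by
      rcases Nat.eq_zero_or_pos a with h | h
      · exfalso; rw [h, pow_zero] at ha; exact hN₀ne (Subgroup.card_eq_one.mp ha)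
      · exact h
    have hqa : 1 < q ^ a := Nat.one_lt_pow hapos.ne' hq.one_lt
    have hQpos : 0 < Nat.card (G ⧸ N₀) := Nat.card_pos
    have hQlt : Nat.card (G ⧸ N₀) < c := by
      rw [← hc, hcardG]; nlinarith
    have hqdvd : q ^ a ∣ m * n := by rw [← hmn, ← hc, hcardG]; exact dvd_mul_left _ _
    have hqapos : 0 < q ^ a := by positivity
    by_cases hqm : q ∣ m
    · -- `N₀` lies in every Hall subgroup
      have hqn : Nat.Coprime (q ^ a) n := by
        apply Nat.Coprime.pow_left
        rw [Nat.Prime.coprime_iff_not_dvd hq]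
        intro hqn
        exact hq.one_lt.ne' (Nat.eq_one_of_dvd_coprimes hcop hqm hqn)
      obtain ⟨m', hm'⟩ := hqn.dvd_of_dvd_mul_right hqdvd
      have hQcard : Nat.card (G ⧸ N₀) = m' * n := by
        have h1 : Nat.card (G ⧸ N₀) * q ^ a = (m' * n) * q ^ a := by
          rw [← hcardG, hc, hmn, hm']; ring
        exact Nat.eq_of_mul_eq_mul_right hqapos h1
      have hm'm : m' ∣ m := ⟨q ^ a, by rw [hm']; ring⟩
      have hcop' : m'.Coprime n := Nat.Coprime.coprime_dvd_left hm'm hcop
      have hm'pos : 0 < m' := Nat.pos_of_dvd_of_pos hm'm hmpos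
      obtain ⟨l, hl, hlgood⟩ := ih _ hQlt (G ⧸ N₀) rfl m' n hQcard hcop'
      refine ⟨l, ?_, fun x hx => goodFactor_of_quotient N₀ hm'm (hlgood x hx)⟩
      rw [← hl]
      have hGcard : Nat.card G = m * n := hc.trans hmn
      have hsurj : Function.Surjective (QuotientGroup.mk' N₀) := QuotientGroup.mk'_surjective N₀
      have hker : (QuotientGroup.mk' N₀).ker = N₀ := QuotientGroup.ker_mk' N₀
      have hle : ∀ H : Subgroup G, Nat.card H = m → N₀ ≤ H := by
        intro H hH
        have h1 := card_sup_mul_card_inf H N₀ (by rw [Subgroup.normalizer_eq_top]; exact le_top)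
        rw [hH, ha] at h1
        have h2 : Nat.card (H ⊓ N₀ : Subgroup G) ∣ q ^ a := by
          rw [← ha]; exact Subgroup.card_dvd_of_le inf_le_right
        obtain ⟨e, he⟩ := h2
        have hdpos : 0 < Nat.card (H ⊓ N₀ : Subgroup G) := Nat.card_pos
        have h3 : Nat.card (H ⊔ N₀ : Subgroup G) = m * e := by
          have h4 : Nat.card (H ⊔ N₀ : Subgroup G) * Nat.card (H ⊓ N₀ : Subgroup G) =
              (m * e) * Nat.card (H ⊓ N₀ : Subgroup G) := by rw [h1, he]; ring
          exact Nat.eq_of_mul_eq_mul_right hdpos h4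
        have h5 : m * e ∣ m * n := by
          rw [← h3, ← hGcard]; exact Subgroup.card_subgroup_dvd_card _
        have h6 : e ∣ n := (Nat.mul_dvd_mul_iff_left hmpos).mp h5
        have h7 : e = 1 := Nat.eq_one_of_dvd_coprimes hqn ⟨_, by rw [he, mul_comm]⟩ h6
        rw [h7, mul_one] at he
        have h8 : H ⊓ N₀ = N₀ := Subgroup.eq_of_le_of_card_ge inf_le_right (by rw [ha, he])
        exact inf_eq_right.mp h8
      apply Nat.card_congr
      refine ⟨fun H => ⟨(H : Subgroup G).map (QuotientGroup.mk' N₀), ?_⟩,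
        fun K => ⟨(K : Subgroup (G ⧸ N₀)).comap (QuotientGroup.mk' N₀), ?_⟩, ?_, ?_⟩
      · have hi := index_eq_of_card_eq (H : Subgroup G) hGcard hmpos H.2
        have hi' : ((H : Subgroup G).map (QuotientGroup.mk' N₀)).index = n := by
          rw [Subgroup.index_map_eq _ hsurj (by rw [hker]; exact hle H H.2), hi]
        exact card_eq_of_index_eq _ hQcard hnpos hi'
      · have hi := index_eq_of_card_eq (K : Subgroup (G ⧸ N₀)) hQcard hm'pos K.2
        have hi' : ((K : Subgroup (G ⧸ N₀)).comap (QuotientGroup.mk' N₀)).index = n := by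
          rw [Subgroup.index_comap_of_surjective _ hsurj, hi]
        exact card_eq_of_index_eq _ hGcard hnpos hi'
      · intro H
        apply Subtype.ext
        show ((H : Subgroup G).map (QuotientGroup.mk' N₀)).comap (QuotientGroup.mk' N₀) = H
        rw [Subgroup.comap_map_eq, hker, sup_eq_left.mpr (hle H H.2)]
      · intro K
        apply Subtype.ext
        show ((K : Subgroup (G ⧸ N₀)).comap (QuotientGroup.mk' N₀)).map (QuotientGroup.mk' N₀) = K
        exact Subgroup.map_comap_eq_self_of_surjective hsurj _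
    · -- `N₀` is a `π'`-group
      have hqmc : Nat.Coprime (q ^ a) m :=
        Nat.Coprime.pow_left _ ((Nat.Prime.coprime_iff_not_dvd hq).mpr hqm)
      obtain ⟨n', hn'⟩ := hqmc.dvd_of_dvd_mul_left hqdvd
      have hQcard : Nat.card (G ⧸ N₀) = m * n' := by
        have h1 : Nat.card (G ⧸ N₀) * q ^ a = (m * n') * q ^ a := by
          rw [← hcardG, hc, hmn, hn']; ring
        exact Nat.eq_of_mul_eq_mul_right hqapos h1
      have hn'n : n' ∣ n := ⟨q ^ a, by rw [hn']; ring⟩
      have hcop' : m.Coprime n' := Nat.Coprime.coprime_dvd_right hn'n hcop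
      obtain ⟨l, hl, hlgood⟩ := ih _ hQlt (G ⧸ N₀) rfl m n' hQcard hcop'
      have hGcard : Nat.card G = m * n := hc.trans hmn
      obtain ⟨H₀, hH₀⟩ := Helper1.hall_exists m n hGcard hcop
      have hqH₀ : ¬ q ∣ Nat.card H₀ := by rw [hH₀]; exact hqm
      obtain ⟨lc, hlc, hlcgood⟩ := cent_relIndex_list N₀ q a hq ha (Nat.card H₀) H₀ H₀.subtype
        rfl hqH₀
      have hrange : Set.range H₀.subtype = (H₀ : Set G) := by
        ext y
        constructor
        · rintro ⟨x, rfl⟩; exact x.2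
        · intro hy; exact ⟨⟨y, hy⟩, rfl⟩
      rw [hrange] at hlc
      have hcount := hall_count_step N₀ m n n' hGcard hcop hQcard hcop' (by rw [ha]; exact hqmc)
        H₀ hH₀
      refine ⟨l ++ lc, ?_, ?_⟩
      · rw [List.prod_append, ← hl, ← hlc, hcount]
      · intro x hx
        rcases List.mem_append.mp hx with hx | hx
        · exact goodFactor_of_quotient N₀ dvd_rfl (hlgood x hx)
        · obtain ⟨⟨e, he⟩, hxN, r, hr, hrm, hmod⟩ := hlcgood x hx
          refine ⟨⟨q, e, hq, he⟩, ⟨⊥, N₀, inferInstance, hN₀n, bot_lt_iff_ne_bot.mpr hN₀ne, ?_, ?_⟩,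
            ⟨r, hr, hH₀ ▸ hrm, hmod⟩⟩
          · intro M hM _ hMN; exact hmin M hM hMN
          · rw [Subgroup.relIndex_bot_left]; exact hxN

/-- P. Hall: the number of Hall subgroups of a solvable group. -/
theorem hall_count {G : Type u} [Group G] [Finite G] [Group.IsSolvable G] (m n : ℕ)
    (hG : Nat.card G = m * n) (hmn : Nat.Coprime m n) :
    ∃ (k : ℕ) (f : Fin k → ℕ), Nat.card {H : Subgroup G // Nat.card H = m} = ∏ i, f i ∧
      ∀ i, (∃ q e : ℕ, q.Prime ∧ f i = q ^ e) ∧
        (∃ K L : Subgroup G, K.Normal ∧ L.Normal ∧ K < L ∧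
          (∀ M : Subgroup G, M.Normal → K ≤ M → M ≤ L → M = K ∨ M = L) ∧ f i ∣ K.relIndex L) ∧
        (∃ q : ℕ, q.Prime ∧ q ∣ m ∧ f i ≡ 1 [MOD q]) := by
  obtain ⟨l, hl, hgood⟩ := hall_count_aux _ G rfl m n hG hmn
  refine ⟨l.length, l.get, ?_, fun i => hgood _ (List.get_mem l i)⟩
  rw [hl, ← List.prod_ofFn, List.ofFn_get]

end Cfsg.Agent.Helper4
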