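import Mathlib
import Cfsg.Agent.Helper1.SZ
import Cfsg.Agent.Helper4.SolvPrim
import Cfsg.Agent.Helper4.MaxPrimeIndex
import Cfsg.Agent.Helper4.Supersolvable2
import Cfsg.Agent.Helper4.CardMul

set_option autoImplicit false

namespace Cfsg.Agent.Helper4

universe u

theorem normal_sylow_of_hall_max_aux : ∀ (c : ℕ) (G : Type u) [Group G] [Finite G]
    [Group.IsSolvable G] [Nontrivial G],
    Nat.card G = c → (∀ M : Subgroup G, IsCoatom M → (Nat.card M).Coprime M.index) →
    ∃ p : ℕ, p.Prime ∧ p ∣ Nat.card G ∧ ∀ P : Sylow p G, (P : Subgroup G).Normal := by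
  intro c
  induction c using Nat.strong_induction_on with
  | _ c ih =>
    intro G _ _ _ _ hc h
    obtain ⟨N, hNmin⟩ := exists_minimal_of_wellFoundedLT
      (fun K : Subgroup G => K.Normal ∧ K ≠ ⊥) ⟨⊤, Subgroup.normal_top, top_ne_bot⟩
    obtain ⟨hNn, hNne⟩ := hNmin.prop
    haveI := hNn
    have hmin : ∀ K : Subgroup G, K.Normal → K ≤ N → K = ⊥ ∨ K = N := by
      intro K hKn hKle
      by_cases hK : K = ⊥
      · exact Or.inl hK
      · exact Or.inr (le_antisymm hKle (hNmin.le_of_le ⟨hKn, hK⟩ hKle))
    obtain ⟨p, hp, -, hexp⟩ := minNormal_elemAbelian N hNne hmin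
    haveI : Fact p.Prime := ⟨hp⟩
    have hNp : IsPGroup p N := by
      intro g
      refine ⟨1, ?_⟩
      rw [pow_one]
      exact Subtype.ext (by simpa using hexp g g.2)
    have hpN : p ∣ Nat.card N := by
      obtain ⟨k, hk⟩ := IsPGroup.iff_card.mp hNp
      have hk0 : k ≠ 0 := by
        rintro rfl
        rw [pow_zero] at hk
        exact hNne (Subgroup.eq_bot_of_card_eq N hk)
      rw [hk]; exact dvd_pow_self p hk0
    have hpG : p ∣ Nat.card G := hpN.trans (Subgroup.card_subgroup_dvd_card N)
    by_cases hcase : ∃ M : Subgroup G, IsCoatom M ∧ ¬ N ≤ M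
    · obtain ⟨M, hM, hNM⟩ := hcase
      refine ⟨p, hp, hpG, ?_⟩
      have hsup : M ⊔ N = ⊤ := by
        by_contra hne
        have h1 : M < M ⊔ N :=
          lt_of_le_of_ne le_sup_left (fun h' => hNM (by rw [h']; exact le_sup_right))
        exact hne (hM.2 _ h1)
      have hcardeq := card_sup_mul_card_inf M N (by rw [Subgroup.normalizer_eq_top]; exact le_top)
      rw [hsup, Subgroup.card_top] at hcardeq
      have hMi := Subgroup.card_mul_index M
      have hNi := Subgroup.card_mul_index N
      have h1 : M.index * Nat.card (M ⊓ N : Subgroup G) = Nat.card N := by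
        have : Nat.card M * (M.index * Nat.card (M ⊓ N : Subgroup G)) =
            Nat.card M * Nat.card N := by
          rw [← mul_assoc, hMi]; exact hcardeq
        exact Nat.eq_of_mul_eq_mul_left Nat.card_pos this
      have h2 : N.index * Nat.card (M ⊓ N : Subgroup G) = Nat.card M := by
        have : Nat.card N * (N.index * Nat.card (M ⊓ N : Subgroup G)) =
            Nat.card N * Nat.card M := by
          rw [← mul_assoc, hNi, mul_comm (Nat.card N)]; exact hcardeq
        exact Nat.eq_of_mul_eq_mul_left Nat.card_pos this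
      have hMidx1 : M.index ≠ 1 := fun h' => hM.1 (Subgroup.index_eq_one.mp h')
      have hpM : p ∣ M.index := by
        obtain ⟨k, hk⟩ := IsPGroup.iff_card.mp hNp
        have hdvd : M.index ∣ p ^ k := by rw [← hk]; exact Dvd.intro _ h1
        obtain ⟨i, -, hi⟩ := (Nat.dvd_prime_pow hp).mp hdvd
        have hi0 : i ≠ 0 := by rintro rfl; exact hMidx1 (by rw [hi, pow_zero])
        rw [hi]; exact dvd_pow_self p hi0
      have hpM' : ¬ p ∣ Nat.card M := by
        intro hd
        have h3 : p ∣ Nat.gcd (Nat.card M) M.index := Nat.dvd_gcd hd hpM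
        rw [(h M hM).gcd_eq_one] at h3
        exact hp.one_lt.ne' (Nat.dvd_one.mp h3)
      have hpNidx : ¬ p ∣ N.index := fun hd => hpM' (hd.trans (Dvd.intro _ h2))
      intro P
      have hPN : (P : Subgroup G) = ((hNp.toSylow hpNidx : Sylow p G) : Subgroup G) := by
        haveI : ((hNp.toSylow hpNidx : Sylow p G) : Subgroup G).Normal := hNn
        obtain ⟨g, hg⟩ := MulAction.exists_smul_eq G (hNp.toSylow hpNidx) P
        rw [Sylow.smul_eq_of_normal] at hg
        rw [hg]
      rw [hPN]; exact hNn
    · push_neg at hcase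
      have hNtop : N ≠ ⊤ := by
        intro htop
        obtain ⟨M, hM⟩ : ∃ M : Subgroup G, IsCoatom M := by
          rcases eq_top_or_exists_le_coatom (⊥ : Subgroup G) with h' | ⟨M, hM, -⟩
          · exact absurd h' bot_ne_top
          · exact ⟨M, hM⟩
        exact hM.1 (top_le_iff.mp (htop ▸ hcase M hM))
      haveI : Nontrivial (G ⧸ N) := by
        rw [← Finite.one_lt_card_iff_nontrivial]
        have h1 : Nat.card (G ⧸ N) = N.index := (Subgroup.index_eq_card N).symm
        have h2 : N.index ≠ 1 := fun h' => hNtop (Subgroup.index_eq_one.mp h')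
        have h3 : N.index ≠ 0 := Subgroup.index_ne_zero_of_finite
        omega
      have hlt : Nat.card (G ⧸ N) < c := by
        rw [← hc]; exact Cfsg.Agent.Helper1.card_quotient_lt_of_ne_bot N hNne
      have hq := ih _ hlt (G ⧸ N) rfl (by
        intro M' hM'
        have hco := isCoatom_comap_mk N M' hM'
        have h1 := h _ hco
        rw [Subgroup.index_comap_of_surjective M' (QuotientGroup.mk'_surjective N),
          card_comap_mk'] at h1
        exact Nat.Coprime.coprime_dvd_left (Dvd.intro _ rfl) h1)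
      obtain ⟨q, hqp, hqd, hqn⟩ := hq
      haveI : Fact q.Prime := ⟨hqp⟩
      refine ⟨q, hqp, hqd.trans (Subgroup.card_quotient_dvd_card N), ?_⟩
      intro Q
      have hSn : ((Q : Subgroup G).map (QuotientGroup.mk' N)).Normal :=
        hqn (Q.mapSurjective (QuotientGroup.mk'_surjective N))
      have hS : ((Q : Subgroup G) ⊔ N).Normal := by
        have := hSn.comap (QuotientGroup.mk' N)
        rwa [Subgroup.comap_map_eq, QuotientGroup.ker_mk'] at this
      haveI := hS
      have hfr := Sylow.normalizer_sup_eq_top' Q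
        (le_sup_left : (Q : Subgroup G) ≤ (Q : Subgroup G) ⊔ N)
      by_contra hQn
      have hNQ : Subgroup.normalizer ((Q : Subgroup G) : Set G) ≠ ⊤ :=
        fun h' => hQn (Subgroup.normalizer_eq_top_iff.mp h')
      rcases eq_top_or_exists_le_coatom (Subgroup.normalizer ((Q : Subgroup G) : Set G)) with
        h' | ⟨M, hM, hle⟩
      · exact hNQ h'
      · apply hM.1
        rw [eq_top_iff, ← hfr]
        exact sup_le hle (sup_le (Subgroup.le_normalizer.trans hle) (hcase M hM))

end Cfsg.Agent.Helper4
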