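import Mathlib
import Cfsg.Agent.Helper1.Basic
import Cfsg.Agent.Helper1.Coprime
import Cfsg.Agent.Helper1.Hall
import Cfsg.Agent.Helper4.CardMul
import Cfsg.Agent.Helper4.SysNorm2

set_option autoImplicit false

namespace Cfsg.Agent.Helper4

open scoped Pointwise

/-- In a solvable group `G = HK`, Hall subgroups `A`, `B` normalized by `H`, `K` respectively
have a product set that is a subgroup. -/
theorem hall_mul_subgroup {G : Type*} [Group G] [Finite G] [Group.IsSolvable G]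
    (H K A B : Subgroup G) (hHK : ∀ g : G, ∃ h ∈ H, ∃ k ∈ K, g = h * k)
    (hHA : ∀ h ∈ H, MulAut.conj h • A = A) (hKB : ∀ k ∈ K, MulAut.conj k • B = B)
    (hAh : (Nat.card A).Coprime A.index) (hBh : (Nat.card B).Coprime B.index) :
    ∃ S : Subgroup G, (S : Set G) = (A : Set G) * (B : Set G) := by
  classical
  have hA1 := Subgroup.card_mul_index A
  have hB1 := Subgroup.card_mul_index B
  obtain ⟨m, hm⟩ : ∃ m, m = Nat.lcm (Nat.card A) (Nat.card B) := ⟨_, rfl⟩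
  have hAm : Nat.card A ∣ m := by rw [hm]; exact Nat.dvd_lcm_left _ _
  have hBm : Nat.card B ∣ m := by rw [hm]; exact Nat.dvd_lcm_right _ _
  have hmG : m ∣ Nat.card G := by
    rw [hm]
    exact Nat.lcm_dvd (Subgroup.card_subgroup_dvd_card A) (Subgroup.card_subgroup_dvd_card B)
  obtain ⟨n, hn⟩ := hmG
  have hcop : m.Coprime n := by
    apply Nat.coprime_of_dvd
    intro r hr hrm hrn
    have h1 : r ∣ Nat.card A * Nat.card B := hrm.trans (by rw [hm]; exact Nat.lcm_dvd_mul _ _)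
    rcases (Nat.Prime.dvd_mul hr).mp h1 with h | h
    · obtain ⟨c, hc⟩ := hAm
      have h2 : A.index = c * n := by
        have h0 : Nat.card A * A.index = Nat.card A * (c * n) := by
          rw [hA1, hn, hc, mul_assoc]
        exact Nat.eq_of_mul_eq_mul_left Nat.card_pos h0
      have h3 : r ∣ A.index := by rw [h2]; exact Dvd.dvd.mul_left hrn c
      exact hr.one_lt.ne' (Nat.eq_one_of_dvd_coprimes hAh h h3)
    · obtain ⟨c, hc⟩ := hBm
      have h2 : B.index = c * n := by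
        have h0 : Nat.card B * B.index = Nat.card B * (c * n) := by
          rw [hB1, hn, hc, mul_assoc]
        exact Nat.eq_of_mul_eq_mul_left Nat.card_pos h0
      have h3 : r ∣ B.index := by rw [h2]; exact Dvd.dvd.mul_left hrn c
      exact hr.one_lt.ne' (Nat.eq_one_of_dvd_coprimes hBh h h3)
  obtain ⟨L₁, hL₁, hAL⟩ := Cfsg.Agent.Helper1.hall_dominance m n hn hcop A
    (Nat.Coprime.coprime_dvd_left hAm hcop)
  obtain ⟨L₂, hL₂, hBL⟩ := Cfsg.Agent.Helper1.hall_dominance m n hn hcop B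
    (Nat.Coprime.coprime_dvd_left hBm hcop)
  obtain ⟨g, hg⟩ := Cfsg.Agent.Helper1.hall_conj m n hn hcop L₁ L₂ hL₁ hL₂
  obtain ⟨h', hh', k', hk', hgk⟩ := hHK g⁻¹
  obtain ⟨L', hL'⟩ : ∃ L' : Subgroup G, L' = MulAut.conj h'⁻¹ • L₁ := ⟨_, rfl⟩
  have hL'm : Nat.card L' = m := by
    rw [hL', Cfsg.Agent.Helper1.card_conj_smul]; exact hL₁
  have hAL' : A ≤ L' := by
    intro a ha
    rw [hL', Cfsg.Agent.Helper1.mem_conj_smul, inv_inv]
    apply hAL
    have h1 : h' * a * h'⁻¹ ∈ MulAut.conj h' • A := Cfsg.Agent.Helper1.conj_mem_conj_smul ha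
    rw [hHA h' hh'] at h1
    exact h1
  have hBL' : B ≤ L' := by
    intro b hb
    rw [hL', Cfsg.Agent.Helper1.mem_conj_smul, inv_inv]
    have h1 : k'⁻¹ * b * k'⁻¹⁻¹ ∈ MulAut.conj k'⁻¹ • B :=
      Cfsg.Agent.Helper1.conj_mem_conj_smul hb
    rw [hKB k'⁻¹ (K.inv_mem hk'), inv_inv] at h1
    have h2 : k'⁻¹ * b * k' ∈ MulAut.conj g • L₁ := by rw [hg]; exact hBL h1
    rw [Cfsg.Agent.Helper1.mem_conj_smul] at h2
    have hh'e : h' = g⁻¹ * k'⁻¹ := by rw [hgk]; group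
    have e : h' * b * h'⁻¹ = g⁻¹ * (k'⁻¹ * b * k') * g := by
      rw [hh'e]; group
    rw [e]; exact h2
  have hsub : (A : Set G) * (B : Set G) ⊆ (L' : Set G) := by
    intro s hs
    obtain ⟨a, ha, b, hb, rfl⟩ := Set.mem_mul.mp hs
    exact L'.mul_mem (hAL' ha) (hBL' hb)
  have hP : m ≤ Nat.card ((A : Set G) * (B : Set G) : Set G) := by
    have h1 := card_mul_card_eq A B
    have hd : Nat.card (A ⊓ B : Subgroup G) ∣ Nat.gcd (Nat.card A) (Nat.card B) :=
      Nat.dvd_gcd (Subgroup.card_dvd_of_le inf_le_left) (Subgroup.card_dvd_of_le inf_le_right)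
    obtain ⟨e, he⟩ := hd
    have h2 : Nat.gcd (Nat.card A) (Nat.card B) * m = Nat.card A * Nat.card B := by
      rw [hm]; exact Nat.gcd_mul_lcm _ _
    have hgpos : 0 < Nat.gcd (Nat.card A) (Nat.card B) := Nat.gcd_pos_of_pos_left _ Nat.card_pos
    have hdpos : 0 < Nat.card (A ⊓ B : Subgroup G) := Nat.card_pos
    have hepos : 0 < e := by
      rcases Nat.eq_zero_or_pos e with h | h
      · rw [h, mul_zero] at he; omega
      · exact h
    have h3 : Nat.card ((A : Set G) * (B : Set G) : Set G) * Nat.card (A ⊓ B : Subgroup G)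
        = (e * m) * Nat.card (A ⊓ B : Subgroup G) := by
      rw [← h1, ← h2, he]; ring
    have h4 := Nat.eq_of_mul_eq_mul_right hdpos h3
    rw [h4]
    exact Nat.le_mul_of_pos_left m hepos
  refine ⟨L', ?_⟩
  have hL'card : (L' : Set G).ncard = m := by
    rw [← Nat.card_coe_set_eq]; exact hL'm
  have hPc : m ≤ ((A : Set G) * (B : Set G)).ncard := by
    rw [← Nat.card_coe_set_eq]; exact hP
  exact (Set.eq_of_subset_of_ncard_le hsub (by rw [hL'card]; exact hPc) (Set.toFinite _)).symm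

/-- S0561. -/
theorem hall_conj_mul_subgroup {G : Type*} [Group G] [Finite G] [Group.IsSolvable G]
    (H K A B : Subgroup G) (hHK : ∀ g : G, ∃ h ∈ H, ∃ k ∈ K, g = h * k) (hA : A ≤ H)
    (hAn : (A.subgroupOf H).Normal) (hB : B ≤ K) (hBn : (B.subgroupOf K).Normal)
    (hAh : (Nat.card A).Coprime A.index) (hBh : (Nat.card B).Coprime B.index) (x y : G) :
    ∃ S : Subgroup G, (S : Set G) = ((MulAut.conj x • A : Subgroup G) : Set G) *
      ((MulAut.conj y • B : Subgroup G) : Set G) := by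
  have hHA' : H ≤ Subgroup.normalizer (A : Set G) :=
    (Subgroup.normal_subgroupOf_iff_le_normalizer hA).mp hAn
  have hKB' : K ≤ Subgroup.normalizer (B : Set G) :=
    (Subgroup.normal_subgroupOf_iff_le_normalizer hB).mp hBn
  have hHA : ∀ h ∈ H, MulAut.conj h • A = A := fun h hh =>
    (mem_normalizer_iff_conj_smul_eq A h).mp (hHA' hh)
  have hKB : ∀ k ∈ K, MulAut.conj k • B = B := fun k hk =>
    (mem_normalizer_iff_conj_smul_eq B k).mp (hKB' hk)
  obtain ⟨L, hL⟩ := hall_mul_subgroup H K A B hHK hHA hKB hAh hBh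
  obtain ⟨h₀, hh₀, k₀, hk₀, hxy⟩ := hHK (x⁻¹ * y)
  have hxe : MulAut.conj x • A = MulAut.conj (x * h₀) • A := by
    rw [← Cfsg.Agent.Helper1.conj_smul_smul, hHA h₀ hh₀]
  have hye : MulAut.conj y • B = MulAut.conj (x * h₀) • B := by
    have hy : y = x * h₀ * k₀ := by
      have h1 : y = x * (x⁻¹ * y) := by group
      rw [h1, hxy]; group
    rw [hy, ← Cfsg.Agent.Helper1.conj_smul_smul (x * h₀) k₀, hKB k₀ hk₀]
  refine ⟨MulAut.conj (x * h₀) • L, ?_⟩
  rw [hxe, hye]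
  ext s
  constructor
  · intro hs
    have h1 : (x * h₀)⁻¹ * s * (x * h₀) ∈ (L : Set G) := Cfsg.Agent.Helper1.mem_conj_smul.mp hs
    rw [hL] at h1
    obtain ⟨a, ha, b, hb, hab⟩ := Set.mem_mul.mp h1
    refine Set.mem_mul.mpr ⟨(x * h₀) * a * (x * h₀)⁻¹,
      Cfsg.Agent.Helper1.conj_mem_conj_smul ha, (x * h₀) * b * (x * h₀)⁻¹,
      Cfsg.Agent.Helper1.conj_mem_conj_smul hb, ?_⟩
    calc (x * h₀) * a * (x * h₀)⁻¹ * ((x * h₀) * b * (x * h₀)⁻¹)
        = (x * h₀) * (a * b) * (x * h₀)⁻¹ := by group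
      _ = (x * h₀) * ((x * h₀)⁻¹ * s * (x * h₀)) * (x * h₀)⁻¹ := by rw [hab]
      _ = s := by group
  · intro hs
    obtain ⟨a, ha, b, hb, rfl⟩ := Set.mem_mul.mp hs
    have ha' : (x * h₀)⁻¹ * a * (x * h₀) ∈ A := Cfsg.Agent.Helper1.mem_conj_smul.mp ha
    have hb' : (x * h₀)⁻¹ * b * (x * h₀) ∈ B := Cfsg.Agent.Helper1.mem_conj_smul.mp hb
    have h1 : (x * h₀)⁻¹ * (a * b) * (x * h₀) ∈ (L : Set G) := by
      rw [hL]
      refine Set.mem_mul.mpr ⟨_, ha', _, hb', ?_⟩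
      group
    exact Cfsg.Agent.Helper1.mem_conj_smul.mpr h1

end Cfsg.Agent.Helper4
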