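import Mathlib

set_option autoImplicit false

namespace Cfsg.Agent.Helper4

open scoped commutatorElement

theorem comm_mul_right_of_commute {G : Type*} [Group G] (x y z : G) (h : x * z = z * x) :
    ⁅x, y * z⁆ = ⁅x, y⁆ := by
  rw [commutatorElement_def, commutatorElement_def]
  have h' : z * x⁻¹ = x⁻¹ * z := by
    calc z * x⁻¹ = x⁻¹ * (x * z) * x⁻¹ := by group
      _ = x⁻¹ * (z * x) * x⁻¹ := by rw [h]
      _ = x⁻¹ * z := by group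
  calc x * (y * z) * x⁻¹ * (y * z)⁻¹ = x * y * (z * x⁻¹) * z⁻¹ * y⁻¹ := by group
    _ = x * y * (x⁻¹ * z) * z⁻¹ * y⁻¹ := by rw [h']
    _ = x * y * x⁻¹ * y⁻¹ := by group

theorem comm_mul_left_of_commute {G : Type*} [Group G] (x y z : G) (h : y * z = z * y) :
    ⁅x * y, z⁆ = ⁅x, z⁆ := by
  rw [commutatorElement_def, commutatorElement_def]
  calc x * y * z * (x * y)⁻¹ * z⁻¹ = x * (y * z) * y⁻¹ * x⁻¹ * z⁻¹ := by group
    _ = x * (z * y) * y⁻¹ * x⁻¹ * z⁻¹ := by rw [h]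
    _ = x * z * x⁻¹ * z⁻¹ := by group

theorem conj_comm_elt {G : Type*} [Group G] (g x y : G) :
    g * ⁅x, y⁆ * g⁻¹ = ⁅g * x * g⁻¹, g * y * g⁻¹⁆ := by
  rw [commutatorElement_def, commutatorElement_def]; group

theorem ito_conj {G : Type*} [Group G] (A B : Subgroup G) [IsMulCommutative A]
    [IsMulCommutative B] {a α a1 a2 b β b1 b2 : G} (ha : a ∈ A) (hα : α ∈ A) (ha1 : a1 ∈ A)
    (ha2 : a2 ∈ A) (hb : b ∈ B) (hβ : β ∈ B) (hb1 : b1 ∈ B) (hb2 : b2 ∈ B)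
    (e1 : α * b * α⁻¹ = b1 * a1) (e2 : β * a * β⁻¹ = a2 * b2) :
    (β * α) * ⁅a, b⁆ * (β * α)⁻¹ = ⁅a2, b1⁆ ∧ (α * β) * ⁅a, b⁆ * (α * β)⁻¹ = ⁅a2, b1⁆ := by
  have cA : ∀ {x y : G}, x ∈ A → y ∈ A → x * y = y * x := fun hx hy => setLike_mul_comm hx hy
  have cB : ∀ {x y : G}, x ∈ B → y ∈ B → x * y = y * x := fun hx hy => setLike_mul_comm hx hy
  have hαa : α * a * α⁻¹ = a := by rw [cA hα ha]; group
  have hαa2 : α * a2 * α⁻¹ = a2 := by rw [cA hα ha2]; group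
  have hβb : β * b * β⁻¹ = b := by rw [cB hβ hb]; group
  have hβb1 : β * b1 * β⁻¹ = b1 := by rw [cB hβ hb1]; group
  constructor
  · calc (β * α) * ⁅a, b⁆ * (β * α)⁻¹ = β * (α * ⁅a, b⁆ * α⁻¹) * β⁻¹ := by group
      _ = β * ⁅a, b1 * a1⁆ * β⁻¹ := by rw [conj_comm_elt, hαa, e1]
      _ = β * ⁅a, b1⁆ * β⁻¹ := by rw [comm_mul_right_of_commute _ _ _ (cA ha ha1)]
      _ = ⁅a2 * b2, b1⁆ := by rw [conj_comm_elt, e2, hβb1]
      _ = ⁅a2, b1⁆ := comm_mul_left_of_commute _ _ _ (cB hb2 hb1)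
  · calc (α * β) * ⁅a, b⁆ * (α * β)⁻¹ = α * (β * ⁅a, b⁆ * β⁻¹) * α⁻¹ := by group
      _ = α * ⁅a2 * b2, b⁆ * α⁻¹ := by rw [conj_comm_elt, e2, hβb]
      _ = α * ⁅a2, b⁆ * α⁻¹ := by rw [comm_mul_left_of_commute _ _ _ (cB hb2 hb)]
      _ = ⁅a2, b1 * a1⁆ := by rw [conj_comm_elt, hαa2, e1]
      _ = ⁅a2, b1⁆ := comm_mul_right_of_commute _ _ _ (cA ha2 ha1)

theorem ito_commute {G : Type*} [Group G] (A B : Subgroup G) [IsMulCommutative A]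
    [IsMulCommutative B] (hAB : ∀ g : G, ∃ a ∈ A, ∃ b ∈ B, g = a * b) {a α b β : G}
    (ha : a ∈ A) (hα : α ∈ A) (hb : b ∈ B) (hβ : β ∈ B) : Commute ⁅a, b⁆ ⁅α, β⁆ := by
  have hBA : ∀ g : G, ∃ b ∈ B, ∃ a ∈ A, g = b * a := by
    intro g
    obtain ⟨a, ha, b, hb, h⟩ := hAB g⁻¹
    refine ⟨b⁻¹, B.inv_mem hb, a⁻¹, A.inv_mem ha, ?_⟩
    rw [← mul_inv_rev, ← h, inv_inv]
  obtain ⟨b1, hb1, a1, ha1, e1⟩ := hBA (α⁻¹ * b * α⁻¹⁻¹)
  obtain ⟨a2, ha2, b2, hb2, e2⟩ := hAB (β⁻¹ * a * β⁻¹⁻¹)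
  obtain ⟨h1, h2⟩ := ito_conj A B ha (A.inv_mem hα) ha1 ha2 hb (B.inv_mem hβ) hb1 hb2 e1 e2
  have h := h1.trans h2.symm
  have e : ⁅β, α⁆ = (α⁻¹ * β⁻¹)⁻¹ * (β⁻¹ * α⁻¹) := by rw [commutatorElement_def]; group
  have hc : Commute ⁅β, α⁆ ⁅a, b⁆ := by
    show ⁅β, α⁆ * ⁅a, b⁆ = ⁅a, b⁆ * ⁅β, α⁆
    rw [e]
    generalize ⁅a, b⁆ = c at h ⊢
    generalize (α⁻¹ * β⁻¹) = v at h ⊢
    generalize (β⁻¹ * α⁻¹) = u at h ⊢
    calc v⁻¹ * u * c = v⁻¹ * (u * c * u⁻¹) * u := by group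
      _ = v⁻¹ * (v * c * v⁻¹) * u := by rw [h]
      _ = c * (v⁻¹ * u) := by group
  have : ⁅α, β⁆ = ⁅β, α⁆⁻¹ := (commutatorElement_inv β α).symm
  rw [this]
  exact hc.symm.inv_right

/-- **Itô's theorem**: a product of two abelian subgroups is metabelian. -/
theorem ito {G : Type*} [Group G] (A B : Subgroup G) [IsMulCommutative A] [IsMulCommutative B]
    (hAB : ∀ g : G, ∃ a ∈ A, ∃ b ∈ B, g = a * b) : derivedSeries G 2 = ⊥ := by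
  have hN_comm : ⁅(⁅A, B⁆ : Subgroup G), ⁅A, B⁆⁆ = ⊥ := by
    rw [Subgroup.commutator_eq_bot_iff_le_centralizer]
    have hS : ∀ s ∈ {g | ∃ g₁ ∈ A, ∃ g₂ ∈ B, ⁅g₁, g₂⁆ = g},
        ∀ t ∈ {g | ∃ g₁ ∈ A, ∃ g₂ ∈ B, ⁅g₁, g₂⁆ = g}, s * t = t * s := by
      rintro _ ⟨a, ha, b, hb, rfl⟩ _ ⟨α, hα, β, hβ, rfl⟩
      exact (ito_commute A B hAB ha hα hb hβ).eq
    rw [Subgroup.commutator_def, Subgroup.closure_le]
    intro s hs
    rw [SetLike.mem_coe, Subgroup.mem_centralizer_iff]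
    intro x hx
    have hle : Subgroup.closure {g | ∃ g₁ ∈ A, ∃ g₂ ∈ B, ⁅g₁, g₂⁆ = g}
        ≤ Subgroup.centralizer {s} := by
      rw [Subgroup.closure_le]
      intro t ht
      rw [SetLike.mem_coe, Subgroup.mem_centralizer_iff]
      intro y hy
      rw [Set.mem_singleton_iff] at hy
      subst hy
      exact hS y hs t ht
    have := hle hx
    rw [Subgroup.mem_centralizer_iff] at this
    exact (this s rfl).symm
  haveI hnorm : (⁅A, B⁆ : Subgroup G).Normal := by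
    rw [← Subgroup.normalizer_eq_top_iff, eq_top_iff]
    intro g _
    obtain ⟨a, ha, b, hb, rfl⟩ := hAB g
    exact Subgroup.mul_mem _ (Subgroup.normalizer_commutator_ge_left A B ha)
      (Subgroup.normalizer_commutator_ge_right A B hb)
  have hπ : ∀ a ∈ A, ∀ b ∈ B, Commute (QuotientGroup.mk' ⁅A, B⁆ a) (QuotientGroup.mk' ⁅A, B⁆ b) := by
    intro a ha b hb
    rw [← commutatorElement_eq_one_iff_commute, ← map_commutatorElement]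
    exact (QuotientGroup.eq_one_iff _).mpr (Subgroup.commutator_mem_commutator ha hb)
  have hcomm : ∀ g1 g2 : G,
      Commute (QuotientGroup.mk' ⁅A, B⁆ g1) (QuotientGroup.mk' ⁅A, B⁆ g2) := by
    intro g1 g2
    obtain ⟨a1, ha1, b1, hb1, rfl⟩ := hAB g1
    obtain ⟨a2, ha2, b2, hb2, rfl⟩ := hAB g2
    rw [map_mul, map_mul]
    have hA12 : Commute (QuotientGroup.mk' ⁅A, B⁆ a1) (QuotientGroup.mk' ⁅A, B⁆ a2) :=
      Commute.map (setLike_mul_comm ha1 ha2 : a1 * a2 = a2 * a1) _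
    have hB12 : Commute (QuotientGroup.mk' ⁅A, B⁆ b1) (QuotientGroup.mk' ⁅A, B⁆ b2) :=
      Commute.map (setLike_mul_comm hb1 hb2 : b1 * b2 = b2 * b1) _
    exact (Commute.mul_right hA12 (hπ a1 ha1 b2 hb2)).mul_left
      (Commute.mul_right (hπ a2 ha2 b1 hb1).symm hB12)
  have hder : ⁅(⊤ : Subgroup G), ⊤⁆ ≤ ⁅A, B⁆ := by
    rw [Subgroup.commutator_le]
    intro g1 _ g2 _
    rw [← QuotientGroup.eq_one_iff (N := ⁅A, B⁆)]
    have := commutatorElement_eq_one_iff_commute.mpr (hcomm g1 g2)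
    rw [← map_commutatorElement] at this
    exact this
  show ⁅⁅(⊤ : Subgroup G), ⊤⁆, ⁅(⊤ : Subgroup G), ⊤⁆⁆ = ⊥
  rw [eq_bot_iff, ← hN_comm]
  exact Subgroup.commutator_mono hder hder

end Cfsg.Agent.Helper4
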