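import Mathlib
import Cfsg.Agent.Helper1.SZ
import Cfsg.Agent.Helper4.Ito
import Cfsg.Agent.Helper4.SolvPrim
import Cfsg.Agent.Helper4.CardMul
import Cfsg.Agent.Helper4.CLTHered2
import Cfsg.Agent.Helper4.Supersolvable

set_option autoImplicit false
set_option maxHeartbeats 1600000

namespace Cfsg.Agent.Helper4

universe u

open scoped commutatorElement
open scoped Pointwise

/-- Itô: a nontrivial finite product of two abelian subgroups has a nontrivial normal subgroup
contained in one of the factors. -/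
theorem ito_normal_in_factor {G : Type*} [Group G] [Finite G] [Nontrivial G] (A B : Subgroup G)
    [IsMulCommutative A] [IsMulCommutative B] (hAB : ∀ g : G, ∃ a ∈ A, ∃ b ∈ B, g = a * b) :
    ∃ N : Subgroup G, N.Normal ∧ N ≠ ⊥ ∧ (N ≤ A ∨ N ≤ B) := by
  by_contra hcon
  have hno : ∀ N : Subgroup G, N.Normal → (N ≤ A ∨ N ≤ B) → N = ⊥ := by
    intro N hN hle
    by_contra hne
    exact hcon ⟨N, hN, hne, hle⟩
  have cA : ∀ x ∈ A, ∀ y ∈ A, x * y = y * x := fun x hx y hy => setLike_mul_comm hx hy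
  have cB : ∀ x ∈ B, ∀ y ∈ B, x * y = y * x := fun x hx y hy => setLike_mul_comm hx hy
  have hcentN : ∀ K : Subgroup G, K ≤ Subgroup.center G → K.Normal := by
    intro K hK
    constructor
    intro n hn g
    have := Subgroup.mem_center_iff.mp (hK hn) g
    rw [this, mul_inv_cancel_right]; exact hn
  have hZA : ∀ z ∈ Subgroup.center G, z ∈ A → z = 1 := by
    intro z hz hzA
    have h1 := hno (Subgroup.center G ⊓ A) (hcentN _ inf_le_left) (Or.inl inf_le_right)
    have : z ∈ Subgroup.center G ⊓ A := ⟨hz, hzA⟩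
    rw [h1] at this
    exact Subgroup.mem_bot.mp this
  have hZB : ∀ z ∈ Subgroup.center G, z ∈ B → z = 1 := by
    intro z hz hzB
    have h1 := hno (Subgroup.center G ⊓ B) (hcentN _ inf_le_left) (Or.inr inf_le_right)
    have : z ∈ Subgroup.center G ⊓ B := ⟨hz, hzB⟩
    rw [h1] at this
    exact Subgroup.mem_bot.mp this
  have hcent : ∀ x : G, (∀ α ∈ A, α * x = x * α) → (∀ β ∈ B, β * x = x * β) →
      x ∈ Subgroup.center G := by
    intro x hxA hxB
    rw [Subgroup.mem_center_iff]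
    intro g
    obtain ⟨α, hα, β, hβ, rfl⟩ := hAB g
    rw [mul_assoc, hxB β hβ, ← mul_assoc, hxA α hα, mul_assoc]
  have hAB1 : ∀ x, x ∈ A → x ∈ B → x = 1 := by
    intro x hxA hxB
    exact hZA x (hcent x (fun α hα => cA α hα x hxA) (fun β hβ => cB β hβ x hxB)) hxA
  have hZ : ∀ z ∈ Subgroup.center G, z = 1 := by
    intro z hz
    obtain ⟨α, hα, β, hβ, rfl⟩ := hAB z
    have hzc := Subgroup.mem_center_iff.mp hz
    have hαc : α ∈ Subgroup.center G := by
      apply hcent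
      · intro α' hα'; exact cA α' hα' α hα
      · intro β' hβ'
        have h1 := hzc β'
        calc β' * α = β' * (α * β) * β⁻¹ := by group
          _ = α * β * β' * β⁻¹ := by rw [h1]
          _ = α * (β * β') * β⁻¹ := by group
          _ = α * (β' * β) * β⁻¹ := by rw [cB β hβ β' hβ']
          _ = α * β' := by group
    have hα1 := hZA α hαc hα
    rw [hα1, one_mul] at hz ⊢
    exact hZB β hz hβ
  -- the derived subgroup is abelian
  have hder : derivedSeries G 2 = ⊥ := ito A B hAB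
  haveI : Group.IsSolvable G := ⟨⟨2, hder⟩⟩
  have hG'comm : ∀ x ∈ commutator G, ∀ y ∈ commutator G, x * y = y * x := by
    intro x hx y hy
    have h1 : ⁅commutator G, commutator G⁆ = ⊥ := by
      have := hder
      rw [derivedSeries_succ, derivedSeries_one] at this
      exact this
    rw [Subgroup.commutator_eq_bot_iff_le_centralizer] at h1
    exact ((Subgroup.mem_centralizer_iff.mp (h1 hx)) y hy).symm
  have hG'ne : commutator G ≠ ⊥ := by
    intro hbot
    obtain ⟨x, hx⟩ := exists_ne (1 : G)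
    apply hx
    apply hZ
    rw [Subgroup.mem_center_iff]
    intro g
    have : ⁅g, x⁆ ∈ commutator G :=
      Subgroup.commutator_mem_commutator (Subgroup.mem_top g) (Subgroup.mem_top x)
    rw [hbot, Subgroup.mem_bot, commutatorElement_eq_one_iff_mul_comm] at this
    exact this
  -- a minimal normal subgroup inside the derived subgroup
  obtain ⟨N, hNmin⟩ := exists_minimal_of_wellFoundedLT
    (fun K : Subgroup G => K.Normal ∧ K ≠ ⊥ ∧ K ≤ commutator G)
    ⟨commutator G, inferInstance, hG'ne, le_rfl⟩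
  obtain ⟨hNn, hNne, hNle⟩ := hNmin.prop
  haveI := hNn
  have hmin : ∀ K : Subgroup G, K.Normal → K ≤ N → K = ⊥ ∨ K = N := by
    intro K hKn hKle
    by_cases hK : K = ⊥
    · exact Or.inl hK
    · exact Or.inr (le_antisymm hKle (hNmin.le_of_le ⟨hKn, hK, hKle.trans hNle⟩ hKle))
  obtain ⟨p, hp, -, hexp⟩ := minNormal_elemAbelian N hNne hmin
  haveI : Fact p.Prime := ⟨hp⟩
  have hNp : IsPGroup p N := by
    intro g
    refine ⟨1, ?_⟩
    rw [pow_one]
    exact Subtype.ext (by simpa using hexp g g.2)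
  have hpN : p ∣ Nat.card N := by
    obtain ⟨k, hk⟩ := IsPGroup.iff_card.mp hNp
    have hk0 : k ≠ 0 := by
      rintro rfl
      rw [pow_zero] at hk
      exact hNne (Subgroup.eq_bot_of_card_eq N hk)
    rw [hk]; exact dvd_pow_self p hk0
  -- the centralizer of N
  obtain ⟨C, hCdef⟩ : ∃ C : Subgroup G, C = Subgroup.centralizer (N : Set G) := ⟨_, rfl⟩
  have hCn : C.Normal := by rw [hCdef]; infer_instance
  have hCmem : ∀ x : G, x ∈ C ↔ ∀ n ∈ N, n * x = x * n := by
    intro x; rw [hCdef, Subgroup.mem_centralizer_iff]; exact Iff.rfl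
  have hG'C : commutator G ≤ C := by
    intro x hx
    rw [hCmem]
    intro n hn
    exact hG'comm n (hNle hn) x hx
  have hNC : N ≤ C := hNle.trans hG'C
  -- elements outside C act fixed point freely on N
  have hfpf : ∀ g : G, g ∉ C → ∀ n ∈ N, g * n = n * g → n = 1 := by
    intro g hg n hn hgn
    have hKn : (N ⊓ Subgroup.centralizer ({g} : Set G)).Normal := by
      constructor
      intro x hx h
      rw [Subgroup.mem_inf] at hx ⊢
      refine ⟨hNn.conj_mem x hx.1 h, ?_⟩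
      rw [Subgroup.mem_centralizer_iff]
      intro y hy
      rw [Set.mem_singleton_iff] at hy
      rw [hy]
      have hgx : g * x = x * g := (Subgroup.mem_centralizer_iff.mp hx.2) g rfl
      have hc : ⁅g⁻¹, h⁻¹⁆ ∈ C := hG'C
        (Subgroup.commutator_mem_commutator (Subgroup.mem_top _) (Subgroup.mem_top _))
      have hcx : x * ⁅g⁻¹, h⁻¹⁆ = ⁅g⁻¹, h⁻¹⁆ * x := (hCmem _).mp hc x hx.1
      rw [commutatorElement_def] at hcx
      calc g * (h * x * h⁻¹)
          = h * g * ((g⁻¹ * h⁻¹ * g⁻¹⁻¹ * h⁻¹⁻¹) * x) * h⁻¹ := by group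
        _ = h * g * (x * (g⁻¹ * h⁻¹ * g⁻¹⁻¹ * h⁻¹⁻¹)) * h⁻¹ := by rw [hcx]
        _ = h * (g * x) * (g⁻¹ * h⁻¹ * g⁻¹⁻¹ * h⁻¹⁻¹) * h⁻¹ := by group
        _ = h * (x * g) * (g⁻¹ * h⁻¹ * g⁻¹⁻¹ * h⁻¹⁻¹) * h⁻¹ := by rw [hgx]
        _ = h * x * h⁻¹ * g := by group
    rcases hmin _ hKn inf_le_left with hK | hK
    · have : n ∈ N ⊓ Subgroup.centralizer ({g} : Set G) := by
        rw [Subgroup.mem_inf, Subgroup.mem_centralizer_iff]
        refine ⟨hn, ?_⟩
        intro y hy
        rw [Set.mem_singleton_iff] at hy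
        rw [hy]
        exact hgn
      rw [hK] at this
      exact Subgroup.mem_bot.mp this
    · exfalso
      apply hg
      rw [hCmem]
      intro m hm
      have : m ∈ N ⊓ Subgroup.centralizer ({g} : Set G) := by rw [hK]; exact hm
      rw [Subgroup.mem_inf, Subgroup.mem_centralizer_iff] at this
      exact (this.2 g rfl).symm
  -- Sylow p-subgroups lie in C
  have hpC : ¬ p ∣ C.index := by
    obtain ⟨P⟩ : Nonempty (Sylow p G) := inferInstance
    have hNP : N ≤ (P : Subgroup G) := hNp.le_sylow_of_normal P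
    letI : MulAction (P : Subgroup G) N :=
      MulAction.compHom N ((MulAut.conjNormal (H := N)).comp (P : Subgroup G).subtype)
    have h1fix : (1 : N) ∈ MulAction.fixedPoints (P : Subgroup G) N := by
      intro x
      show (MulAut.conjNormal (x : G)) (1 : N) = 1
      exact map_one _
    obtain ⟨z, hzfix, hz1⟩ :=
      P.2.exists_fixed_point_of_prime_dvd_card_of_fixed_point N hpN h1fix
    have hPC : (P : Subgroup G) ≤ C := by
      intro x hx
      by_contra hxC
      have h2 : (⟨x, hx⟩ : (P : Subgroup G)) • z = z := hzfix ⟨x, hx⟩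
      have h3 : x * (z : G) * x⁻¹ = z := congrArg (fun w : N => (w : G)) h2
      have h4 : x * (z : G) = z * x := by
        calc x * (z : G) = (x * (z : G) * x⁻¹) * x := by group
          _ = z * x := by rw [h3]
      exact hz1 (Subtype.ext (hfpf x hxC z z.2 h4).symm)
    intro hdvd
    exact P.not_dvd_index (hdvd.trans (Subgroup.index_dvd_of_le hPC))
  -- neither A nor B centralizes N
  have hAC : ¬ A ≤ C := by
    intro hle
    have hNA : ¬ N ≤ A := fun h => hNne (hno N hNn (Or.inl h))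
    obtain ⟨n, hn, hnA⟩ := SetLike.not_le_iff_exists.mp hNA
    obtain ⟨α, hα, β, hβ, rfl⟩ := hAB n
    have hβc : β ∈ Subgroup.center G := by
      apply hcent
      · intro α' hα'
        have h1 : (α * β) * α' = α' * (α * β) := (hCmem α').mp (hle hα') (α * β) hn
        calc α' * β = α⁻¹ * (α * α') * β := by group
          _ = α⁻¹ * (α' * α) * β := by rw [cA α hα α' hα']
          _ = α⁻¹ * (α' * (α * β)) := by group
          _ = α⁻¹ * ((α * β) * α') := by rw [h1]
          _ = β * α' := by group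
      · intro β' hβ'; exact cB β' hβ' β hβ
    have hβ1 := hZ β hβc
    apply hnA
    rw [hβ1, mul_one]; exact hα
  have hBC : ¬ B ≤ C := by
    intro hle
    have hNB : ¬ N ≤ B := fun h => hNne (hno N hNn (Or.inr h))
    obtain ⟨n, hn, hnB⟩ := SetLike.not_le_iff_exists.mp hNB
    obtain ⟨α, hα, β, hβ, rfl⟩ := hAB n
    have hαc : α ∈ Subgroup.center G := by
      apply hcent
      · intro α' hα'; exact cA α' hα' α hα
      · intro β' hβ'
        have h1 : (α * β) * β' = β' * (α * β) := (hCmem β').mp (hle hβ') (α * β) hn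
        calc β' * α = β' * (α * β) * β⁻¹ := by group
          _ = (α * β) * β' * β⁻¹ := by rw [h1]
          _ = α * (β * β') * β⁻¹ := by group
          _ = α * (β' * β) * β⁻¹ := by rw [cB β hβ β' hβ']
          _ = α * β' := by group
    have hα1 := hZ α hαc
    apply hnB
    rw [hα1, one_mul]; exact hβ
  obtain ⟨a', ha'A, ha'C⟩ := SetLike.not_le_iff_exists.mp hAC
  obtain ⟨b', hb'B, hb'C⟩ := SetLike.not_le_iff_exists.mp hBC
  have hNA1 : ∀ n ∈ N, n ∈ A → n = 1 := fun n hn hnA => hfpf a' ha'C n hn (cA a' ha'A n hnA)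
  have hNB1 : ∀ n ∈ N, n ∈ B → n = 1 := fun n hn hnB => hfpf b' hb'C n hn (cB b' hb'B n hnB)
  -- no nontrivial element of A is conjugate to an element of B
  have hconjAB : ∀ x ∈ A, ∀ y ∈ B, ∀ g : G, y = g * x * g⁻¹ → x = 1 := by
    intro x hx y hy g hg
    obtain ⟨α, hα, β, hβ, hgi⟩ := hAB g⁻¹
    have hg' : g = β⁻¹ * α⁻¹ := by rw [← mul_inv_rev, ← hgi, inv_inv]
    have h1 : y = β⁻¹ * x * β := by
      rw [hg, hg']
      calc β⁻¹ * α⁻¹ * x * (β⁻¹ * α⁻¹)⁻¹ = β⁻¹ * (α⁻¹ * (x * α)) * β := by group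
        _ = β⁻¹ * (α⁻¹ * (α * x)) * β := by rw [cA x hx α hα]
        _ = β⁻¹ * x * β := by group
    have h2 : x = y := by
      calc x = β * (β⁻¹ * x * β) * β⁻¹ := by group
        _ = β * y * β⁻¹ := by rw [← h1]
        _ = y * β * β⁻¹ := by rw [cB β hβ y hy]
        _ = y := by group
    exact hAB1 x hx (h2 ▸ hy)
  -- pick a nontrivial element of N
  obtain ⟨n₀, hn₀, hn₀1⟩ : ∃ n₀ ∈ N, n₀ ≠ 1 := by
    by_contra h
    push_neg at h
    exact hNne ((Subgroup.eq_bot_iff_forall N).mpr h)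
  obtain ⟨a, ha, b, hb, hab⟩ := hAB n₀
  rw [hab] at hn₀ hn₀1
  have ha1 : a ≠ 1 := by
    intro h1
    rw [h1, one_mul] at hn₀ hn₀1
    exact hn₀1 (hNB1 b hn₀ hb)
  have haC : a ∈ C := by
    by_contra haC
    have hinj : Function.Injective (fun m : N =>
        (⟨a * m * a⁻¹ * (m : G)⁻¹, N.mul_mem (hNn.conj_mem m m.2 a) (N.inv_mem m.2)⟩ : N)) := by
      intro m m' hmm
      have h1 : a * (m : G) * a⁻¹ * (m : G)⁻¹ = a * (m' : G) * a⁻¹ * (m' : G)⁻¹ :=
        congrArg Subtype.val hmm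
      have h2 : a * ((m' : G)⁻¹ * m) = ((m' : G)⁻¹ * m) * a := by
        calc a * ((m' : G)⁻¹ * m)
            = a * (m' : G)⁻¹ * (a⁻¹ * (a * m * a⁻¹ * (m : G)⁻¹) * m * a) := by group
          _ = a * (m' : G)⁻¹ * (a⁻¹ * (a * m' * a⁻¹ * (m' : G)⁻¹) * m * a) := by rw [h1]
          _ = ((m' : G)⁻¹ * m) * a := by group
      have h3 := hfpf a haC _ (N.mul_mem (N.inv_mem m'.2) m.2) h2
      rw [inv_mul_eq_one] at h3
      exact Subtype.ext h3.symm
    have hsurj := Finite.injective_iff_surjective.mp hinj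
    obtain ⟨m, hm⟩ := hsurj ⟨a * b, hn₀⟩
    have hm' : a * (m : G) * a⁻¹ * (m : G)⁻¹ = a * b := congrArg Subtype.val hm
    have hb' : b = (m : G) * a⁻¹ * (m : G)⁻¹ := by
      calc b = a⁻¹ * (a * b) := by group
        _ = a⁻¹ * (a * (m : G) * a⁻¹ * (m : G)⁻¹) := by rw [hm']
        _ = (m : G) * a⁻¹ * (m : G)⁻¹ := by group
    have := hconjAB a⁻¹ (A.inv_mem ha) b hb (m : G) hb'
    exact ha1 (inv_eq_one.mp this)
  -- conjugates of a lie in N a
  have hβN : ∀ β ∈ B, β * a * β⁻¹ * a⁻¹ ∈ N := by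
    intro β hβ
    have e : β * a * β⁻¹ * a⁻¹ = (β * (a * b) * β⁻¹) * (a * b)⁻¹ := by
      have hbβ : b * β⁻¹ = β⁻¹ * b := by
        calc b * β⁻¹ = β⁻¹ * (β * b) * β⁻¹ := by group
          _ = β⁻¹ * (b * β) * β⁻¹ := by rw [cB β hβ b hb]
          _ = β⁻¹ * b := by group
      calc β * a * β⁻¹ * a⁻¹ = β * a * (β⁻¹ * b) * b⁻¹ * a⁻¹ := by group
        _ = β * a * (b * β⁻¹) * b⁻¹ * a⁻¹ := by rw [hbβ]
        _ = (β * (a * b) * β⁻¹) * (a * b)⁻¹ := by group
    rw [e]; exact N.mul_mem (hNn.conj_mem _ hn₀ β) (N.inv_mem hn₀)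
  have hconjN : ∀ g : G, g * a * g⁻¹ * a⁻¹ ∈ N := by
    intro g
    obtain ⟨α, hα, β, hβ, rfl⟩ := hAB g
    have e : α * β * a * (α * β)⁻¹ * a⁻¹ = α * (β * a * β⁻¹ * a⁻¹) * α⁻¹ := by
      have haα : a * α⁻¹ = α⁻¹ * a := by
        calc a * α⁻¹ = α⁻¹ * (α * a) * α⁻¹ := by group
          _ = α⁻¹ * (a * α) * α⁻¹ := by rw [cA α hα a ha]
          _ = α⁻¹ * a := by group
      calc α * β * a * (α * β)⁻¹ * a⁻¹ = α * (β * a * β⁻¹ * a⁻¹) * (a * α⁻¹) * a⁻¹ := by group
        _ = α * (β * a * β⁻¹ * a⁻¹) * (α⁻¹ * a) * a⁻¹ := by rw [haα]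
        _ = α * (β * a * β⁻¹ * a⁻¹) * α⁻¹ := by group
    rw [e]; exact hNn.conj_mem _ (hβN β hβ) α
  -- the centralizer E of a and the normal subgroup C ⊓ E
  obtain ⟨E, hEdef⟩ : ∃ E : Subgroup G, E = Subgroup.centralizer ({a} : Set G) := ⟨_, rfl⟩
  have hEmem : ∀ x : G, x ∈ E ↔ a * x = x * a := by
    intro x
    rw [hEdef, Subgroup.mem_centralizer_iff]
    constructor
    · intro h; exact h a rfl
    · intro h y hy; rw [Set.mem_singleton_iff] at hy; rw [hy]; exact h
  have hDn : (C ⊓ E).Normal := by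
    constructor
    intro d hd g
    rw [Subgroup.mem_inf] at hd ⊢
    refine ⟨hCn.conj_mem d hd.1 g, ?_⟩
    rw [hEmem]
    have hm := hconjN g⁻¹
    rw [inv_inv] at hm
    have hdm : (g⁻¹ * a * g * a⁻¹) * d = d * (g⁻¹ * a * g * a⁻¹) := (hCmem d).mp hd.1 _ hm
    have hda : a * d = d * a := (hEmem d).mp hd.2
    have key : (g⁻¹ * a * g) * d = d * (g⁻¹ * a * g) := by
      calc (g⁻¹ * a * g) * d = (g⁻¹ * a * g * a⁻¹) * (a * d) := by group
        _ = (g⁻¹ * a * g * a⁻¹) * (d * a) := by rw [hda]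
        _ = ((g⁻¹ * a * g * a⁻¹) * d) * a := by group
        _ = (d * (g⁻¹ * a * g * a⁻¹)) * a := by rw [hdm]
        _ = d * (g⁻¹ * a * g) := by group
    calc a * (g * d * g⁻¹) = g * ((g⁻¹ * a * g) * d) * g⁻¹ := by group
      _ = g * (d * (g⁻¹ * a * g)) * g⁻¹ := by rw [key]
      _ = g * d * g⁻¹ * a := by group
  have hAE : A ≤ E := by
    intro α hα; rw [hEmem]; exact cA a ha α hα
  have hEB : E ⊓ B = C ⊓ B := by
    ext β
    rw [Subgroup.mem_inf, Subgroup.mem_inf]
    constructor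
    · rintro ⟨hβE, hβB⟩
      refine ⟨?_, hβB⟩
      by_contra hβC
      have h1 : β * (a * b) = (a * b) * β := by
        rw [hEmem] at hβE
        calc β * (a * b) = (β * a) * b := by group
          _ = (a * β) * b := by rw [hβE]
          _ = a * (β * b) := by group
          _ = a * (b * β) := by rw [cB β hβB b hb]
          _ = (a * b) * β := by group
      exact hn₀1 (hfpf β hβC (a * b) hn₀ h1)
    · rintro ⟨hβC, hβB⟩
      refine ⟨?_, hβB⟩
      rw [hEmem]
      have h1 : (a * b) * β = β * (a * b) := (hCmem β).mp hβC _ hn₀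
      have hbβinv : b⁻¹ * β = β * b⁻¹ := by
        calc b⁻¹ * β = b⁻¹ * (β * b) * b⁻¹ := by group
          _ = b⁻¹ * (b * β) * b⁻¹ := by rw [cB β hβB b hb]
          _ = β * b⁻¹ := by group
      calc a * β = (a * b) * (b⁻¹ * β) := by group
        _ = (a * b) * (β * b⁻¹) := by rw [hbβinv]
        _ = ((a * b) * β) * b⁻¹ := by group
        _ = (β * (a * b)) * b⁻¹ := by rw [h1]
        _ = β * a := by group
  have hEidx : E.index ∣ C.index := by
    have hprod : ((E : Set G) * (B : Set G) : Set G) = Set.univ := by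
      rw [Set.eq_univ_iff_forall]
      intro g
      obtain ⟨α, hα, β, hβ, rfl⟩ := hAB g
      exact Set.mul_mem_mul (hAE hα) hβ
    have h1 := card_mul_card_eq E B
    rw [hprod, Nat.card_univ, hEB] at h1
    have h2 := Subgroup.card_mul_index E
    have h3 := card_mul_relIndex_of_le (inf_le_right : C ⊓ B ≤ B)
    have h4 : E.index = (C ⊓ B).relIndex B := by
      have : Nat.card E * (Nat.card (C ⊓ B : Subgroup G) * E.index) =
          Nat.card E * (Nat.card (C ⊓ B : Subgroup G) * (C ⊓ B).relIndex B) := by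
        rw [h3, h1, ← h2]; ring
      exact Nat.eq_of_mul_eq_mul_left Nat.card_pos (Nat.eq_of_mul_eq_mul_left Nat.card_pos this)
    rw [h4, Subgroup.inf_relIndex_right]
    exact Subgroup.relIndex_dvd_index_of_normal C B
  have hpE : ¬ p ∣ E.index := fun h => hpC (h.trans hEidx)
  have hpD : ¬ p ∣ (C ⊓ E).index := by
    intro h
    rw [← Subgroup.relIndex_mul_index (inf_le_right : C ⊓ E ≤ E),
      Subgroup.inf_relIndex_right] at h
    rcases (Nat.Prime.dvd_mul hp).mp h with h' | h'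
    · exact hpC (h'.trans (Subgroup.relIndex_dvd_index_of_normal C E))
    · exact hpE h'
  -- the commutator c = [a', b'] centralizes a
  obtain ⟨c, hcdef⟩ : ∃ c : G, c = a' * b' * a'⁻¹ * b'⁻¹ := ⟨_, rfl⟩
  have hcC : c ∈ C := by
    apply hG'C
    have : ⁅a', b'⁆ ∈ commutator G :=
      Subgroup.commutator_mem_commutator (Subgroup.mem_top _) (Subgroup.mem_top _)
    rw [commutatorElement_def] at this
    rw [hcdef]; exact this
  obtain ⟨m, hmdef⟩ : ∃ m : G, m = c * a * c⁻¹ * a⁻¹ := ⟨_, rfl⟩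
  have hmN : m ∈ N := by rw [hmdef]; exact hconjN c
  have hcm : c * m = m * c := ((hCmem c).mp hcC m hmN).symm
  have hpow : ∀ k : ℕ, c ^ k * a * (c ^ k)⁻¹ = m ^ k * a := by
    intro k
    induction k with
    | zero => simp
    | succ k ih =>
      have hcmk : c * m ^ k = m ^ k * c := (Commute.pow_right (show Commute c m from hcm) k).eq
      calc c ^ (k + 1) * a * (c ^ (k + 1))⁻¹ = c * (c ^ k * a * (c ^ k)⁻¹) * c⁻¹ := by
            rw [pow_succ', mul_inv_rev]; simp only [mul_assoc]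
        _ = c * (m ^ k * a) * c⁻¹ := by rw [ih]
        _ = (c * m ^ k) * c⁻¹ * (c * a * c⁻¹ * a⁻¹) * a := by
            simp only [mul_assoc, inv_mul_cancel_left, inv_mul_cancel, mul_one]
        _ = (m ^ k * c) * c⁻¹ * m * a := by rw [hcmk, ← hmdef]
        _ = m ^ (k + 1) * a := by rw [mul_inv_cancel_right, pow_succ]
  have hcpE : c ^ p ∈ C ⊓ E := by
    rw [Subgroup.mem_inf]
    refine ⟨C.pow_mem hcC p, ?_⟩
    rw [hEmem]
    have h1 := hpow p
    rw [hexp m hmN, one_mul] at h1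
    calc a * c ^ p = (c ^ p * a * (c ^ p)⁻¹) * c ^ p := by rw [h1]
      _ = c ^ p * a := by rw [inv_mul_cancel_right]
  haveI := hDn
  have hcidx : c ^ (C ⊓ E).index ∈ C ⊓ E := Subgroup.pow_index_mem (C ⊓ E) c
  have hcD : c ∈ C ⊓ E := by
    have hcop : Nat.gcd p (C ⊓ E).index = 1 := (Nat.Prime.coprime_iff_not_dvd hp).mpr hpD
    have hz : c ^ ((p : ℤ) * Nat.gcdA p (C ⊓ E).index +
        ((C ⊓ E).index : ℤ) * Nat.gcdB p (C ⊓ E).index) ∈ C ⊓ E := by
      rw [zpow_add, zpow_mul, zpow_mul, zpow_natCast, zpow_natCast]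
      exact (C ⊓ E).mul_mem ((C ⊓ E).zpow_mem hcpE _) ((C ⊓ E).zpow_mem hcidx _)
    rw [← Nat.gcd_eq_gcd_ab, hcop, Nat.cast_one, zpow_one] at hz
    exact hz
  have hca : a * c = c * a := (hEmem c).mp (Subgroup.mem_inf.mp hcD).2
  -- contradiction
  obtain ⟨μ, hμdef⟩ : ∃ μ : G, μ = b'⁻¹ * (a * b) * b' * (a * b)⁻¹ := ⟨_, rfl⟩
  have hμN : μ ∈ N := by
    rw [hμdef]
    have := hNn.conj_mem (a * b) hn₀ b'⁻¹
    rw [inv_inv] at this
    exact N.mul_mem this (N.inv_mem hn₀)
  have hbb' : b * b' = b' * b := cB b hb b' hb'B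
  have e1 : a * b' = b' * (μ * a) := by
    rw [hμdef]
    calc a * b' = a * (b' * b) * b⁻¹ := by group
      _ = a * (b * b') * b⁻¹ := by rw [hbb']
      _ = b' * (b'⁻¹ * (a * b) * b' * (a * b)⁻¹ * a) := by group
  have haa' : a * a' = a' * a := cA a ha a' ha'A
  have haa'inv : a * a'⁻¹ = a'⁻¹ * a := by
    calc a * a'⁻¹ = a'⁻¹ * (a' * a) * a'⁻¹ := by group
      _ = a'⁻¹ * (a * a') * a'⁻¹ := by rw [haa']
      _ = a'⁻¹ * a := by group
  have hc' : a' * b' * a'⁻¹ * b'⁻¹ * a = a * (a' * b' * a'⁻¹ * b'⁻¹) := by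
    rw [← hcdef]; exact hca.symm
  have e2 : a' * b' * a'⁻¹ * μ * a = a' * b' * μ * a'⁻¹ * a := by
    calc a' * b' * a'⁻¹ * μ * a = a' * b' * a'⁻¹ * b'⁻¹ * (b' * (μ * a)) := by group
      _ = a' * b' * a'⁻¹ * b'⁻¹ * (a * b') := by rw [← e1]
      _ = (a' * b' * a'⁻¹ * b'⁻¹ * a) * b' := by group
      _ = a * (a' * b' * a'⁻¹ * b'⁻¹) * b' := by rw [hc']
      _ = (a * a') * b' * a'⁻¹ := by group
      _ = (a' * a) * b' * a'⁻¹ := by rw [haa']
      _ = a' * (a * b') * a'⁻¹ := by group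
      _ = a' * (b' * (μ * a)) * a'⁻¹ := by rw [e1]
      _ = a' * b' * μ * (a * a'⁻¹) := by group
      _ = a' * b' * μ * (a'⁻¹ * a) := by rw [haa'inv]
      _ = a' * b' * μ * a'⁻¹ * a := by group
  have e3 : a'⁻¹ * μ = μ * a'⁻¹ := by
    have h := mul_right_cancel e2
    have h' : a' * b' * (a'⁻¹ * μ) = a' * b' * (μ * a'⁻¹) := by
      simpa only [mul_assoc] using h
    exact mul_left_cancel h'
  have e4 : a' * μ = μ * a' := by
    calc a' * μ = a' * (μ * a'⁻¹) * a' := by group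
      _ = a' * (a'⁻¹ * μ) * a' := by rw [e3]
      _ = μ * a' := by group
  have hμ1 : μ = 1 := hfpf a' ha'C μ hμN e4
  rw [hμdef] at hμ1
  have e5 : b' * (a * b) = (a * b) * b' := by
    calc b' * (a * b) = b' * 1 * (a * b) := by group
      _ = b' * (b'⁻¹ * (a * b) * b' * (a * b)⁻¹) * (a * b) := by rw [hμ1]
      _ = (a * b) * b' := by group
  exact hn₀1 (hfpf b' hb'C (a * b) hn₀ e5)

end Cfsg.Agent.Helper4
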