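import Mathlib
import Cfsg.Agent.Helper15.SympBasis

open Matrix

namespace Cfsg.Agent.Helper4

theorem alt_to_symp {F : Type*} [Field F] {m : ℕ}
    (A M : Matrix (Fin m ⊕ Fin m) (Fin m ⊕ Fin m) F) (halt : ∀ v, v ⬝ᵥ M *ᵥ v = 0)
    (hdet : M.det ≠ 0) (hA : Aᵀ * M * A = M) :
    ∃ B : Matrix.symplecticGroup (Fin m) F, ∀ k,
      (((B : Matrix (Fin m ⊕ Fin m) (Fin m ⊕ Fin m) F) - 1) ^ k).rank = ((A - 1) ^ k).rank := by
  classical
  have hV : Module.finrank F (Fin m ⊕ Fin m → F) = 2 * m := by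
    rw [Module.finrank_fintype_fun_eq_card, Fintype.card_sum, Fintype.card_fin]; omega
  obtain ⟨e, he⟩ := Cfsg.Agent.Helper15.exists_symp_equiv (n := m) (Matrix.toBilin' M)
    (fun x => by rw [Matrix.toBilin'_apply']; exact halt x)
    (fun x hx => by
      apply Matrix.eq_zero_of_vecMul_eq_zero hdet
      funext j
      have h := hx (Pi.single j 1)
      rw [Matrix.toBilin'_apply', Matrix.dotProduct_mulVec] at h
      simpa using h) hV
  obtain ⟨C, hCdef⟩ : ∃ C : Matrix (Fin m ⊕ Fin m) (Fin m ⊕ Fin m) F,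
      C = LinearMap.toMatrix' e.toLinearMap := ⟨_, rfl⟩
  obtain ⟨Ci, hCidef⟩ : ∃ Ci : Matrix (Fin m ⊕ Fin m) (Fin m ⊕ Fin m) F,
      Ci = LinearMap.toMatrix' e.symm.toLinearMap := ⟨_, rfl⟩
  have hCCi : C * Ci = 1 := by
    rw [hCdef, hCidef, ← LinearMap.toMatrix'_comp,
      show e.toLinearMap ∘ₗ e.symm.toLinearMap = LinearMap.id from
        LinearMap.ext (fun v => e.apply_symm_apply v), LinearMap.toMatrix'_id]
  have hCiC : Ci * C = 1 := by
    rw [hCdef, hCidef, ← LinearMap.toMatrix'_comp,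
      show e.symm.toLinearMap ∘ₗ e.toLinearMap = LinearMap.id from
        LinearMap.ext (fun v => e.symm_apply_apply v), LinearMap.toMatrix'_id]
  have hC : ∀ v, C *ᵥ v = e v := by
    intro v
    rw [hCdef, ← Matrix.toLin'_apply, Matrix.toLin'_toMatrix']
    rfl
  have h4 : ∀ v w, v ⬝ᵥ M *ᵥ w = (C *ᵥ v) ⬝ᵥ (Matrix.J (Fin m) F) *ᵥ (C *ᵥ w) := by
    intro v w
    rw [hC, hC, ← he v w, Matrix.toBilin'_apply']
  have key : ∀ v w : Fin m ⊕ Fin m → F,
      v ⬝ᵥ (Cᵀ * Matrix.J (Fin m) F * C) *ᵥ w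
        = (C *ᵥ v) ⬝ᵥ (Matrix.J (Fin m) F) *ᵥ (C *ᵥ w) := by
    intro v w
    rw [Matrix.mul_assoc, ← Matrix.mulVec_mulVec, Matrix.dotProduct_mulVec,
      Matrix.vecMul_transpose, ← Matrix.mulVec_mulVec]
  have hM : M = Cᵀ * Matrix.J (Fin m) F * C := by
    apply Matrix.toBilin'.injective
    refine LinearMap.ext fun v => LinearMap.ext fun w => ?_
    rw [Matrix.toBilin'_apply', Matrix.toBilin'_apply', key, h4]
  have hB : (C * A * Ci)ᵀ * Matrix.J (Fin m) F * (C * A * Ci) = Matrix.J (Fin m) F := by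
    have h1 : (C * A * Ci)ᵀ * Matrix.J (Fin m) F * (C * A * Ci)
        = Ciᵀ * (Aᵀ * (Cᵀ * Matrix.J (Fin m) F * C) * A) * Ci := by
      simp only [Matrix.transpose_mul, Matrix.mul_assoc]
    have h2 : Ciᵀ * (Cᵀ * Matrix.J (Fin m) F * C) * Ci
        = (C * Ci)ᵀ * Matrix.J (Fin m) F * (C * Ci) := by
      simp only [Matrix.transpose_mul, Matrix.mul_assoc]
    rw [h1, ← hM, hA, hM, h2, hCCi, Matrix.transpose_one, Matrix.one_mul, Matrix.mul_one]
  have hCdet : IsUnit C.det := isUnit_iff_ne_zero.mpr (Matrix.det_ne_zero_of_right_inverse hCCi)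
  have hCidet : IsUnit Ci.det := isUnit_iff_ne_zero.mpr (Matrix.det_ne_zero_of_left_inverse hCCi)
  have h3 : Ci * (C * A * Ci - 1) = (A - 1) * Ci := by
    calc Ci * (C * A * Ci - 1) = (Ci * C) * A * Ci - Ci := by noncomm_ring
      _ = (A - 1) * Ci := by rw [hCiC]; noncomm_ring
  have hpow : ∀ k, (C * A * Ci - 1) ^ k = C * (A - 1) ^ k * Ci := by
    intro k
    induction k with
    | zero => rw [pow_zero, pow_zero, Matrix.mul_one, hCCi]
    | succ k ih =>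
      rw [pow_succ, ih, pow_succ]
      calc C * (A - 1) ^ k * Ci * (C * A * Ci - 1)
          = C * (A - 1) ^ k * (Ci * (C * A * Ci - 1)) := by rw [Matrix.mul_assoc]
        _ = C * (A - 1) ^ k * ((A - 1) * Ci) := by rw [h3]
        _ = C * ((A - 1) ^ k * (A - 1)) * Ci := by simp only [Matrix.mul_assoc]
  refine ⟨⟨C * A * Ci, SymplecticGroup.mem_iff'.mpr hB⟩, ?_⟩
  intro k
  show ((C * A * Ci - 1) ^ k).rank = ((A - 1) ^ k).rank
  rw [hpow k, Matrix.rank_mul_eq_left_of_isUnit_det Ci _ hCidet,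
    Matrix.rank_mul_eq_right_of_isUnit_det C _ hCdet]

end Cfsg.Agent.Helper4
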