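import Mathlib
import Cfsg.Agent.Helper1.Basic
import Cfsg.Agent.Helper1.Coprime
import Cfsg.Agent.Helper4.SysNorm2

set_option autoImplicit false

namespace Cfsg.Agent.Helper4

open scoped Pointwise

theorem set_mul_comm_of_subgroup {G : Type*} [Group G] (H K S : Subgroup G)
    (hS : (S : Set G) = (H : Set G) * (K : Set G)) :
    (H : Set G) * (K : Set G) = (K : Set G) * (H : Set G) := by
  ext x
  constructor
  · intro hx
    have h1 : x⁻¹ ∈ (S : Set G) := by
      rw [← hS] at hx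
      exact S.inv_mem hx
    rw [hS] at h1
    obtain ⟨a, ha, c, hc, hac⟩ := Set.mem_mul.mp h1
    refine Set.mem_mul.mpr ⟨c⁻¹, K.inv_mem hc, a⁻¹, H.inv_mem ha, ?_⟩
    rw [← mul_inv_rev, hac, inv_inv]
  · intro hx
    obtain ⟨c, hc, a, ha, hca⟩ := Set.mem_mul.mp hx
    have h1 : x⁻¹ ∈ (S : Set G) := by
      rw [hS]
      refine Set.mem_mul.mpr ⟨a⁻¹, H.inv_mem ha, c⁻¹, K.inv_mem hc, ?_⟩
      rw [← mul_inv_rev, hca]
    have h2 : x ∈ (S : Set G) := by
      have h3 := S.inv_mem h1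
      rwa [inv_inv] at h3
    rw [hS] at h2
    exact h2

theorem exists_subgroup_of_set_mul_comm {G : Type*} [Group G] (H K : Subgroup G)
    (hc : (H : Set G) * (K : Set G) = (K : Set G) * (H : Set G)) :
    ∃ S : Subgroup G, (S : Set G) = (H : Set G) * (K : Set G) := by
  refine ⟨{ carrier := (H : Set G) * (K : Set G)
            mul_mem' := ?_
            one_mem' := Set.mem_mul.mpr ⟨1, H.one_mem, 1, K.one_mem, mul_one 1⟩
            inv_mem' := ?_ }, rfl⟩
  · intro a b ha hb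
    obtain ⟨h₁, hh₁, k₁, hk₁, rfl⟩ := Set.mem_mul.mp ha
    obtain ⟨h₂, hh₂, k₂, hk₂, rfl⟩ := Set.mem_mul.mp hb
    have h1 : k₁ * h₂ ∈ (H : Set G) * (K : Set G) := by
      rw [hc]; exact Set.mul_mem_mul hk₁ hh₂
    obtain ⟨h₃, hh₃, k₃, hk₃, h3⟩ := Set.mem_mul.mp h1
    show h₁ * k₁ * (h₂ * k₂) ∈ (H : Set G) * (K : Set G)
    refine Set.mem_mul.mpr ⟨h₁ * h₃, H.mul_mem hh₁ hh₃, k₃ * k₂, K.mul_mem hk₃ hk₂, ?_⟩
    calc h₁ * h₃ * (k₃ * k₂) = h₁ * (h₃ * k₃) * k₂ := by group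
      _ = h₁ * (k₁ * h₂) * k₂ := by rw [h3]
      _ = h₁ * k₁ * (h₂ * k₂) := by group
  · intro a ha
    obtain ⟨h₁, hh₁, k₁, hk₁, rfl⟩ := Set.mem_mul.mp ha
    show (h₁ * k₁)⁻¹ ∈ (H : Set G) * (K : Set G)
    rw [hc]
    refine Set.mem_mul.mpr ⟨k₁⁻¹, K.inv_mem hk₁, h₁⁻¹, H.inv_mem hh₁, ?_⟩
    rw [mul_inv_rev]

theorem set_mul_comm_sup {G : Type*} [Group G] (X Y K : Subgroup G)
    (hX : (X : Set G) * (K : Set G) = (K : Set G) * (X : Set G))
    (hY : (Y : Set G) * (K : Set G) = (K : Set G) * (Y : Set G)) :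
    ((X ⊔ Y : Subgroup G) : Set G) * (K : Set G) =
      (K : Set G) * ((X ⊔ Y : Subgroup G) : Set G) := by
  have hsup : X ⊔ Y = Subgroup.closure ((X : Set G) ∪ (Y : Set G)) := by
    rw [Subgroup.closure_union, Subgroup.closure_eq, Subgroup.closure_eq]
  have base : ∀ (Z : Subgroup G), Z ≤ X ⊔ Y →
      (Z : Set G) * (K : Set G) = (K : Set G) * (Z : Set G) → ∀ w ∈ Z,
      (∀ k ∈ K, ∃ w' ∈ X ⊔ Y, ∃ k' ∈ K, k * w = w' * k') ∧
      (∀ k ∈ K, ∃ w' ∈ X ⊔ Y, ∃ k' ∈ K, w * k = k' * w') := by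
    intro Z hZle hZ w hw
    constructor
    · intro k hk
      have h1 : k * w ∈ (Z : Set G) * (K : Set G) := by
        rw [hZ]; exact Set.mul_mem_mul hk hw
      obtain ⟨w', hw', k', hk', h2⟩ := Set.mem_mul.mp h1
      exact ⟨w', hZle hw', k', hk', h2.symm⟩
    · intro k hk
      have h1 : w * k ∈ (K : Set G) * (Z : Set G) := by
        rw [← hZ]; exact Set.mul_mem_mul hw hk
      obtain ⟨k', hk', w', hw', h2⟩ := Set.mem_mul.mp h1
      exact ⟨w', hZle hw', k', hk', h2.symm⟩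
  have key : ∀ w ∈ X ⊔ Y, (∀ k ∈ K, ∃ w' ∈ X ⊔ Y, ∃ k' ∈ K, k * w = w' * k') ∧
      (∀ k ∈ K, ∃ w' ∈ X ⊔ Y, ∃ k' ∈ K, w * k = k' * w') := by
    intro w hw
    rw [hsup] at hw
    induction hw using Subgroup.closure_induction with
    | mem w hw =>
      rcases hw with hw | hw
      · exact base X le_sup_left hX w hw
      · exact base Y le_sup_right hY w hw
    | one =>
      exact ⟨fun k hk => ⟨1, Subgroup.one_mem _, k, hk, by rw [mul_one, one_mul]⟩,
             fun k hk => ⟨1, Subgroup.one_mem _, k, hk, by rw [mul_one, one_mul]⟩⟩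
    | mul a c _ _ iha ihc =>
      constructor
      · intro k hk
        obtain ⟨a', ha', k₁, hk₁, h1⟩ := iha.1 k hk
        obtain ⟨c', hc', k₂, hk₂, h2⟩ := ihc.1 k₁ hk₁
        refine ⟨a' * c', Subgroup.mul_mem _ ha' hc', k₂, hk₂, ?_⟩
        calc k * (a * c) = (k * a) * c := by group
          _ = a' * (k₁ * c) := by rw [h1]; group
          _ = a' * c' * k₂ := by rw [h2]; group
      · intro k hk
        obtain ⟨c', hc', k₁, hk₁, h1⟩ := ihc.2 k hk
        obtain ⟨a', ha', k₂, hk₂, h2⟩ := iha.2 k₁ hk₁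
        refine ⟨a' * c', Subgroup.mul_mem _ ha' hc', k₂, hk₂, ?_⟩
        calc a * c * k = a * (c * k) := by group
          _ = (a * k₁) * c' := by rw [h1]; group
          _ = k₂ * (a' * c') := by rw [h2]; group
    | inv a _ iha =>
      constructor
      · intro k hk
        obtain ⟨a', ha', k', hk', h1⟩ := iha.2 k⁻¹ (K.inv_mem hk)
        refine ⟨a'⁻¹, Subgroup.inv_mem _ ha', k'⁻¹, K.inv_mem hk', ?_⟩
        calc k * a⁻¹ = (a * k⁻¹)⁻¹ := by group
          _ = (k' * a')⁻¹ := by rw [h1]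
          _ = a'⁻¹ * k'⁻¹ := by group
      · intro k hk
        obtain ⟨a', ha', k', hk', h1⟩ := iha.1 k⁻¹ (K.inv_mem hk)
        refine ⟨a'⁻¹, Subgroup.inv_mem _ ha', k'⁻¹, K.inv_mem hk', ?_⟩
        calc a⁻¹ * k = (k⁻¹ * a)⁻¹ := by group
          _ = (a' * k')⁻¹ := by rw [h1]
          _ = k'⁻¹ * a'⁻¹ := by group
  ext g
  constructor
  · intro hg
    obtain ⟨w, hw, k, hk, rfl⟩ := Set.mem_mul.mp hg
    obtain ⟨w', hw', k', hk', h1⟩ := (key w hw).2 k hk
    rw [h1]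
    exact Set.mul_mem_mul hk' hw'
  · intro hg
    obtain ⟨k, hk, w, hw, rfl⟩ := Set.mem_mul.mp hg
    obtain ⟨w', hw', k', hk', h1⟩ := (key w hw).1 k hk
    rw [h1]
    exact Set.mul_mem_mul hw' hk'

theorem set_mul_comm_conj {G : Type*} [Group G] (H K : Subgroup G) (c : G)
    (hc : (H : Set G) * (K : Set G) = (K : Set G) * (H : Set G)) :
    ((MulAut.conj c • H : Subgroup G) : Set G) * ((MulAut.conj c • K : Subgroup G) : Set G) =
      ((MulAut.conj c • K : Subgroup G) : Set G) * ((MulAut.conj c • H : Subgroup G) : Set G) := by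
  have aux : ∀ (H K : Subgroup G), (H : Set G) * (K : Set G) ⊆ (K : Set G) * (H : Set G) →
      ((MulAut.conj c • H : Subgroup G) : Set G) * ((MulAut.conj c • K : Subgroup G) : Set G) ⊆
      ((MulAut.conj c • K : Subgroup G) : Set G) * ((MulAut.conj c • H : Subgroup G) : Set G) := by
    intro H K hHK g hg
    obtain ⟨a, ha, b, hb, rfl⟩ := Set.mem_mul.mp hg
    have ha' : c⁻¹ * a * c ∈ H := Cfsg.Agent.Helper1.mem_conj_smul.mp ha
    have hb' : c⁻¹ * b * c ∈ K := Cfsg.Agent.Helper1.mem_conj_smul.mp hb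
    have h1 : (c⁻¹ * a * c) * (c⁻¹ * b * c) ∈ (K : Set G) * (H : Set G) :=
      hHK (Set.mul_mem_mul ha' hb')
    obtain ⟨k, hk, h, hh, h2⟩ := Set.mem_mul.mp h1
    refine Set.mem_mul.mpr ⟨c * k * c⁻¹, ?_, c * h * c⁻¹, ?_, ?_⟩
    · exact Cfsg.Agent.Helper1.conj_mem_conj_smul hk
    · exact Cfsg.Agent.Helper1.conj_mem_conj_smul hh
    · calc c * k * c⁻¹ * (c * h * c⁻¹) = c * (k * h) * c⁻¹ := by group
        _ = c * ((c⁻¹ * a * c) * (c⁻¹ * b * c)) * c⁻¹ := by rw [h2]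
        _ = a * b := by group
  exact Set.Subset.antisymm (aux H K hc.le) (aux K H hc.ge)

/-- Kegel's lemma, by induction on the index of `A`. -/
theorem kegel_aux {G : Type*} [Group G] [Finite G] (B : Subgroup G) :
    ∀ (n : ℕ) (A : Subgroup G), Nat.card G - Nat.card A = n →
      (∀ x : G, ∃ S : Subgroup G, S ≠ ⊤ ∧
        (S : Set G) = (A : Set G) * ((MulAut.conj x • B : Subgroup G) : Set G)) →
      ∃ N : Subgroup G, N.Normal ∧ N ≠ ⊤ ∧ (A ≤ N ∨ B ≤ N) := by
  intro n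
  induction n using Nat.strong_induction_on with
  | _ n ih =>
  intro A hn h
  by_cases hAn : A.Normal
  · refine ⟨A, hAn, ?_, Or.inl le_rfl⟩
    obtain ⟨S, hS, hSe⟩ := h 1
    intro hA
    apply hS
    rw [eq_top_iff]
    intro g _
    have h0 : g ∈ (A : Set G) := by rw [hA]; exact Subgroup.mem_top g
    have h1 : g ∈ (S : Set G) := by
      rw [hSe]
      exact Set.mem_mul.mpr ⟨g, h0, 1, Subgroup.one_mem _, mul_one g⟩
    exact h1
  by_cases hall : ∀ x : G, ∀ b ∈ MulAut.conj x • B, MulAut.conj b • A = A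
  · refine ⟨Subgroup.normalClosure (B : Set G), Subgroup.normalClosure_normal, ?_,
      Or.inr Subgroup.le_normalClosure⟩
    intro htop
    apply hAn
    have hle : Subgroup.normalClosure (B : Set G) ≤ Subgroup.normalizer (A : Set G) := by
      unfold Subgroup.normalClosure
      rw [Subgroup.closure_le]
      intro y hy
      rw [Group.mem_conjugatesOfSet_iff] at hy
      obtain ⟨b, hb, hconj⟩ := hy
      obtain ⟨c, hc⟩ := isConj_iff.mp hconj
      have h1 : y ∈ MulAut.conj c • B := by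
        rw [← hc]; exact Cfsg.Agent.Helper1.conj_mem_conj_smul hb
      exact (mem_normalizer_iff_conj_smul_eq A y).mpr (hall c y h1)
    rw [htop] at hle
    exact Subgroup.normalizer_eq_top_iff.mp (top_le_iff.mp hle)
  · push_neg at hall
    obtain ⟨x, b, hb, hne⟩ := hall
    obtain ⟨A', hA'⟩ : ∃ A' : Subgroup G, A' = MulAut.conj b • A := ⟨_, rfl⟩
    rw [← hA'] at hne
    have hcardA' : Nat.card A' = Nat.card A := by
      rw [hA']; exact Cfsg.Agent.Helper1.card_conj_smul A b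
    have hlt : Nat.card A < Nat.card (A ⊔ A' : Subgroup G) := by
      by_contra hle
      push_neg at hle
      have h1 : A = A ⊔ A' := Subgroup.eq_of_le_of_card_ge le_sup_left hle
      have h2 : A' ≤ A := by
        calc A' ≤ A ⊔ A' := le_sup_right
          _ = A := h1.symm
      exact hne (Subgroup.eq_of_le_of_card_ge h2 (le_of_eq hcardA'.symm))
    obtain ⟨S₁, hS₁, hS₁e⟩ := h x
    have hAS₁ : A ≤ S₁ := by
      intro a ha
      have h0 : a ∈ (S₁ : Set G) := by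
        rw [hS₁e]; exact Set.mem_mul.mpr ⟨a, ha, 1, Subgroup.one_mem _, mul_one a⟩
      exact h0
    have hBS₁ : MulAut.conj x • B ≤ S₁ := by
      intro k hk
      have h0 : k ∈ (S₁ : Set G) := by
        rw [hS₁e]; exact Set.mem_mul.mpr ⟨1, Subgroup.one_mem _, k, hk, one_mul k⟩
      exact h0
    have hA'S₁ : A' ≤ S₁ := by
      intro y hy
      rw [hA', Cfsg.Agent.Helper1.mem_conj_smul] at hy
      have hbS : b ∈ S₁ := hBS₁ hb
      have e : y = b * (b⁻¹ * y * b) * b⁻¹ := by group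
      rw [e]
      exact S₁.mul_mem (S₁.mul_mem hbS (hAS₁ hy)) (S₁.inv_mem hbS)
    have hAsS₁ : A ⊔ A' ≤ S₁ := sup_le hAS₁ hA'S₁
    have hstar : ∀ g : G, ∃ S : Subgroup G, S ≠ ⊤ ∧
        (S : Set G) = ((A ⊔ A' : Subgroup G) : Set G) *
          ((MulAut.conj g • B : Subgroup G) : Set G) := by
      intro g
      obtain ⟨T₁, -, hT₁⟩ := h g
      have hc1 := set_mul_comm_of_subgroup A (MulAut.conj g • B) T₁ hT₁
      obtain ⟨T₂, -, hT₂⟩ := h (b⁻¹ * g)
      have hc2 := set_mul_comm_conj A (MulAut.conj (b⁻¹ * g) • B) b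
        (set_mul_comm_of_subgroup A (MulAut.conj (b⁻¹ * g) • B) T₂ hT₂)
      rw [Cfsg.Agent.Helper1.conj_smul_smul, mul_inv_cancel_left, ← hA'] at hc2
      have hc3 := set_mul_comm_sup A A' (MulAut.conj g • B) hc1 hc2
      obtain ⟨S', hS'⟩ := exists_subgroup_of_set_mul_comm (A ⊔ A') (MulAut.conj g • B) hc3
      refine ⟨S', ?_, hS'⟩
      intro htop
      apply hS₁
      have hall' : ∀ z : G, z ∈ ((A ⊔ A' : Subgroup G) : Set G) *
          ((MulAut.conj g • B : Subgroup G) : Set G) := by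
        intro z
        rw [← hS', htop]; exact Subgroup.mem_top z
      obtain ⟨w, hw, k', hk', hwk⟩ := Set.mem_mul.mp (hall' (x * g⁻¹))
      have hB₂S₁ : MulAut.conj g • B ≤ S₁ := by
        intro y hy
        have h1 : w * y * w⁻¹ ∈ MulAut.conj x • B := by
          rw [Cfsg.Agent.Helper1.mem_conj_smul]
          have h2 : k'⁻¹ * y * k' ∈ MulAut.conj g • B :=
            Subgroup.mul_mem _ (Subgroup.mul_mem _ (Subgroup.inv_mem _ hk') hy) hk'
          rw [Cfsg.Agent.Helper1.mem_conj_smul] at h2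
          have hw' : w = x * g⁻¹ * k'⁻¹ := by rw [← hwk]; group
          have e : x⁻¹ * (w * y * w⁻¹) * x = g⁻¹ * (k'⁻¹ * y * k') * g := by
            rw [hw']; group
          rw [e]; exact h2
        have e : y = w⁻¹ * (w * y * w⁻¹) * w := by group
        rw [e]
        have hwS : w ∈ S₁ := hAsS₁ hw
        exact S₁.mul_mem (S₁.mul_mem (S₁.inv_mem hwS) (hBS₁ h1)) hwS
      rw [eq_top_iff]
      intro z _
      obtain ⟨w₂, hw₂, k₂, hk₂, rfl⟩ := Set.mem_mul.mp (hall' z)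
      exact S₁.mul_mem (hAsS₁ hw₂) (hB₂S₁ hk₂)
    have hcardle := Subgroup.card_le_card_group (A ⊔ A')
    obtain ⟨N, hNn, hNt, hN⟩ := ih (Nat.card G - Nat.card (A ⊔ A' : Subgroup G)) (by omega)
      (A ⊔ A') rfl hstar
    refine ⟨N, hNn, hNt, ?_⟩
    rcases hN with hN | hN
    · exact Or.inl (le_sup_left.trans hN)
    · exact Or.inr hN

end Cfsg.Agent.Helper4
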