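import Mathlib
import Cfsg.Agent.Helper4.Ito2

set_option autoImplicit false

namespace Cfsg.Agent.Helper4

universe u

theorem prod_cyclic_ss_aux : ∀ (c : ℕ) (G : Type u) [Group G] [Finite G] (A B : Subgroup G),
    Nat.card G = c → IsCyclic A → IsCyclic B → (∀ g : G, ∃ a ∈ A, ∃ b ∈ B, g = a * b) →
    Cfsg.IsSupersolvable G := by
  intro c
  induction c using Nat.strong_induction_on with
  | _ c ih =>
    intro G _ _ A B hc hA hB hAB
    rcases subsingleton_or_nontrivial G with hs | hnt
    · refine ⟨0, fun _ => ⊥, rfl, ?_, fun _ => Subgroup.normal_bot, fun i => i.elim0⟩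
      show (⊥ : Subgroup G) = ⊤
      exact (eq_top_iff.mpr (fun x _ => by rw [Subgroup.mem_bot]; exact Subsingleton.elim x 1))
    · haveI := hA
      haveI := hB
      obtain ⟨N, hNn, hNne, hle⟩ := ito_normal_in_factor A B hAB
      haveI := hNn
      haveI : IsCyclic N := by
        rcases hle with h | h
        · exact Subgroup.isCyclic_of_le h
        · exact Subgroup.isCyclic_of_le h
      apply isSupersolvable_of_cyclic_normal_quotient N
      have hlt : Nat.card (G ⧸ N) < c := by
        rw [← hc]; exact Cfsg.Agent.Helper1.card_quotient_lt_of_ne_bot N hNne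
      refine ih _ hlt (G ⧸ N) (A.map (QuotientGroup.mk' N)) (B.map (QuotientGroup.mk' N)) rfl
        ?_ ?_ ?_
      · exact isCyclic_of_surjective ((QuotientGroup.mk' N).subgroupMap A)
          (MonoidHom.subgroupMap_surjective _ _)
      · exact isCyclic_of_surjective ((QuotientGroup.mk' N).subgroupMap B)
          (MonoidHom.subgroupMap_surjective _ _)
      · intro g
        obtain ⟨g', rfl⟩ := QuotientGroup.mk'_surjective N g
        obtain ⟨a, ha, b, hb, rfl⟩ := hAB g'
        exact ⟨_, ⟨a, ha, rfl⟩, _, ⟨b, hb, rfl⟩, map_mul _ _ _⟩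

end Cfsg.Agent.Helper4
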