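import Mathlib
import Cfsg.Prelude.Def_Transfer
import Cfsg.Prelude.Def_Local
import Cfsg.Prelude.Def_PLocal
import Cfsg.Agent.Helper1.Subn
import Cfsg.Agent.Helper16.Subnormal

set_option autoImplicit false

namespace Cfsg.Agent.Helper4

open scoped commutatorElement

universe u

section StabSeries

variable {G : Type u} [Group G]

/-- Conjugation by an element stabilising `A` and `B` stabilises `⁅A, B⁆`. -/
theorem stab_conj_mem_commutator {A B : Subgroup G} {g : G}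
    (hA : ∀ a ∈ A, g * a * g⁻¹ ∈ A) (hB : ∀ b ∈ B, g * b * g⁻¹ ∈ B) :
    ∀ x ∈ ⁅A, B⁆, g * x * g⁻¹ ∈ ⁅A, B⁆ := by
  have h : ⁅A, B⁆ ≤ (⁅A, B⁆).comap (MulAut.conj g).toMonoidHom := by
    rw [Subgroup.commutator_le]
    intro a ha b hb
    rw [Subgroup.mem_comap]
    show (MulAut.conj g) ⁅a, b⁆ ∈ _
    rw [map_commutatorElement]
    exact Subgroup.commutator_mem_commutator (by simpa [MulAut.conj_apply] using hA a ha)
      (by simpa [MulAut.conj_apply] using hB b hb)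
  intro x hx
  have := h hx
  rw [Subgroup.mem_comap] at this
  simpa [MulAut.conj_apply] using this

/-- The stability group of the series `V ≥ V₁` inside `N(V) ∩ N(V₁)` (second condition:
trivial action on `V / V₁`). -/
def stabSub (V V₁ : Subgroup G) : Subgroup G where
  carrier := {g | g ∈ Subgroup.normalizer (V : Set G) ⊓ Subgroup.normalizer (V₁ : Set G) ∧
    ∀ v ∈ V, v⁻¹ * g * v * g⁻¹ ∈ V₁}
  one_mem' := ⟨Subgroup.one_mem _, fun v _ => by simp⟩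
  mul_mem' := by
    rintro g h ⟨hgM, hg⟩ ⟨hhM, hh⟩
    refine ⟨Subgroup.mul_mem _ hgM hhM, fun v hv => ?_⟩
    have e : v⁻¹ * (g * h) * v * (g * h)⁻¹ =
        (v⁻¹ * g * v * g⁻¹) * (g * (v⁻¹ * h * v * h⁻¹) * g⁻¹) := by group
    rw [e]
    exact Subgroup.mul_mem _ (hg v hv)
      ((Subgroup.mem_normalizer_iff.mp (Subgroup.mem_inf.mp hgM).2 _).mp (hh v hv))
  inv_mem' := by
    rintro g ⟨hgM, hg⟩
    refine ⟨Subgroup.inv_mem _ hgM, fun v hv => ?_⟩
    have e : v⁻¹ * g⁻¹ * v * g⁻¹⁻¹ = g⁻¹ * (v⁻¹ * g * v * g⁻¹)⁻¹ * g⁻¹⁻¹ := by group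
    rw [e]
    exact (Subgroup.mem_normalizer_iff.mp (Subgroup.mem_inf.mp (Subgroup.inv_mem _ hgM)).2 _).mp
      (Subgroup.inv_mem _ (hg v hv))

theorem mem_stabSub {V V₁ : Subgroup G} {g : G} : g ∈ stabSub V V₁ ↔
    g ∈ Subgroup.normalizer (V : Set G) ⊓ Subgroup.normalizer (V₁ : Set G) ∧
      ∀ v ∈ V, v⁻¹ * g * v * g⁻¹ ∈ V₁ := Iff.rfl

theorem stabSub_conj {V V₁ : Subgroup G} {m c : G}
    (hm : m ∈ Subgroup.normalizer (V : Set G) ⊓ Subgroup.normalizer (V₁ : Set G))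
    (hc : c ∈ stabSub V V₁) : m * c * m⁻¹ ∈ stabSub V V₁ := by
  obtain ⟨hcM, hc2⟩ := hc
  refine ⟨Subgroup.mul_mem _ (Subgroup.mul_mem _ hm hcM) (Subgroup.inv_mem _ hm), fun v hv => ?_⟩
  have hv' : m⁻¹ * v * m ∈ V := by
    have := (Subgroup.mem_normalizer_iff.mp (Subgroup.mem_inf.mp (Subgroup.inv_mem _ hm)).1 v).mp hv
    simpa using this
  have e : v⁻¹ * (m * c * m⁻¹) * v * (m * c * m⁻¹)⁻¹ =
      m * ((m⁻¹ * v * m)⁻¹ * c * (m⁻¹ * v * m) * c⁻¹) * m⁻¹ := by group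
  rw [e]
  exact (Subgroup.mem_normalizer_iff.mp (Subgroup.mem_inf.mp hm).2 _).mp (hc2 _ hv')

theorem centralizer_conj_of_normalizer {V₁ : Subgroup G} {m c : G}
    (hm : m ∈ Subgroup.normalizer (V₁ : Set G))
    (hc : c ∈ Subgroup.centralizer (V₁ : Set G)) :
    m * c * m⁻¹ ∈ Subgroup.centralizer (V₁ : Set G) := by
  rw [Subgroup.mem_centralizer_iff] at hc ⊢
  intro w hw
  have hw' : m⁻¹ * w * m ∈ V₁ := by
    have := (Subgroup.mem_normalizer_iff.mp (Subgroup.inv_mem _ hm) w).mp hw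
    simpa using this
  have h1 := hc _ hw'
  calc w * (m * c * m⁻¹) = m * ((m⁻¹ * w * m) * c) * m⁻¹ := by group
    _ = m * (c * (m⁻¹ * w * m)) * m⁻¹ := by rw [h1]
    _ = m * c * m⁻¹ * w := by group

/-- An element of the stability group of `V ≥ V₁ ≥ 1`, with `V₁` of exponent `p`, has `p`-th
power centralising `V`. -/
theorem stab_pow_mem_centralizer {V V₁ : Subgroup G} {p : ℕ} (hexp : ∀ w ∈ V₁, w ^ p = 1)
    {x : G} (hx2 : x ∈ stabSub V V₁) (hx1 : x ∈ Subgroup.centralizer (V₁ : Set G)) :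
    x ^ p ∈ Subgroup.centralizer (V : Set G) := by
  rw [Subgroup.mem_centralizer_iff]
  intro v hv
  obtain ⟨w, hw⟩ : ∃ w : G, w = v⁻¹ * x * v * x⁻¹ := ⟨_, rfl⟩
  have hwV : w ∈ V₁ := by rw [hw]; exact hx2.2 v hv
  have hxw : Commute x w := ((Subgroup.mem_centralizer_iff.mp hx1) w hwV).symm
  have h1 : x * v = v * w * x := by rw [hw]; group
  have key : ∀ k : ℕ, x ^ k * v = v * w ^ k * x ^ k := by
    intro k
    induction k with
    | zero => simp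
    | succ k ih =>
      calc x ^ (k + 1) * v = x * (x ^ k * v) := by rw [pow_succ']; group
        _ = x * (v * w ^ k * x ^ k) := by rw [ih]
        _ = (x * v) * w ^ k * x ^ k := by group
        _ = v * w * (x * w ^ k) * x ^ k := by rw [h1]; group
        _ = v * w * (w ^ k * x) * x ^ k := by rw [(hxw.pow_right k).eq]
        _ = v * w ^ (k + 1) * x ^ (k + 1) := by rw [pow_succ', pow_succ']; group
  have := key p
  rw [hexp w hwV, mul_one] at this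
  exact this.symm

end StabSeries

/-- If `E₁, E₂` are subnormal subgroups of `H`, which acts faithfully on the elementary abelian
`p`-group `V`, and `[V, E₁, E₂] = 1`, then `[E₁, E₂] ≤ O_p(H)`. -/
theorem commutator_subnormal_le_pCore {G : Type u} [Group G] [Finite G] {p : ℕ} [Fact p.Prime]
    (V H : Subgroup G) (hV : Cfsg.IsElementaryAbelian p V)
    (hHV : H ≤ Subgroup.normalizer (V : Set G))
    (hf : H ⊓ Subgroup.centralizer (V : Set G) = ⊥) (E₁ E₂ : Subgroup G) (h₁ : E₁ ≤ H)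
    (h₂ : E₂ ≤ H) (hs₁ : (E₁.subgroupOf H).IsSubnormal) (hs₂ : (E₂.subgroupOf H).IsSubnormal)
    (hc : ⁅⁅V, E₁⁆, E₂⁆ = ⊥) : ⁅E₁, E₂⁆ ≤ (Cfsg.pCore p H).map H.subtype := by
  obtain ⟨V₁, hV₁⟩ : ∃ V₁ : Subgroup G, V₁ = ⁅V, E₁⁆ := ⟨_, rfl⟩
  rw [← hV₁] at hc
  have hnV : ∀ h ∈ H, ∀ v ∈ V, h * v * h⁻¹ ∈ V := fun h hh v hv =>
    ((Subgroup.mem_normalizer_iff.mp (hHV hh)) v).mp hv
  have hV₁V : V₁ ≤ V := by
    rw [hV₁, Subgroup.commutator_le]
    intro v hv e he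
    have e1 : ⁅v, e⁆ = v * (e * v⁻¹ * e⁻¹) := by rw [commutatorElement_def]; group
    rw [e1]
    exact V.mul_mem hv (hnV e (h₁ he) _ (V.inv_mem hv))
  have hexp : ∀ w ∈ V₁, w ^ p = 1 := fun w hw => hV.2 w (hV₁V hw)
  -- `E₁` normalises `V₁`
  have hE₁c : ∀ e ∈ E₁, ∀ w ∈ V₁, e * w * e⁻¹ ∈ V₁ := by
    intro e he w hw
    rw [hV₁] at hw ⊢
    exact stab_conj_mem_commutator (fun a ha => hnV e (h₁ he) a ha)
      (fun b hb => E₁.mul_mem (E₁.mul_mem he hb) (E₁.inv_mem he)) w hw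
  have hnorm_of : ∀ (S : Subgroup G) (e : G), (∀ w ∈ S, e * w * e⁻¹ ∈ S) →
      (∀ w ∈ S, e⁻¹ * w * e ∈ S) → e ∈ Subgroup.normalizer (S : Set G) := by
    intro S e h1 h2
    rw [Subgroup.mem_normalizer_iff]
    intro w
    refine ⟨h1 w, fun hw => ?_⟩
    have := h2 _ hw
    have e2 : e⁻¹ * (e * w * e⁻¹) * e = w := by group
    rwa [e2] at this
  have hE₁N : E₁ ≤ Subgroup.normalizer (V₁ : Set G) := by
    intro e he
    refine hnorm_of V₁ e (hE₁c e he) (fun w hw => ?_)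
    have := hE₁c e⁻¹ (E₁.inv_mem he) w hw
    simpa using this
  -- `E₂` centralises `V₁`
  have hE₂C : E₂ ≤ Subgroup.centralizer (V₁ : Set G) := by
    have h := Subgroup.commutator_eq_bot_iff_le_centralizer.mp hc
    intro e he
    rw [Subgroup.mem_centralizer_iff]
    intro w hw
    exact ((Subgroup.mem_centralizer_iff.mp (h hw)) e he).symm
  have hE₂N : E₂ ≤ Subgroup.normalizer (V₁ : Set G) :=
    hE₂C.trans (Subgroup.centralizer_le_normalizer _)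
  have hEM : E₁ ⊔ E₂ ≤ Subgroup.normalizer (V : Set G) ⊓ Subgroup.normalizer (V₁ : Set G) :=
    sup_le (le_inf (h₁.trans hHV) hE₁N) (le_inf (h₂.trans hHV) hE₂N)
  have hEH : E₁ ⊔ E₂ ≤ H := sup_le h₁ h₂
  -- `E₁` lies in the stability group
  have hE₁S : E₁ ≤ stabSub V V₁ := by
    intro e he
    refine ⟨hEM (le_sup_left (b := E₂) he), fun v hv => ?_⟩
    have e1 : v⁻¹ * e * v * e⁻¹ = ⁅v⁻¹, e⁆ := by rw [commutatorElement_def]; group
    rw [e1, hV₁]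
    exact Subgroup.commutator_mem_commutator (V.inv_mem hv) he
  obtain ⟨S, hS⟩ : ∃ S : Subgroup G,
      S = (stabSub V V₁ ⊓ Subgroup.centralizer (V₁ : Set G)) ⊓ (E₁ ⊔ E₂) := ⟨_, rfl⟩
  have hKS : ⁅E₁, E₂⁆ ≤ S := by
    rw [hS]
    refine le_inf (le_inf ?_ ?_) (Subgroup.commutator_le.mpr ?_)
    · rw [Subgroup.commutator_le]
      intro e₁ he₁ e₂ he₂
      have e1 : ⁅e₁, e₂⁆ = e₁ * (e₂ * e₁⁻¹ * e₂⁻¹) := by rw [commutatorElement_def]; group
      rw [e1]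
      exact Subgroup.mul_mem _ (hE₁S he₁)
        (stabSub_conj (hEM (le_sup_right (a := E₁) he₂)) (hE₁S (E₁.inv_mem he₁)))
    · rw [Subgroup.commutator_le]
      intro e₁ he₁ e₂ he₂
      have e1 : ⁅e₁, e₂⁆ = (e₁ * e₂ * e₁⁻¹) * e₂⁻¹ := by rw [commutatorElement_def]
      rw [e1]
      exact Subgroup.mul_mem _ (centralizer_conj_of_normalizer (hE₁N he₁) (hE₂C he₂))
        (Subgroup.inv_mem _ (hE₂C he₂))
    · intro e₁ he₁ e₂ he₂
      rw [commutatorElement_def]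
      have ha : e₁ ∈ E₁ ⊔ E₂ := le_sup_left (b := E₂) he₁
      have hb : e₂ ∈ E₁ ⊔ E₂ := le_sup_right (a := E₁) he₂
      exact Subgroup.mul_mem _ (Subgroup.mul_mem _ (Subgroup.mul_mem _ ha hb)
        (Subgroup.inv_mem _ ha)) (Subgroup.inv_mem _ hb)
  have hSE : S ≤ E₁ ⊔ E₂ := by rw [hS]; exact inf_le_right
  have hSH : S ≤ H := hSE.trans hEH
  -- `S` is a `p`-group
  have hSp : IsPGroup p S := by
    intro x
    refine ⟨1, ?_⟩
    have hx : (x : G) ∈ (stabSub V V₁ ⊓ Subgroup.centralizer (V₁ : Set G)) ⊓ (E₁ ⊔ E₂) := by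
      rw [← hS]; exact x.2
    have hx1 := (Subgroup.mem_inf.mp (Subgroup.mem_inf.mp hx).1)
    have h3 := stab_pow_mem_centralizer hexp hx1.1 hx1.2
    have h4 : (x : G) ^ p ∈ H ⊓ Subgroup.centralizer (V : Set G) :=
      Subgroup.mem_inf.mpr ⟨H.pow_mem (hSH x.2) p, h3⟩
    rw [hf, Subgroup.mem_bot] at h4
    rw [pow_one]
    exact Subtype.ext (by rw [Subgroup.coe_pow]; exact h4)
  -- `S` is normal in `E₁ ⊔ E₂`
  have hconj : ∀ e ∈ E₁ ⊔ E₂, ∀ s ∈ S, e * s * e⁻¹ ∈ S := by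
    intro e he s hs
    rw [hS] at hs ⊢
    have hs1 := Subgroup.mem_inf.mp (Subgroup.mem_inf.mp hs).1
    exact Subgroup.mem_inf.mpr ⟨Subgroup.mem_inf.mpr
      ⟨stabSub_conj (hEM he) hs1.1,
        centralizer_conj_of_normalizer (Subgroup.mem_inf.mp (hEM he)).2 hs1.2⟩,
      Subgroup.mul_mem _ (Subgroup.mul_mem _ he (Subgroup.mem_inf.mp hs).2)
        (Subgroup.inv_mem _ he)⟩
  have hSN : (S.subgroupOf (E₁ ⊔ E₂)).Normal := by
    rw [Subgroup.normal_subgroupOf_iff_le_normalizer hSE]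
    intro e he
    refine hnorm_of S e (hconj e he) (fun w hw => ?_)
    have := hconj e⁻¹ (Subgroup.inv_mem _ he) w hw
    simpa using this
  -- subnormality
  have hEsn : ((E₁ ⊔ E₂).subgroupOf H).IsSubnormal := by
    rw [Subgroup.subgroupOf_sup h₁ h₂]
    exact Cfsg.Agent.Helper1.sup_isSubnormal _ _ hs₁ hs₂
  have hSsn : (S.subgroupOf H).IsSubnormal := by
    have h1 := Cfsg.Agent.Helper1.subnormal_subgroupOf_subgroupOf hEH hSN.isSubnormal
    exact Subgroup.IsSubnormal.trans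
      (by intro x hx; exact hSE hx) h1 hEsn
  have hfin := Cfsg.Agent.Helper16.isSubnormal_pgroup_le_pCore hSsn hSp.comap_subtype
  intro x hx
  have hxS := hKS hx
  exact Subgroup.mem_map.mpr ⟨⟨x, hSH hxS⟩, hfin (Subgroup.mem_subgroupOf.mpr hxS), rfl⟩

end Cfsg.Agent.Helper4
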