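import Mathlib
import Cfsg.Prelude.Def_PLocal
import Cfsg.Agent.Helper24.StableNC
import Cfsg.Agent.Helper16.PCore
import Cfsg.Agent.S0622

set_option autoImplicit false

namespace Cfsg.Agent.Helper4

universe u

open scoped commutatorElement

/-- conjugation by `k` fixes a normal subgroup -/
theorem snq_map_conj {H : Type*} [Group H] (V : Subgroup H) [hV : V.Normal] (k : H) :
    V.map (MulAut.conj k).toMonoidHom = V := by
  ext z
  constructor
  · rintro ⟨v, hv, rfl⟩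
    simp only [MulEquiv.coe_toMonoidHom, MulAut.conj_apply]
    exact hV.conj_mem v hv k
  · intro hz
    refine ⟨k⁻¹ * z * k, ?_, ?_⟩
    · have h := hV.conj_mem z hz k⁻¹
      rw [inv_inv] at h
      exact h
    · simp only [MulEquiv.coe_toMonoidHom, MulAut.conj_apply]
      group

/-- image of a quadratic-action condition under a homomorphism -/
theorem snq_map_quad {S H : Type*} [Group S] [Group H] (f : S →* H) (W : Subgroup S) (y : S) :
    (⁅⁅W, Subgroup.zpowers y⁆, Subgroup.zpowers y⁆).map f =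
      ⁅⁅W.map f, Subgroup.zpowers (f y)⁆, Subgroup.zpowers (f y)⁆ := by
  rw [Subgroup.map_commutator, Subgroup.map_commutator, MonoidHom.map_zpowers]

theorem snq_quad_conj {H : Type*} [Group H] (V : Subgroup H) [hV : V.Normal] (b k : H)
    (hq : ⁅⁅V, Subgroup.zpowers b⁆, Subgroup.zpowers b⁆ = ⊥) :
    ⁅⁅V, Subgroup.zpowers (k * b * k⁻¹)⁆, Subgroup.zpowers (k * b * k⁻¹)⁆ = ⊥ := by
  have h := snq_map_quad (MulAut.conj k).toMonoidHom V b
  rw [hq, Subgroup.map_bot, snq_map_conj] at h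
  simp only [MulEquiv.coe_toMonoidHom, MulAut.conj_apply] at h
  exact h.symm

theorem snq_quad_pullback {S H : Type*} [Group S] [Group H] (f : S →* H)
    (hf : Function.Injective f) (W : Subgroup S) (y : S)
    (hq : ⁅⁅W.map f, Subgroup.zpowers (f y)⁆, Subgroup.zpowers (f y)⁆ = ⊥) :
    ⁅⁅W, Subgroup.zpowers y⁆, Subgroup.zpowers y⁆ = ⊥ := by
  rw [← snq_map_quad] at hq
  exact (Subgroup.map_eq_bot_iff_of_injective _ hf).mp hq

/-- an element acting on the normal subgroup `V` like a quadratic element is quadratic -/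
theorem snq_quad_coset {H : Type*} [Group H] (V : Subgroup H) [hV : V.Normal] (a t : H)
    (hta : ∀ k : ℤ, (a ^ k)⁻¹ * t ^ k ∈ Subgroup.centralizer (V : Set H))
    (hq : ⁅⁅V, Subgroup.zpowers a⁆, Subgroup.zpowers a⁆ = ⊥) :
    ⁅⁅V, Subgroup.zpowers t⁆, Subgroup.zpowers t⁆ = ⊥ := by
  rw [Subgroup.commutator_eq_bot_iff_le_centralizer, Subgroup.commutator_le] at hq ⊢
  intro v hv b hb
  obtain ⟨k, rfl⟩ := Subgroup.mem_zpowers_iff.mp hb
  have hdec : ∀ j : ℤ, ∃ c ∈ Subgroup.centralizer (V : Set H), t ^ j = a ^ j * c := by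
    intro j
    exact ⟨_, hta j, (mul_inv_cancel_left _ _).symm⟩
  obtain ⟨c, hc, hce⟩ := hdec k
  have hcv : v * c = c * v := (Subgroup.mem_centralizer_iff.mp hc) v hv
  have h2 : c * v⁻¹ = v⁻¹ * c := (Commute.inv_right (show Commute c v from hcv.symm)).eq
  have e1 : ⁅v, t ^ k⁆ = ⁅v, a ^ k⁆ := by
    rw [hce, commutatorElement_def, commutatorElement_def]
    have e : v * (a ^ k * c) * v⁻¹ * (a ^ k * c)⁻¹
        = v * a ^ k * (c * v⁻¹ * c⁻¹) * (a ^ k)⁻¹ := by
      group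
    rw [e, h2, mul_inv_cancel_right]
  rw [e1]
  have hwV : ⁅v, a ^ k⁆ ∈ V := by
    have e : ⁅v, a ^ k⁆ = v * (a ^ k * v⁻¹ * (a ^ k)⁻¹) := by
      rw [commutatorElement_def]; group
    rw [e]
    exact V.mul_mem hv (hV.conj_mem v⁻¹ (V.inv_mem hv) (a ^ k))
  have hwa := hq v hv (a ^ k) (Subgroup.zpow_mem_zpowers a k)
  rw [Subgroup.mem_centralizer_iff]
  intro b' hb'
  obtain ⟨j, rfl⟩ := Subgroup.mem_zpowers_iff.mp hb'
  obtain ⟨c', hc', hce'⟩ := hdec j
  have hcw : ⁅v, a ^ k⁆ * c' = c' * ⁅v, a ^ k⁆ :=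
    (Subgroup.mem_centralizer_iff.mp hc') _ hwV
  have haw : a ^ j * ⁅v, a ^ k⁆ = ⁅v, a ^ k⁆ * a ^ j :=
    (Subgroup.mem_centralizer_iff.mp hwa) (a ^ j) (Subgroup.zpow_mem_zpowers a j)
  rw [hce']
  calc a ^ j * c' * ⁅v, a ^ k⁆ = a ^ j * (c' * ⁅v, a ^ k⁆) := mul_assoc _ _ _
    _ = a ^ j * (⁅v, a ^ k⁆ * c') := by rw [hcw]
    _ = (a ^ j * ⁅v, a ^ k⁆) * c' := (mul_assoc _ _ _).symm
    _ = (⁅v, a ^ k⁆ * a ^ j) * c' := by rw [haw]
    _ = ⁅v, a ^ k⁆ * (a ^ j * c') := mul_assoc _ _ _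

/-- No element of a finite `p`-group acts quadratically and nontrivially on the stable normal
closure `W(S)`. -/
theorem snq_main {S : Type u} [Group S] [Finite S] {p : ℕ} [Fact p.Prime] (hS : IsPGroup p S)
    (x : S)
    (hq : ⁅⁅Cfsg.stableNormalClosure p S, Subgroup.zpowers x⁆, Subgroup.zpowers x⁆ = ⊥) :
    ⁅Cfsg.stableNormalClosure p S, Subgroup.zpowers x⁆ = ⊥ := by
  obtain ⟨-, hZW, hWΩ, -, -⟩ := Cfsg.Agent.S0622.result hS
  obtain ⟨W, hWdef⟩ : ∃ W, W = Cfsg.stableNormalClosure p S := ⟨_, rfl⟩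
  rw [← hWdef] at hq hZW hWΩ ⊢
  obtain ⟨Q, hQdef⟩ : ∃ Q : Set S,
      Q = {y : S | ⁅⁅W, Subgroup.zpowers y⁆, Subgroup.zpowers y⁆ = ⊥} := ⟨_, rfl⟩
  have hxQ : x ∈ Q := by rw [hQdef]; exact hq
  -- normality of the images of `W`
  have hWn : ∀ (H : Type u) [Group H] (τ : S →* H), Cfsg.IsStableEmbedding p τ →
      (W.map τ).Normal := by
    intro H _ τ hτ
    have hτ' := hτ
    obtain ⟨hinj, hfin, ⟨P, hP⟩, hcent, hJn, hV⟩ := hτ
    have hΩn : ((Cfsg.omegaCenterThompson p S).map τ).Normal := by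
      rw [Cfsg.Agent.Helper24.omegaCenterThompson_map_inj p τ hinj]
      haveI := hJn
      exact Cfsg.Agent.Helper24.omegaOne_center_normal p _
    constructor
    intro n hn g
    obtain ⟨w, hw, rfl⟩ := hn
    have h1 : g * τ w * g⁻¹ ∈ (Cfsg.omegaCenterThompson p S).map τ :=
      hΩn.conj_mem _ (Subgroup.mem_map_of_mem τ (hWΩ hw)) g
    obtain ⟨w₀, hw₀, hw₀e⟩ := h1
    refine ⟨w₀, ?_, hw₀e⟩
    rw [SetLike.mem_coe, hWdef]
    unfold Cfsg.stableNormalClosure
    rw [Subgroup.mem_sInf]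
    intro W' hW'
    have hwW' : w ∈ W' := by
      have hle : Cfsg.stableNormalClosure p S ≤ W' := sInf_le hW'
      rw [← hWdef] at hle
      exact hle hw
    have hn' := hW'.2 H τ hτ'
    obtain ⟨w', hw', hw'e⟩ := hn'.conj_mem _ (Subgroup.mem_map_of_mem τ hwW') g
    have hww : w' = w₀ := hinj (hw'e.trans hw₀e.symm)
    rw [← hww]; exact hw'
  -- the subgroup `U = C_W(Q)` belongs to the defining family
  have hU : W ⊓ Subgroup.centralizer Q ∈
      {W' : Subgroup S | Cfsg.omegaOne p (Subgroup.center S) ≤ W' ∧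
        ∀ (H : Type u) [Group H] (τ : S →* H), Cfsg.IsStableEmbedding p τ →
          (W'.map τ).Normal} := by
    refine ⟨le_inf hZW ?_, ?_⟩
    · refine le_trans ?_ (Subgroup.center_le_centralizer Q)
      unfold Cfsg.omegaOne
      rw [Subgroup.closure_le]
      intro z hz
      exact hz.1
    · intro H _ τ hτ
      have hWnτ := hWn H τ hτ
      obtain ⟨hinj, hfin, ⟨P, hP⟩, hcent, hJn, hV⟩ := hτ
      haveI := hfin
      haveI := hWnτ
      have hst := hV (W.map τ) (Subgroup.map_mono hWΩ)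
      constructor
      intro n hn g
      obtain ⟨u, hu, rfl⟩ := hn
      have huW : u ∈ W := (Subgroup.mem_inf.mp hu).1
      have huQ : u ∈ Subgroup.centralizer Q := (Subgroup.mem_inf.mp hu).2
      obtain ⟨u₁, hu₁, hu₁e⟩ := hWnτ.conj_mem _ (Subgroup.mem_map_of_mem τ huW) g
      refine ⟨u₁, Subgroup.mem_inf.mpr ⟨hu₁, ?_⟩, hu₁e⟩
      rw [Subgroup.mem_centralizer_iff]
      intro y hy
      apply hinj
      rw [map_mul, map_mul, hu₁e]
      have hyq : ⁅⁅W, Subgroup.zpowers y⁆, Subgroup.zpowers y⁆ = ⊥ := by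
        rw [hQdef] at hy; exact hy
      have hyq' : ⁅⁅W.map τ, Subgroup.zpowers (τ y)⁆, Subgroup.zpowers (τ y)⁆ = ⊥ := by
        rw [← snq_map_quad, hyq, Subgroup.map_bot]
      have haq := snq_quad_conj (W.map τ) (τ y) g⁻¹ hyq'
      rw [inv_inv] at haq
      have hmem := hst (g⁻¹ * τ y * g) haq
      have hsurj : Function.Surjective
          (QuotientGroup.mk' (Subgroup.centralizer ((W.map τ : Subgroup H) : Set H))) :=
        QuotientGroup.mk'_surjective _
      have hle := Cfsg.Agent.Helper16.pCore_le_sylow (P.mapSurjective hsurj)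
      have hmem3 : (QuotientGroup.mk (g⁻¹ * τ y * g) :
            H ⧸ Subgroup.centralizer ((W.map τ : Subgroup H) : Set H)) ∈
          (P : Subgroup H).map
            (QuotientGroup.mk' (Subgroup.centralizer ((W.map τ : Subgroup H) : Set H))) :=
        hle hmem
      obtain ⟨t, ht, hte⟩ := Subgroup.mem_map.mp hmem3
      rw [hP] at ht
      obtain ⟨s, rfl⟩ := MonoidHom.mem_range.mp ht
      have hte' : ((τ s : H) : H ⧸ Subgroup.centralizer ((W.map τ : Subgroup H) : Set H))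
          = ((g⁻¹ * τ y * g : H) : H ⧸ Subgroup.centralizer ((W.map τ : Subgroup H) : Set H)) :=
        hte
      have hta : ∀ k : ℤ, ((g⁻¹ * τ y * g) ^ k)⁻¹ * (τ s) ^ k ∈
          Subgroup.centralizer ((W.map τ : Subgroup H) : Set H) := by
        intro k
        apply QuotientGroup.eq.mp
        rw [QuotientGroup.mk_zpow, QuotientGroup.mk_zpow, hte']
      have hsq' := snq_quad_coset (W.map τ) (g⁻¹ * τ y * g) (τ s) hta haq
      have hsq := snq_quad_pullback τ hinj W s hsq'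
      have hsQ : s ∈ Q := by rw [hQdef]; exact hsq
      have hsu : s * u = u * s := (Subgroup.mem_centralizer_iff.mp huQ) s hsQ
      have hc : (τ s)⁻¹ * (g⁻¹ * τ y * g) ∈
          Subgroup.centralizer ((W.map τ : Subgroup H) : Set H) :=
        QuotientGroup.eq.mp hte'
      have hcu : τ u * ((τ s)⁻¹ * (g⁻¹ * τ y * g)) = ((τ s)⁻¹ * (g⁻¹ * τ y * g)) * τ u :=
        (Subgroup.mem_centralizer_iff.mp hc) (τ u) (Subgroup.mem_map_of_mem τ huW)
      have hsu' : τ s * τ u = τ u * τ s := by rw [← map_mul, ← map_mul, hsu]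
      have hcomm : (g⁻¹ * τ y * g) * τ u = τ u * (g⁻¹ * τ y * g) := by
        calc (g⁻¹ * τ y * g) * τ u
            = τ s * (((τ s)⁻¹ * (g⁻¹ * τ y * g)) * τ u) := by group
          _ = τ s * (τ u * ((τ s)⁻¹ * (g⁻¹ * τ y * g))) := by rw [hcu]
          _ = (τ s * τ u) * ((τ s)⁻¹ * (g⁻¹ * τ y * g)) := (mul_assoc _ _ _).symm
          _ = (τ u * τ s) * ((τ s)⁻¹ * (g⁻¹ * τ y * g)) := by rw [hsu']
          _ = τ u * (g⁻¹ * τ y * g) := by group
      calc τ y * (g * τ u * g⁻¹) = g * ((g⁻¹ * τ y * g) * τ u) * g⁻¹ := by group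
        _ = g * (τ u * (g⁻¹ * τ y * g)) * g⁻¹ := by rw [hcomm]
        _ = g * τ u * g⁻¹ * τ y := by group
  have hle : Cfsg.stableNormalClosure p S ≤ W ⊓ Subgroup.centralizer Q := sInf_le hU
  rw [← hWdef] at hle
  rw [Subgroup.commutator_eq_bot_iff_le_centralizer]
  intro w hw
  have hwQ : w ∈ Subgroup.centralizer Q := (Subgroup.mem_inf.mp (hle hw)).2
  have hxw : x * w = w * x := (Subgroup.mem_centralizer_iff.mp hwQ) x hxQ
  rw [Subgroup.mem_centralizer_iff]
  intro h hh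
  obtain ⟨k, rfl⟩ := Subgroup.mem_zpowers_iff.mp hh
  exact (Commute.zpow_left (show Commute x w from hxw) k).eq

end Cfsg.Agent.Helper4
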