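import Mathlib
import Cfsg.Prelude.Def_PLocal
import Cfsg.Agent.Helper9.ABLemma
import Cfsg.Agent.Helper4.StabSeries

set_option autoImplicit false

namespace Cfsg.Agent.Helper4

open scoped commutatorElement

universe u

section Uniserial

variable {L : Type u} [Group L]

theorem uni_normalizer_of_conj {S : Subgroup L} {e : L} (h1 : ∀ w ∈ S, e * w * e⁻¹ ∈ S)
    (h2 : ∀ w ∈ S, e⁻¹ * w * e ∈ S) : e ∈ Subgroup.normalizer (S : Set L) := by
  rw [Subgroup.mem_normalizer_iff]
  intro w
  refine ⟨h1 w, fun hw => ?_⟩
  have := h2 _ hw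
  have e2 : e⁻¹ * (e * w * e⁻¹) * e = w := by group
  rwa [e2] at this

theorem uni_conj_mem {S : Subgroup L} {e : L} (he : e ∈ Subgroup.normalizer (S : Set L)) {w : L}
    (hw : w ∈ S) : e * w * e⁻¹ ∈ S := (Subgroup.mem_normalizer_iff.mp he w).mp hw

theorem uni_conj_mem' {S : Subgroup L} {e : L} (he : e ∈ Subgroup.normalizer (S : Set L)) {w : L}
    (hw : w ∈ S) : e⁻¹ * w * e ∈ S := by
  have := uni_conj_mem (Subgroup.inv_mem _ he) hw
  simpa using this

/-- `[H, G] ≤ H` when `G` normalises `H`. -/
theorem uni_comm_le {H G : Subgroup L} (hGH : G ≤ Subgroup.normalizer (H : Set L)) :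
    ⁅H, G⁆ ≤ H := by
  rw [Subgroup.commutator_le]
  intro h hh g hg
  have e1 : ⁅h, g⁆ = h * (g * h⁻¹ * g⁻¹) := by rw [commutatorElement_def]; group
  rw [e1]
  exact H.mul_mem hh (uni_conj_mem (hGH hg) (H.inv_mem hh))

/-- `G` normalises `[H, G]` when `G` normalises `H`. -/
theorem uni_comm_norm {H G : Subgroup L} (hGH : G ≤ Subgroup.normalizer (H : Set L)) :
    G ≤ Subgroup.normalizer ((⁅H, G⁆ : Subgroup L) : Set L) := by
  intro g hg
  refine uni_normalizer_of_conj ?_ ?_
  · exact stab_conj_mem_commutator (fun a ha => uni_conj_mem (hGH hg) ha)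
      (fun b hb => G.mul_mem (G.mul_mem hg hb) (G.inv_mem hg))
  · intro w hw
    have := stab_conj_mem_commutator (A := H) (B := G) (g := g⁻¹)
      (fun a ha => uni_conj_mem (hGH (G.inv_mem hg)) ha)
      (fun b hb => G.mul_mem (G.mul_mem (G.inv_mem hg) hb) (G.inv_mem (G.inv_mem hg))) w hw
    simpa using this

theorem uni_exists_mul {H K : Subgroup L} (hn : H ≤ Subgroup.normalizer (K : Set L)) {x : L}
    (hx : x ∈ H ⊔ K) : ∃ h ∈ H, ∃ y ∈ K, x = h * y := by
  let S : Subgroup L :=
    { carrier := {g | ∃ h ∈ H, ∃ y ∈ K, g = h * y}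
      one_mem' := ⟨1, H.one_mem, 1, K.one_mem, (mul_one 1).symm⟩
      mul_mem' := by
        rintro _ _ ⟨h₁, hh₁, y₁, hy₁, rfl⟩ ⟨h₂, hh₂, y₂, hy₂, rfl⟩
        refine ⟨h₁ * h₂, H.mul_mem hh₁ hh₂, (h₂⁻¹ * y₁ * h₂) * y₂,
          K.mul_mem (uni_conj_mem' (hn hh₂) hy₁) hy₂, by group⟩
      inv_mem' := by
        rintro _ ⟨h, hh, y, hy, rfl⟩
        refine ⟨h⁻¹, H.inv_mem hh, h * y⁻¹ * h⁻¹, uni_conj_mem (hn hh) (K.inv_mem hy), by group⟩ }
  have h1 : H ⊔ K ≤ S :=
    sup_le (fun h hh => ⟨h, hh, 1, K.one_mem, (mul_one h).symm⟩)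
      (fun y hy => ⟨1, H.one_mem, y, hy, (one_mul y).symm⟩)
  exact h1 hx

end Uniserial

/-- Uniserial actions of `p`-groups: characterisation by the iterated commutator chain. -/
theorem uniserial_main {L : Type u} [Group L] [Finite L] {p : ℕ} [Fact p.Prime] (N G : Subgroup L)
    (hN : IsPGroup p N) (hG : IsPGroup p G) (hGN : G ≤ Subgroup.normalizer (N : Set L)) (n : ℕ)
    (hn : Nat.card N = p ^ n) :
    ((∀ H : Subgroup L, H ≤ N → G ≤ Subgroup.normalizer (H : Set L) → H ≠ ⊥ →
        (⁅H, G⁆).relIndex H = p) ↔ Cfsg.iterCommutator N G (n - 1) ≠ ⊥ ∨ n = 0) ∧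
    ((∀ H : Subgroup L, H ≤ N → G ≤ Subgroup.normalizer (H : Set L) → H ≠ ⊥ →
        (⁅H, G⁆).relIndex H = p) →
      ∀ H : Subgroup L, H ≤ N → G ≤ Subgroup.normalizer (H : Set L) →
        (∃ i ≤ n, H = Cfsg.iterCommutator N G i) ∧ N ≤ Subgroup.normalizer (H : Set L)) := by
  have hp : p.Prime := Fact.out
  obtain ⟨M, hM⟩ : ∃ M : ℕ → Subgroup L, M = Cfsg.iterCommutator N G := ⟨_, rfl⟩
  have hM0 : M 0 = N := by rw [hM]; rfl
  have hMs : ∀ i, M (i + 1) = ⁅M i, G⁆ := by intro i; rw [hM]; rfl
  simp only [← hM]
  have hinv : ∀ i, G ≤ Subgroup.normalizer (M i : Set L) := by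
    intro i
    induction i with
    | zero => rw [hM0]; exact hGN
    | succ i ih => rw [hMs]; exact uni_comm_norm ih
  have hstep : ∀ i, M (i + 1) ≤ M i := fun i => by rw [hMs]; exact uni_comm_le (hinv i)
  have hanti : Antitone M := antitone_nat_of_succ_le hstep
  have hleN : ∀ i, M i ≤ N := by
    intro i
    have := hanti (Nat.zero_le i)
    rwa [hM0] at this
  have hpg : ∀ i, IsPGroup p (M i) := fun i => hN.to_le (hleN i)
  have hcard : ∀ i, ∃ a, Nat.card (M i) = p ^ a := fun i => IsPGroup.iff_card.mp (hpg i)
  choose e he using hcard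
  have hpinj : ∀ a b : ℕ, p ^ a = p ^ b → a = b := fun a b h =>
    Nat.pow_right_injective hp.two_le h
  have he0 : e 0 = n := by
    apply hpinj
    rw [← he 0, hM0, hn]
  have hbot : ∀ i, M i = ⊥ ↔ e i = 0 := by
    intro i
    rw [← Subgroup.card_eq_one, he i]
    constructor
    · intro h
      by_contra h0
      have : 1 < p ^ e i := Nat.one_lt_pow h0 hp.one_lt
      omega
    · intro h; rw [h, pow_zero]
  have hmono : ∀ i, e (i + 1) ≤ e i := by
    intro i
    have h := Subgroup.card_le_of_le (hstep i)
    rw [he (i + 1), he i] at h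
    exact (Nat.pow_le_pow_iff_right hp.one_lt).mp h
  have hstrict : ∀ i, e i ≠ 0 → e (i + 1) < e i := by
    intro i hi
    have hne : M i ≠ ⊥ := fun h => hi ((hbot i).mp h)
    have hlt : M (i + 1) < M i := by
      rw [hMs]
      exact Cfsg.Agent.Helper9.commutator_lt_of_pgroups p (M i) G (hpg i) hG (hinv i) hne
    rcases (hmono i).lt_or_eq with h | h
    · exact h
    · exfalso
      have hc : Nat.card (M i) ≤ Nat.card (M (i + 1)) := by rw [he (i + 1), he i, h]
      exact hlt.ne (Subgroup.eq_of_le_of_card_ge hlt.le hc)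
  have hub : ∀ i, i ≤ n → e i ≤ n - i := by
    intro i
    induction i with
    | zero => intro _; rw [he0]; omega
    | succ i ih =>
      intro hi
      have h1 := ih (by omega)
      by_cases h0 : e i = 0
      · have := hmono i; omega
      · have := hstrict i h0; omega
  have hMn : M n = ⊥ := (hbot n).mpr (by have := hub n le_rfl; omega)
  have hrel : ∀ i, Nat.card (M (i + 1)) * (M (i + 1)).relIndex (M i) = Nat.card (M i) := by
    intro i
    have := Subgroup.relIndex_mul_relIndex (H := ⊥) (K := M (i + 1)) (L := M i) bot_le (hstep i)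
    rwa [Subgroup.relIndex_bot_left, Subgroup.relIndex_bot_left] at this
  -- the chain has the right orders
  have hgood_of : (M (n - 1) ≠ ⊥ ∨ n = 0) → ∀ i, i ≤ n → e i = n - i := by
    intro h i hi
    rcases h with h | h
    · have hen : e (n - 1) ≠ 0 := fun h0 => h ((hbot _).mpr h0)
      have hlow : ∀ j, j + 1 ≤ n → j + 1 ≤ e (n - 1 - j) := by
        intro j
        induction j with
        | zero => intro _; simp only [Nat.sub_zero]; omega
        | succ j ih =>
          intro hj
          have h1 := ih (by omega)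
          have e1 : n - 1 - j = (n - 1 - (j + 1)) + 1 := by omega
          rw [e1] at h1
          have h2 := hmono (n - 1 - (j + 1))
          have h3 := hstrict (n - 1 - (j + 1)) (by omega)
          omega
      have hub' := hub i hi
      rcases Nat.lt_or_ge i n with hlt | hge
      · have h1 := hlow (n - 1 - i) (by omega)
        have e1 : n - 1 - (n - 1 - i) = i := by omega
        rw [e1] at h1
        omega
      · omega
    · have h0 := he0
      have : i = 0 := by omega
      rw [this]
      omega
  have hU_imp : (∀ H : Subgroup L, H ≤ N → G ≤ Subgroup.normalizer (H : Set L) → H ≠ ⊥ →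
        (⁅H, G⁆).relIndex H = p) → (M (n - 1) ≠ ⊥ ∨ n = 0) := by
    intro hU
    rcases Nat.eq_zero_or_pos n with h0 | hpos
    · exact Or.inr h0
    · left
      have hall : ∀ i, i ≤ n - 1 → e i = n - i := by
        intro i
        induction i with
        | zero => intro _; rw [he0]; omega
        | succ i ih =>
          intro hi
          have h1 := ih (by omega)
          have hne : M i ≠ ⊥ := fun h => by have := (hbot i).mp h; omega
          have h2 := hU (M i) (hleN i) (hinv i) hne
          have h3 := hrel i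
          rw [hMs i, h2, he i] at h3
          have h4 : Nat.card (M (i + 1)) = p ^ e (i + 1) := he (i + 1)
          rw [hMs i] at h4
          rw [h4] at h3
          have h5 : p ^ (e (i + 1) + 1) = p ^ e i := by rw [pow_succ]; exact h3
          have := hpinj _ _ h5
          omega
      intro hbot'
      have h1 := (hbot _).mp hbot'
      have h2 := hall (n - 1) le_rfl
      omega
  have hnormal : (∀ i, i ≤ n → e i = n - i) →
      ∀ i, i ≤ n → N ≤ Subgroup.normalizer (M i : Set L) := by
    intro hgood i
    induction i with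
    | zero => intro _; rw [hM0]; exact Subgroup.le_normalizer
    | succ i ih =>
      intro hi
      have hNi := ih (by omega)
      have hB : IsPGroup p (N ⊔ G : Subgroup L) := hN.to_sup_of_normal_left' hG hGN
      have hBn : N ⊔ G ≤ Subgroup.normalizer (M i : Set L) := sup_le hNi (hinv i)
      have hei := hgood i (by omega)
      have hei1 := hgood (i + 1) hi
      have hne : M i ≠ ⊥ := fun h => by have := (hbot i).mp h; omega
      have hlt := Cfsg.Agent.Helper9.commutator_lt_of_pgroups p (M i) (N ⊔ G) (hpg i) hB hBn hne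
      have hle1 : M (i + 1) ≤ ⁅M i, N ⊔ G⁆ := by
        rw [hMs]; exact Subgroup.commutator_mono le_rfl le_sup_right
      have hX : ⁅M i, N ⊔ G⁆ = M (i + 1) := by
        have hXp : IsPGroup p (⁅M i, N ⊔ G⁆ : Subgroup L) := (hpg i).to_le hlt.le
        obtain ⟨c, hc⟩ := IsPGroup.iff_card.mp hXp
        have h1 : c < e i := by
          by_contra hcon
          push Not at hcon
          have : Nat.card (M i) ≤ Nat.card (⁅M i, N ⊔ G⁆ : Subgroup L) := by
            rw [he i, hc]; exact Nat.pow_le_pow_right hp.pos hcon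
          exact hlt.ne (Subgroup.eq_of_le_of_card_ge hlt.le this)
        symm
        apply Subgroup.eq_of_le_of_card_ge hle1
        rw [he (i + 1), hc]
        exact Nat.pow_le_pow_right hp.pos (by omega)
      have hcomm : ⁅N, M i⁆ ≤ M (i + 1) := by
        rw [Subgroup.commutator_comm, ← hX]
        exact Subgroup.commutator_mono le_rfl le_sup_left
      intro x hx
      refine uni_normalizer_of_conj ?_ ?_
      · intro w hw
        have e1 : x * w * x⁻¹ = ⁅x, w⁆ * w := by rw [commutatorElement_def]; group
        rw [e1]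
        exact Subgroup.mul_mem _
          (hcomm (Subgroup.commutator_mem_commutator hx (hstep i hw))) hw
      · intro w hw
        have e1 : x⁻¹ * w * x = ⁅x⁻¹, w⁆ * w := by rw [commutatorElement_def]; group
        rw [e1]
        exact Subgroup.mul_mem _
          (hcomm (Subgroup.commutator_mem_commutator (N.inv_mem hx) (hstep i hw))) hw
  have hchain : (∀ i, i ≤ n → e i = n - i) → ∀ H : Subgroup L, H ≤ N →
      G ≤ Subgroup.normalizer (H : Set L) → ∃ i ≤ n, H = M i := by
    intro hgood H hHN hGH
    have hnorm := hnormal hgood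
    have key : ∀ k i, i + k = n → H ≤ M i → ∃ j ≤ n, H = M j := by
      intro k
      induction k with
      | zero =>
        intro i hi hH
        have hin : i = n := by omega
        refine ⟨n, le_rfl, ?_⟩
        rw [hin, hMn] at hH
        rw [hMn]
        exact le_bot_iff.mp hH
      | succ k ih =>
        intro i hi hH
        by_cases hH1 : H ≤ M (i + 1)
        · exact ih (i + 1) (by omega) hH1
        · refine ⟨i, by omega, ?_⟩
          have hei := hgood i (by omega)
          have hei1 := hgood (i + 1) (by omega)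
          have hsup1 : H ⊔ M (i + 1) = M i := by
            have hle : H ⊔ M (i + 1) ≤ M i := sup_le hH (hstep i)
            apply Subgroup.eq_of_le_of_card_ge hle
            have hXp : IsPGroup p (H ⊔ M (i + 1) : Subgroup L) := (hpg i).to_le hle
            obtain ⟨c, hc⟩ := IsPGroup.iff_card.mp hXp
            rw [he i, hc]
            apply Nat.pow_le_pow_right hp.pos
            by_contra hcon
            push Not at hcon
            have h1 : Nat.card (H ⊔ M (i + 1) : Subgroup L) ≤ Nat.card (M (i + 1)) := by
              rw [hc, he (i + 1)]; exact Nat.pow_le_pow_right hp.pos (by omega)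
            have h2 := Subgroup.eq_of_le_of_card_ge
              (le_sup_right : M (i + 1) ≤ H ⊔ M (i + 1)) h1
            exact hH1 (h2 ▸ le_sup_left)
          have hsup : ∀ j, i + 1 ≤ j → j ≤ n → H ⊔ M j = M i := by
            intro j hj
            induction j, hj using Nat.le_induction with
            | base => intro _; exact hsup1
            | succ j hj ihj =>
              intro hjn
              have h1 := ihj (by omega)
              apply le_antisymm (sup_le hH (hanti (by omega)))
              have h2 : M (i + 1) ≤ H ⊔ M (j + 1) := by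
                rw [hMs i, ← h1, Subgroup.commutator_le]
                intro x hx g hg
                obtain ⟨h, hh, y, hy, rfl⟩ :=
                  uni_exists_mul ((hHN.trans (hnorm j (by omega))) : H ≤ _) hx
                have e1 : ⁅h * y, g⁆ = (h * ⁅y, g⁆ * h⁻¹) * ⁅h, g⁆ := by
                  simp only [commutatorElement_def]; group
                rw [e1]
                refine Subgroup.mul_mem _ (le_sup_right (a := H) ?_) (le_sup_left (b := M (j + 1)) ?_)
                · have h3 : ⁅y, g⁆ ∈ M (j + 1) := by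
                    rw [hMs j]; exact Subgroup.commutator_mem_commutator hy hg
                  exact uni_conj_mem (hnorm (j + 1) hjn (hHN hh)) h3
                · exact uni_comm_le hGH (Subgroup.commutator_mem_commutator hh hg)
              rw [← hsup1]
              exact sup_le le_sup_left h2
          have hfin := hsup n (by omega) le_rfl
          rw [hMn, sup_bot_eq] at hfin
          exact hfin
    exact key n 0 (by omega) (by rw [hM0]; exact hHN)
  have hU_of : (∀ i, i ≤ n → e i = n - i) → ∀ H : Subgroup L, H ≤ N →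
      G ≤ Subgroup.normalizer (H : Set L) → H ≠ ⊥ → (⁅H, G⁆).relIndex H = p := by
    intro hgood H hHN hGH hne
    obtain ⟨i, hi, rfl⟩ := hchain hgood H hHN hGH
    have hin : i < n := by
      rcases Nat.lt_or_ge i n with h | h
      · exact h
      · exfalso
        have hin : i = n := by omega
        rw [hin] at hne
        exact hne hMn
    have h3 := hrel i
    rw [he (i + 1), he i, hgood i hi, hgood (i + 1) (by omega)] at h3
    rw [← hMs]
    have h4 : p ^ (n - i) = p ^ (n - (i + 1)) * p := by
      rw [← pow_succ]; congr 1; omega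
    rw [h4] at h3
    exact Nat.eq_of_mul_eq_mul_left (pow_pos hp.pos _) h3
  refine ⟨⟨hU_imp, fun h => hU_of (hgood_of h)⟩, ?_⟩
  intro hU H hHN hGH
  have hgood := hgood_of (hU_imp hU)
  obtain ⟨i, hi, rfl⟩ := hchain hgood H hHN hGH
  exact ⟨⟨i, hi, rfl⟩, hnormal hgood i hi⟩

end Cfsg.Agent.Helper4
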