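import Mathlib
import Cfsg.Prelude.Def_PLocal
import Cfsg.Agent.Helper4.StableQuad
import Cfsg.Agent.Helper4.ElemAb
import Cfsg.Agent.Helper4.Basic
import Cfsg.Agent.Helper4.Uniserial
import Cfsg.Agent.Helper11.TI2
import Cfsg.Agent.S0607

set_option autoImplicit false

namespace Cfsg.Agent.Helper4

universe u

open scoped commutatorElement

/-! ### The subgroup generated by the largest elementary abelian subgroups inside `R` -/

/-- join of the elementary abelian subgroups of `G` of largest order contained in `R` -/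
def snnJ {G : Type u} [Group G] (p : ℕ) (R : Subgroup G) : Subgroup G :=
  sSup {A : Subgroup G | A ∈ Cfsg.maxElementaryAbelianSubgroups p G ∧ A ≤ R}

theorem snnJ_map {G : Type u} [Group G] (p : ℕ) (R : Subgroup G) (ϕ : G ≃* G) :
    snnJ p (R.map ϕ.toMonoidHom) = (snnJ p R).map ϕ.toMonoidHom := by
  apply le_antisymm
  · unfold snnJ
    apply sSup_le
    rintro A ⟨hA, hAR⟩ a ha
    have hA' := maxEA_map_equiv ϕ.symm hA
    have hA'R : A.map ϕ.symm.toMonoidHom ≤ R := by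
      rintro _ ⟨b, hb, rfl⟩
      obtain ⟨r, hr, hrb⟩ := hAR hb
      have e : ϕ.symm.toMonoidHom b = r := by
        rw [← hrb]; simp
      rw [e]; exact hr
    have h1 : ϕ.symm a ∈ sSup {A : Subgroup G |
        A ∈ Cfsg.maxElementaryAbelianSubgroups p G ∧ A ≤ R} :=
      (le_sSup (show A.map ϕ.symm.toMonoidHom ∈ {A : Subgroup G |
        A ∈ Cfsg.maxElementaryAbelianSubgroups p G ∧ A ≤ R} from ⟨hA', hA'R⟩)) ⟨a, ha, rfl⟩
    exact ⟨ϕ.symm a, h1, by simp⟩
  · unfold snnJ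
    rw [Subgroup.map_le_iff_le_comap]
    apply sSup_le
    rintro A ⟨hA, hAR⟩
    rw [← Subgroup.map_le_iff_le_comap]
    exact le_sSup ⟨maxEA_map_equiv ϕ hA, Subgroup.map_mono hAR⟩

theorem snnJ_le_of_le {G : Type u} [Group G] {p : ℕ} {R T : Subgroup G}
    (h : snnJ p R ≤ T) : snnJ p R ≤ snnJ p T := by
  unfold snnJ
  apply sSup_le
  rintro A ⟨hA, hAR⟩
  exact le_sSup ⟨hA, (le_sSup (show A ∈ {A : Subgroup G |
    A ∈ Cfsg.maxElementaryAbelianSubgroups p G ∧ A ≤ R} from ⟨hA, hAR⟩)).trans h⟩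

theorem snn_thompsonOf_eq {G : Type u} [Group G] [Finite G] {p : ℕ} [Fact p.Prime]
    (S : Sylow p G) : Cfsg.thompsonSubgroupOf p (S : Subgroup G) = snnJ p (S : Subgroup G) := by
  obtain ⟨A₀, hA₀, hA₀S⟩ := exists_maxEA_le_sylow S
  apply le_antisymm
  · unfold Cfsg.thompsonSubgroupOf Cfsg.thompsonSubgroup snnJ
    rw [Subgroup.map_le_iff_le_comap]
    apply sSup_le
    intro A' hA'
    rw [← Subgroup.map_le_iff_le_comap]
    exact le_sSup ⟨maxEA_map_subtype (S : Subgroup G) hA₀ hA₀S hA', Subgroup.map_subtype_le A'⟩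
  · unfold snnJ
    apply sSup_le
    rintro A ⟨hA, hAS⟩
    exact le_thompsonSubgroupOf (S : Subgroup G) hA hAS

theorem snnJ_normalizer {G : Type u} [Group G] [Finite G] {p : ℕ} [Fact p.Prime]
    (S : Sylow p G) (R : Subgroup G) (hR : IsPGroup p R) (hJR : snnJ p (S : Subgroup G) ≤ R)
    (n : G) (hn : n ∈ Subgroup.normalizer (R : Set G)) :
    n ∈ Subgroup.normalizer (snnJ p (S : Subgroup G) : Set G) := by
  obtain ⟨T, hRT⟩ := hR.exists_le_sylow
  obtain ⟨g, hg⟩ := sylow_conj_mem S T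
  have hTmap : (S : Subgroup G).map (MulAut.conj g).toMonoidHom = (T : Subgroup G) := by
    ext x
    rw [hg x]
    constructor
    · rintro ⟨s, hs, rfl⟩
      have e : g⁻¹ * (MulAut.conj g).toMonoidHom s * g = s := by
        simp only [MulEquiv.coe_toMonoidHom, MulAut.conj_apply]; group
      rw [e]; exact hs
    · intro hx
      refine ⟨g⁻¹ * x * g, hx, ?_⟩
      simp only [MulEquiv.coe_toMonoidHom, MulAut.conj_apply]; group
  have hJT : snnJ p (S : Subgroup G) = snnJ p (T : Subgroup G) := by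
    apply Subgroup.eq_of_le_of_card_ge (snnJ_le_of_le (hJR.trans hRT))
    rw [← hTmap, snnJ_map,
      Subgroup.card_map_of_injective (f := (MulAut.conj g).toMonoidHom) (MulAut.conj g).injective]
  have hmap : (snnJ p (S : Subgroup G)).map (MulAut.conj n).toMonoidHom
      = snnJ p (S : Subgroup G) := by
    apply Subgroup.eq_of_le_of_card_ge
    · rw [← snnJ_map]
      have h1 : snnJ p ((S : Subgroup G).map (MulAut.conj n).toMonoidHom) ≤ (T : Subgroup G) := by
        rw [snnJ_map]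
        rintro _ ⟨j, hj, rfl⟩
        apply hRT
        simp only [MulEquiv.coe_toMonoidHom, MulAut.conj_apply]
        exact (Subgroup.mem_normalizer_iff.mp hn j).mp (hJR hj)
      have h2 := snnJ_le_of_le h1
      rw [← hJT] at h2
      exact h2
    · rw [Subgroup.card_map_of_injective (f := (MulAut.conj n).toMonoidHom)
        (MulAut.conj n).injective]
  apply uni_normalizer_of_conj
  · intro w hw
    have h : (MulAut.conj n).toMonoidHom w ∈
        (snnJ p (S : Subgroup G)).map (MulAut.conj n).toMonoidHom :=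
      Subgroup.mem_map_of_mem _ hw
    rw [hmap] at h
    simpa only [MulEquiv.coe_toMonoidHom, MulAut.conj_apply] using h
  · intro w hw
    rw [← hmap] at hw
    obtain ⟨j, hj, rfl⟩ := hw
    have e : n⁻¹ * (MulAut.conj n).toMonoidHom j * n = j := by
      simp only [MulEquiv.coe_toMonoidHom, MulAut.conj_apply]; group
    rw [e]; exact hj

/-- Frattini argument for the Thompson subgroup. -/
theorem snn_frattini {G : Type u} [Group G] [Finite G] {p : ℕ} [Fact p.Prime]
    (S : Sylow p G) (C : Subgroup G) [hCn : C.Normal] (hC : Cfsg.thompsonSubgroup p G ≤ C) :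
    Subgroup.normalizer (Cfsg.thompsonSubgroupOf p (S : Subgroup G) : Set G) ⊔ C = ⊤ := by
  obtain ⟨A₀, hA₀, hA₀S⟩ := exists_maxEA_le_sylow S
  have hJC : Cfsg.thompsonSubgroupOf p (S : Subgroup G) ≤ C :=
    (thompsonSubgroupOf_le (S : Subgroup G) hA₀ hA₀S).trans hC
  have hJS : Cfsg.thompsonSubgroupOf p (S : Subgroup G) ≤ (S : Subgroup G) := by
    unfold Cfsg.thompsonSubgroupOf
    exact Subgroup.map_subtype_le _
  have hJp : IsPGroup p ↥(Cfsg.thompsonSubgroupOf p (S : Subgroup G)) := S.isPGroup'.to_le hJS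
  obtain ⟨P, hP⟩ := (hJp.comap_subtype (K := C)).exists_le_sylow
  have hJP : Cfsg.thompsonSubgroupOf p (S : Subgroup G) ≤ (P : Subgroup ↥C).map C.subtype := by
    intro x hx
    exact ⟨⟨x, hJC hx⟩, hP (show (⟨x, hJC hx⟩ : ↥C) ∈
      (Cfsg.thompsonSubgroupOf p (S : Subgroup G)).comap C.subtype from hx), rfl⟩
  have hPp : IsPGroup p ↥((P : Subgroup ↥C).map C.subtype) := P.isPGroup'.map C.subtype
  have hfr := Sylow.normalizer_sup_eq_top P
  rw [eq_top_iff, ← hfr]
  apply sup_le_sup_right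
  intro n hn
  rw [snn_thompsonOf_eq]
  rw [snn_thompsonOf_eq] at hJP
  exact snnJ_normalizer S _ hPp hJP n hn

/-! ### `Ω₁(Z(J(P)))` is elementary abelian -/

theorem snn_oct_le (p : ℕ) (P : Type*) [Group P] :
    Cfsg.omegaCenterThompson p P ≤ Cfsg.thompsonSubgroup p P ⊓
      Subgroup.centralizer (Cfsg.thompsonSubgroup p P : Set P) := by
  unfold Cfsg.omegaCenterThompson Cfsg.omegaOne
  rw [Subgroup.closure_le]
  intro z hz
  exact hz.1

theorem snn_oct_pow (p : ℕ) (P : Type*) [Group P] (x : P)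
    (hx : x ∈ Cfsg.omegaCenterThompson p P) : x ^ p = 1 := by
  have hle := snn_oct_le p P
  unfold Cfsg.omegaCenterThompson Cfsg.omegaOne at hx
  induction hx using Subgroup.closure_induction with
  | mem z hz => exact hz.2
  | one => exact one_pow p
  | mul a b ha hb iha ihb =>
    have ha' := hle (show a ∈ Cfsg.omegaCenterThompson p P from ha)
    have hb' := hle (show b ∈ Cfsg.omegaCenterThompson p P from hb)
    have hab : Commute a b :=
      (Subgroup.mem_centralizer_iff.mp (Subgroup.mem_inf.mp hb').2) a (Subgroup.mem_inf.mp ha').1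
    rw [hab.mul_pow, iha, ihb, one_mul]
  | inv a ha iha => rw [inv_pow, iha, inv_one]

theorem snn_zp_conj_mem {G : Type*} [Group G] (W' : Subgroup G) (g x : G) (hx : x ∈ W') (b : G)
    (hb : b ∈ Subgroup.zpowers (g * x * g⁻¹)) : ∃ b₀ ∈ W', b = g * b₀ * g⁻¹ := by
  obtain ⟨k, rfl⟩ := Subgroup.mem_zpowers_iff.mp hb
  exact ⟨x ^ k, W'.zpow_mem hx k, by rw [conj_zpow]⟩

theorem snn_sectionKernel_comm_mem {G : Type*} [Group G] (K N : Subgroup G) [N.Normal] {x q : G}
    (hx : x ∈ Cfsg.sectionKernel K N) (hq : q ∈ K) : q⁻¹ * x * q * x⁻¹ ∈ N := by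
  unfold Cfsg.sectionKernel at hx
  rw [Subgroup.mem_comap, Subgroup.mem_centralizer_iff] at hx
  have h1 := hx _ (Subgroup.mem_map_of_mem (QuotientGroup.mk' N) hq)
  rw [← QuotientGroup.ker_mk' N, MonoidHom.mem_ker, map_mul, map_mul, map_mul, map_inv, map_inv,
    mul_assoc ((QuotientGroup.mk' N) q)⁻¹, ← h1, inv_mul_cancel_left, mul_inv_cancel]

/-! ### Stable embeddings -/

theorem snn_map_normal {S : Type u} [Group S] [Finite S] {p : ℕ} [Fact p.Prime]
    (hS : IsPGroup p S) {H : Type u} [Group H] (τ : S →* H) (hτ : Cfsg.IsStableEmbedding p τ) :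
    ((Cfsg.stableNormalClosure p S).map τ).Normal := by
  obtain ⟨-, -, hWΩ, -, -⟩ := Cfsg.Agent.S0622.result hS
  have hτ' := hτ
  obtain ⟨hinj, hfin, ⟨P, hP⟩, hcent, hJn, hV⟩ := hτ
  have hΩn : ((Cfsg.omegaCenterThompson p S).map τ).Normal := by
    rw [Cfsg.Agent.Helper24.omegaCenterThompson_map_inj p τ hinj]
    haveI := hJn
    exact Cfsg.Agent.Helper24.omegaOne_center_normal p _
  constructor
  intro n hn g
  obtain ⟨w, hw, rfl⟩ := hn
  have h1 : g * τ w * g⁻¹ ∈ (Cfsg.omegaCenterThompson p S).map τ :=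
    hΩn.conj_mem _ (Subgroup.mem_map_of_mem τ (hWΩ hw)) g
  obtain ⟨w₀, hw₀, hw₀e⟩ := h1
  refine ⟨w₀, ?_, hw₀e⟩
  rw [SetLike.mem_coe]
  unfold Cfsg.stableNormalClosure
  rw [Subgroup.mem_sInf]
  intro W' hW'
  have hwW' : w ∈ W' := by
    have hle : Cfsg.stableNormalClosure p S ≤ W' := sInf_le hW'
    exact hle hw
  have hn' := hW'.2 H τ hτ'
  obtain ⟨w', hw', hw'e⟩ := hn'.conj_mem _ (Subgroup.mem_map_of_mem τ hwW') g
  have hww : w' = w₀ := hinj (hw'e.trans hw₀e.symm)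
  rw [← hww]; exact hw'

theorem snn_stable_embedding {G : Type u} [Group G] [Finite G] {p : ℕ} [Fact p.Prime]
    (hc : Subgroup.centralizer (Cfsg.pCore p G : Set G) ≤ Cfsg.pCore p G) (S : Sylow p G)
    (N : Subgroup G) (hSN : (S : Subgroup G) ≤ N)
    (hJN : ∀ n ∈ N, ∀ j ∈ Cfsg.thompsonSubgroupOf p (S : Subgroup G),
      n * j * n⁻¹ ∈ Cfsg.thompsonSubgroupOf p (S : Subgroup G))
    (hstN : ∀ (V : Subgroup ↥N) [V.Normal],
      V.map N.subtype ≤
          (Cfsg.omegaCenterThompson p ↥(S : Subgroup G)).map (S : Subgroup G).subtype →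
        Cfsg.IsPStableOn p V) :
    Cfsg.IsStableEmbedding p (Subgroup.inclusion hSN) := by
  refine ⟨Subgroup.inclusion_injective hSN, inferInstance, ⟨S.subtype hSN, ?_⟩, ?_, ?_, ?_⟩
  · rw [Sylow.coe_subtype, Subgroup.inclusion_range]
  · intro x hx
    have hQN : Cfsg.pCore p G ≤ N := (Cfsg.Agent.Helper16.pCore_le_sylow S).trans hSN
    have hQp : IsPGroup p ↥(Cfsg.pCore p G) := Cfsg.Agent.Helper16.pCore_isPGroup p G
    have hle : (Cfsg.pCore p G).subgroupOf N ≤ Cfsg.pCore p ↥N :=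
      Cfsg.Agent.Helper16.le_pCore inferInstance (hQp.comap_subtype)
    apply hle
    rw [Subgroup.mem_subgroupOf]
    apply hc
    rw [Subgroup.mem_centralizer_iff]
    intro q hq
    have h1 := (Subgroup.mem_centralizer_iff.mp hx) ⟨q, hQN hq⟩
      (hle (Subgroup.mem_subgroupOf.mpr hq))
    exact congrArg Subtype.val h1
  · constructor
    rintro _ ⟨j, hj, rfl⟩ n
    have hjJ : (j : G) ∈ Cfsg.thompsonSubgroupOf p (S : Subgroup G) :=
      show (j : G) ∈ (Cfsg.thompsonSubgroup p ↥(S : Subgroup G)).map (S : Subgroup G).subtype from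
        Subgroup.mem_map_of_mem _ hj
    obtain ⟨j', hj', hj'e⟩ := Subgroup.mem_map.mp
      (show (n : G) * (j : G) * (n : G)⁻¹ ∈
        (Cfsg.thompsonSubgroup p ↥(S : Subgroup G)).map (S : Subgroup G).subtype from
        hJN n n.2 (j : G) hjJ)
    refine ⟨j', hj', ?_⟩
    apply Subtype.ext
    exact hj'e
  · intro V hVn hV
    apply hstN V
    rintro _ ⟨v, hv, rfl⟩
    obtain ⟨ω, hω, rfl⟩ := hV hv
    exact ⟨ω, hω, rfl⟩

theorem snn_normalizer_le {G : Type u} [Group G] [Finite G] {p : ℕ} [Fact p.Prime]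
    (hst3 : ∀ (S : Sylow p G)
      (V : Subgroup ↥(Subgroup.normalizer (Cfsg.thompsonSubgroupOf p (S : Subgroup G) : Set G)))
      [V.Normal],
      V.map (Subgroup.normalizer (Cfsg.thompsonSubgroupOf p (S : Subgroup G) : Set G)).subtype ≤
          (Cfsg.omegaCenterThompson p ↥(S : Subgroup G)).map (S : Subgroup G).subtype →
        Cfsg.IsPStableOn p V)
    (hc : Subgroup.centralizer (Cfsg.pCore p G : Set G) ≤ Cfsg.pCore p G) (S : Sylow p G) :
    Subgroup.normalizer (Cfsg.thompsonSubgroupOf p (S : Subgroup G) : Set G) ≤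
      Subgroup.normalizer (((Cfsg.stableNormalClosure p ↥(S : Subgroup G)).map
        (S : Subgroup G).subtype : Subgroup G) : Set G) := by
  have hSN : (S : Subgroup G) ≤
      Subgroup.normalizer (Cfsg.thompsonSubgroupOf p (S : Subgroup G) : Set G) := by
    intro s hs
    rw [snn_thompsonOf_eq]
    have hJS : snnJ p (S : Subgroup G) ≤ (S : Subgroup G) := by
      rw [← snn_thompsonOf_eq]
      unfold Cfsg.thompsonSubgroupOf
      exact Subgroup.map_subtype_le _
    exact snnJ_normalizer S (S : Subgroup G) S.isPGroup' hJS s (Subgroup.le_normalizer hs)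
  have hemb := snn_stable_embedding hc S _ hSN
    (fun n hn j hj => (Subgroup.mem_normalizer_iff.mp hn j).mp hj) (hst3 S)
  have hnorm := snn_map_normal S.isPGroup' _ hemb
  have key : ∀ n ∈ Subgroup.normalizer (Cfsg.thompsonSubgroupOf p (S : Subgroup G) : Set G),
      ∀ w ∈ (Cfsg.stableNormalClosure p ↥(S : Subgroup G)).map (S : Subgroup G).subtype,
        n * w * n⁻¹ ∈
          (Cfsg.stableNormalClosure p ↥(S : Subgroup G)).map (S : Subgroup G).subtype := by
    rintro n hn _ ⟨w, hw, rfl⟩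
    obtain ⟨w₁, hw₁, hw₁e⟩ := hnorm.conj_mem _
      (Subgroup.mem_map_of_mem (Subgroup.inclusion hSN) hw) ⟨n, hn⟩
    refine ⟨w₁, hw₁, ?_⟩
    exact congrArg Subtype.val hw₁e
  intro n hn
  apply uni_normalizer_of_conj
  · exact key n hn
  · intro w hw
    have h := key n⁻¹ (Subgroup.inv_mem _ hn) w hw
    rw [inv_inv] at h
    exact h

/-- The analogue of the ZJ-theorem for `W(S)`. -/
theorem snn_main {G : Type u} [Group G] [Finite G] {p : ℕ} [Fact p.Prime]
    (hst : Cfsg.IsActionPStable p G)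
    (hc : Subgroup.centralizer (Cfsg.pCore p G : Set G) ≤ Cfsg.pCore p G) (S : Sylow p G) :
    (((Cfsg.stableNormalClosure p ↥(S : Subgroup G)).map (S : Subgroup G).subtype)).Normal := by
  classical
  obtain ⟨hst1, hst2, hst3⟩ := hst
  have hN := snn_normalizer_le hst3 hc S
  have hSp : IsPGroup p ↥(S : Subgroup G) := S.isPGroup'
  obtain ⟨hWchar, hZW, hWΩ, -, -⟩ := Cfsg.Agent.S0622.result hSp
  obtain ⟨W, hWdef⟩ : ∃ W, W = Cfsg.stableNormalClosure p ↥(S : Subgroup G) := ⟨_, rfl⟩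
  rw [← hWdef] at hWchar hZW hWΩ hN ⊢
  obtain ⟨W', hW'def⟩ : ∃ W' : Subgroup G, W' = W.map (S : Subgroup G).subtype := ⟨_, rfl⟩
  rw [← hW'def] at hN ⊢
  have hWn : W.Normal := by
    haveI := hWchar
    infer_instance
  have hWS : ∀ s ∈ (S : Subgroup G), ∀ w ∈ W', s * w * s⁻¹ ∈ W' := by
    intro s hs w hw
    rw [hW'def] at hw ⊢
    obtain ⟨w₀, hw₀, rfl⟩ := hw
    exact ⟨⟨s, hs⟩ * w₀ * ⟨s, hs⟩⁻¹, hWn.conj_mem w₀ hw₀ ⟨s, hs⟩, rfl⟩
  have hΩle := snn_oct_le p ↥(S : Subgroup G)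
  have hWab : ∀ x ∈ W', ∀ y ∈ W', x * y = y * x := by
    intro x hx y hy
    rw [hW'def] at hx hy
    obtain ⟨x₀, hx₀, rfl⟩ := hx
    obtain ⟨y₀, hy₀, rfl⟩ := hy
    have hx' := hΩle (hWΩ hx₀)
    have hy' := hΩle (hWΩ hy₀)
    have h := (Subgroup.mem_centralizer_iff.mp (Subgroup.mem_inf.mp hy').2) x₀
      (Subgroup.mem_inf.mp hx').1
    rw [← map_mul, ← map_mul, h]
  have hWexp : ∀ x ∈ W', x ^ p = 1 := by
    intro x hx
    rw [hW'def] at hx
    obtain ⟨x₀, hx₀, rfl⟩ := hx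
    rw [← map_pow, snn_oct_pow p _ x₀ (hWΩ hx₀), map_one]
  have hQS : Cfsg.pCore p G ≤ (S : Subgroup G) := Cfsg.Agent.Helper16.pCore_le_sylow S
  have hQp : IsPGroup p ↥(Cfsg.pCore p G) := Cfsg.Agent.Helper16.pCore_isPGroup p G
  have hQn : (Cfsg.pCore p G).Normal := inferInstance
  -- `W' ≤ O_p(G)`
  have hWQ : W' ≤ Cfsg.pCore p G := by
    intro a ha
    have hq : ⁅⁅Cfsg.pCore p G, Subgroup.zpowers a⁆, Subgroup.zpowers a⁆ ≤
        (frattini ↥(Cfsg.pCore p G)).map (Cfsg.pCore p G).subtype := by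
      have h1 : ⁅Cfsg.pCore p G, Subgroup.zpowers a⁆ ≤ W' := by
        rw [Subgroup.commutator_le]
        intro q hq b hb
        have hbW : b ∈ W' := (Subgroup.zpowers_le.mpr ha) hb
        have e : ⁅q, b⁆ = (q * b * q⁻¹) * b⁻¹ := by rw [commutatorElement_def]
        rw [e]
        exact W'.mul_mem (hWS q (hQS hq) b hbW) (W'.inv_mem hbW)
      have h2 : ⁅⁅Cfsg.pCore p G, Subgroup.zpowers a⁆, Subgroup.zpowers a⁆ ≤ ⁅W', W'⁆ :=
        Subgroup.commutator_mono h1 (Subgroup.zpowers_le.mpr ha)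
      have h3 : ⁅W', W'⁆ = ⊥ := by
        rw [Subgroup.commutator_eq_bot_iff_le_centralizer]
        intro x hx
        rw [Subgroup.mem_centralizer_iff]
        intro y hy
        exact hWab y hy x hx
      rw [h3] at h2
      exact h2.trans bot_le
    obtain ⟨D, hDn, hKD, ⟨k, hk⟩, haD⟩ := hst2 a hq
    have hKp : IsPGroup p ↥(Cfsg.sectionKernel (Cfsg.pCore p G)
        ((frattini ↥(Cfsg.pCore p G)).map (Cfsg.pCore p G).subtype)) := by
      apply Cfsg.Agent.Helper11.isPGroup_of_frattini_action (Cfsg.pCore p G) hQn hQp hc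
      intro x hx q hq
      exact snn_sectionKernel_comm_mem _ _ hx hq
    have hDp : IsPGroup p ↥D := by
      obtain ⟨m, hm⟩ := IsPGroup.iff_card.mp hKp
      have e := Subgroup.relIndex_mul_relIndex (H := ⊥)
        (K := Cfsg.sectionKernel (Cfsg.pCore p G)
          ((frattini ↥(Cfsg.pCore p G)).map (Cfsg.pCore p G).subtype)) (L := D) bot_le hKD
      rw [Subgroup.relIndex_bot_left, Subgroup.relIndex_bot_left, hm, hk, ← pow_add] at e
      exact IsPGroup.of_card e.symm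
    exact (Cfsg.Agent.Helper16.le_pCore hDn hDp) haD
  -- the normal closure `X` of `W'`
  obtain ⟨X, hXdef⟩ : ∃ X : Subgroup G, X = Subgroup.normalClosure (W' : Set G) := ⟨_, rfl⟩
  have hXn : X.Normal := by rw [hXdef]; infer_instance
  have hW'X : W' ≤ X := by rw [hXdef]; exact Subgroup.le_normalClosure
  -- elements of `S` acting quadratically on `W'` centralize it
  have hSQ : ∀ t ∈ (S : Subgroup G), ⁅⁅W', Subgroup.zpowers t⁆, Subgroup.zpowers t⁆ = ⊥ →
      ∀ w ∈ W', t * w = w * t := by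
    intro t ht hq w hw
    have hq' : ⁅⁅W.map (S : Subgroup G).subtype,
          Subgroup.zpowers ((S : Subgroup G).subtype ⟨t, ht⟩)⁆,
        Subgroup.zpowers ((S : Subgroup G).subtype ⟨t, ht⟩)⁆ = ⊥ := by
      rw [← hW'def]; exact hq
    have hq'' := snq_quad_pullback (S : Subgroup G).subtype (Subgroup.subtype_injective _) W
      ⟨t, ht⟩ hq'
    rw [hWdef] at hq''
    have h1 := snq_main hSp ⟨t, ht⟩ hq''
    rw [← hWdef] at h1
    have h2 := congrArg (Subgroup.map (S : Subgroup G).subtype) h1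
    rw [Subgroup.map_commutator, MonoidHom.map_zpowers, Subgroup.map_bot, ← hW'def] at h2
    have h3 := Subgroup.commutator_eq_bot_iff_le_centralizer.mp h2
    exact (Subgroup.mem_centralizer_iff.mp (h3 hw)) t (Subgroup.mem_zpowers t)
  -- conjugates of `W'` commute with `W'`
  have hCC : ∀ g : G, ∀ x ∈ W', ∀ y ∈ W', (g * x * g⁻¹) * y = y * (g * x * g⁻¹) := by
    intro g x hx y hy
    have hx₁Q : g * x * g⁻¹ ∈ Cfsg.pCore p G := hQn.conj_mem x (hWQ hx) g
    refine hSQ (g * x * g⁻¹) (hQS hx₁Q) ?_ y hy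
    rw [Subgroup.commutator_eq_bot_iff_le_centralizer, Subgroup.commutator_le]
    intro w hw b hb
    obtain ⟨b₀, hb₀, rfl⟩ := snn_zp_conj_mem W' g x hx b hb
    have hw' : g⁻¹ * w * g ∈ (S : Subgroup G) := by
      have h := hQn.conj_mem w (hWQ hw) g⁻¹
      rw [inv_inv] at h
      exact hQS h
    have hv : (g⁻¹ * w * g) * b₀ * (g⁻¹ * w * g)⁻¹ * b₀⁻¹ ∈ W' :=
      W'.mul_mem (hWS _ hw' b₀ hb₀) (W'.inv_mem hb₀)
    have e : ⁅w, g * b₀ * g⁻¹⁆
        = g * ((g⁻¹ * w * g) * b₀ * (g⁻¹ * w * g)⁻¹ * b₀⁻¹) * g⁻¹ := by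
      rw [commutatorElement_def]; group
    rw [e, Subgroup.mem_centralizer_iff]
    intro c hc'
    obtain ⟨c₀, hc₀, rfl⟩ := snn_zp_conj_mem W' g x hx c hc'
    have h := hWab c₀ hc₀ _ hv
    calc g * c₀ * g⁻¹ * (g * ((g⁻¹ * w * g) * b₀ * (g⁻¹ * w * g)⁻¹ * b₀⁻¹) * g⁻¹)
        = g * (c₀ * ((g⁻¹ * w * g) * b₀ * (g⁻¹ * w * g)⁻¹ * b₀⁻¹)) * g⁻¹ := by group
      _ = g * (((g⁻¹ * w * g) * b₀ * (g⁻¹ * w * g)⁻¹ * b₀⁻¹) * c₀) * g⁻¹ := by rw [h]
      _ = g * ((g⁻¹ * w * g) * b₀ * (g⁻¹ * w * g)⁻¹ * b₀⁻¹) * g⁻¹ * (g * c₀ * g⁻¹) := by group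
  -- generators of `X`
  have hY : ∀ y ∈ Group.conjugatesOfSet (W' : Set G), ∃ k : G, ∃ w ∈ W', y = k * w * k⁻¹ := by
    intro y hy
    obtain ⟨w, hw, hconj⟩ := Group.mem_conjugatesOfSet_iff.mp hy
    obtain ⟨k, hk⟩ := isConj_iff.mp hconj
    exact ⟨k, w, hw, hk.symm⟩
  have hYcomm : ∀ y₁ ∈ Group.conjugatesOfSet (W' : Set G),
      ∀ y₂ ∈ Group.conjugatesOfSet (W' : Set G), y₁ * y₂ = y₂ * y₁ := by
    intro y₁ hy₁ y₂ hy₂
    obtain ⟨k₁, w₁, hw₁, rfl⟩ := hY y₁ hy₁
    obtain ⟨k₂, w₂, hw₂, rfl⟩ := hY y₂ hy₂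
    have h := hCC (k₂⁻¹ * k₁) w₁ hw₁ w₂ hw₂
    calc k₁ * w₁ * k₁⁻¹ * (k₂ * w₂ * k₂⁻¹)
        = k₂ * ((k₂⁻¹ * k₁) * w₁ * (k₂⁻¹ * k₁)⁻¹ * w₂) * k₂⁻¹ := by group
      _ = k₂ * (w₂ * ((k₂⁻¹ * k₁) * w₁ * (k₂⁻¹ * k₁)⁻¹)) * k₂⁻¹ := by rw [h]
      _ = k₂ * w₂ * k₂⁻¹ * (k₁ * w₁ * k₁⁻¹) := by group
  have hXcomm : ∀ a ∈ X, ∀ b ∈ X, a * b = b * a := by
    have h1 : ∀ y ∈ Group.conjugatesOfSet (W' : Set G), X ≤ Subgroup.centralizer {y} := by
      intro y hy
      rw [hXdef]
      show Subgroup.closure (Group.conjugatesOfSet (W' : Set G)) ≤ _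
      rw [Subgroup.closure_le]
      intro z hz
      rw [SetLike.mem_coe, Subgroup.mem_centralizer_iff]
      intro h hh
      rw [Set.mem_singleton_iff] at hh
      rw [hh]
      exact hYcomm y hy z hz
    intro a ha b hb
    have h2 : X ≤ Subgroup.centralizer {a} := by
      rw [hXdef]
      show Subgroup.closure (Group.conjugatesOfSet (W' : Set G)) ≤ _
      rw [Subgroup.closure_le]
      intro y hy
      rw [SetLike.mem_coe, Subgroup.mem_centralizer_iff]
      intro h hh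
      rw [Set.mem_singleton_iff] at hh
      rw [hh]
      exact ((Subgroup.mem_centralizer_iff.mp (h1 y hy ha)) y (Set.mem_singleton y)).symm
    exact (Subgroup.mem_centralizer_iff.mp (h2 hb)) a (Set.mem_singleton a)
  have hXexp' : ∀ a ∈ Subgroup.closure (Group.conjugatesOfSet (W' : Set G)), a ^ p = 1 := by
    intro a ha'
    induction ha' using Subgroup.closure_induction with
    | mem y hy =>
      obtain ⟨k, w, hw, rfl⟩ := hY y hy
      rw [conj_pow, hWexp w hw, mul_one, mul_inv_cancel]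
    | one => exact one_pow p
    | mul x y hx hy ihx ihy =>
      have hxX : x ∈ X := by rw [hXdef]; exact hx
      have hyX : y ∈ X := by rw [hXdef]; exact hy
      rw [(show Commute x y from hXcomm x hxX y hyX).mul_pow, ihx, ihy, one_mul]
    | inv x hx ihx => rw [inv_pow, ihx, inv_one]
  have hXexp : ∀ a ∈ X, a ^ p = 1 := by
    intro a ha
    rw [hXdef] at ha
    exact hXexp' a ha
  have hXea : Cfsg.IsElementaryAbelian p X := by
    show IsMulCommutative X ∧ ∀ a ∈ X, a ^ p = 1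
    refine ⟨?_, hXexp⟩
    rw [← Subgroup.le_centralizer_iff_isMulCommutative]
    intro a ha
    rw [Subgroup.mem_centralizer_iff]
    intro b hb
    exact hXcomm b hb a ha
  -- `p`-stability on `X`
  haveI := hXn
  have hstX := hst1 X hXea
  have hQC : ∀ a : G, ⁅⁅X, Subgroup.zpowers a⁆, Subgroup.zpowers a⁆ = ⊥ →
      ∀ w ∈ W', a * w = w * a := by
    intro a hq w hw
    have hmem := hstX a hq
    have hsurj : Function.Surjective (QuotientGroup.mk' (Subgroup.centralizer (X : Set G))) :=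
      QuotientGroup.mk'_surjective _
    have hle := Cfsg.Agent.Helper16.pCore_le_sylow (S.mapSurjective hsurj)
    have hmem3 : (QuotientGroup.mk a : G ⧸ Subgroup.centralizer (X : Set G)) ∈
        (S : Subgroup G).map (QuotientGroup.mk' (Subgroup.centralizer (X : Set G))) := hle hmem
    obtain ⟨t, ht, hte⟩ := Subgroup.mem_map.mp hmem3
    have hte' : ((t : G) : G ⧸ Subgroup.centralizer (X : Set G))
        = ((a : G) : G ⧸ Subgroup.centralizer (X : Set G)) := hte
    have hta : ∀ k : ℤ, (a ^ k)⁻¹ * t ^ k ∈ Subgroup.centralizer (X : Set G) := by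
      intro k
      apply QuotientGroup.eq.mp
      rw [QuotientGroup.mk_zpow, QuotientGroup.mk_zpow, hte']
    have htq := snq_quad_coset X a t hta hq
    have htq' : ⁅⁅W', Subgroup.zpowers t⁆, Subgroup.zpowers t⁆ = ⊥ := by
      have h := Subgroup.commutator_mono
        (Subgroup.commutator_mono hW'X (le_refl (Subgroup.zpowers t)))
        (le_refl (Subgroup.zpowers t))
      rw [htq] at h
      exact le_bot_iff.mp h
    have htw := hSQ t ht htq' w hw
    have hc' : t⁻¹ * a ∈ Subgroup.centralizer (X : Set G) := QuotientGroup.eq.mp hte'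
    have hcw : w * (t⁻¹ * a) = (t⁻¹ * a) * w :=
      (Subgroup.mem_centralizer_iff.mp hc') w (hW'X hw)
    calc a * w = t * ((t⁻¹ * a) * w) := by group
      _ = t * (w * (t⁻¹ * a)) := by rw [hcw]
      _ = (t * w) * (t⁻¹ * a) := (mul_assoc _ _ _).symm
      _ = (w * t) * (t⁻¹ * a) := by rw [htw]
      _ = w * a := by group
  have hAQ : ∀ A ∈ Cfsg.maxElementaryAbelianSubgroups p G, ⁅⁅X, A⁆, A⁆ = ⊥ → ⁅X, A⁆ = ⊥ := by
    intro A hA hq
    rw [Subgroup.commutator_eq_bot_iff_le_centralizer, hXdef]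
    show Subgroup.closure (Group.conjugatesOfSet (W' : Set G)) ≤ _
    rw [Subgroup.closure_le]
    intro y hy
    obtain ⟨k, w, hw, rfl⟩ := hY y hy
    rw [SetLike.mem_coe, Subgroup.mem_centralizer_iff]
    intro a ha
    have haq : ⁅⁅X, Subgroup.zpowers a⁆, Subgroup.zpowers a⁆ = ⊥ := by
      have h := Subgroup.commutator_mono
        (Subgroup.commutator_mono (le_refl X) (Subgroup.zpowers_le.mpr ha))
        (Subgroup.zpowers_le.mpr ha)
      rw [hq] at h
      exact le_bot_iff.mp h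
    have haq' := snq_quad_conj X a k⁻¹ haq
    rw [inv_inv] at haq'
    have h := hQC (k⁻¹ * a * k) haq' w hw
    calc a * (k * w * k⁻¹) = k * ((k⁻¹ * a * k) * w) * k⁻¹ := by group
      _ = k * (w * (k⁻¹ * a * k)) * k⁻¹ := by rw [h]
      _ = k * w * k⁻¹ * a := by group
  have hAll : ∀ A ∈ Cfsg.maxElementaryAbelianSubgroups p G,
      A ≤ Subgroup.centralizer (X : Set G) := by
    intro A hA
    obtain ⟨hA₀, hA₀q, hA₀n⟩ := Cfsg.Agent.S0607.result X hXea A hA
    have h0 := hAQ _ hA₀ hA₀q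
    have h1 : ⁅X, A⁆ = ⊥ := by
      by_contra hne
      exact hA₀n hne h0
    exact Subgroup.le_centralizer_iff.mp (Subgroup.commutator_eq_bot_iff_le_centralizer.mp h1)
  have hJC : Cfsg.thompsonSubgroup p G ≤ Subgroup.centralizer (X : Set G) := sSup_le hAll
  have hfr := snn_frattini S (Subgroup.centralizer (X : Set G)) hJC
  rw [← Subgroup.normalizer_eq_top_iff, eq_top_iff, ← hfr]
  apply sup_le hN
  intro c hc'
  apply uni_normalizer_of_conj
  · intro w hw
    have h := (Subgroup.mem_centralizer_iff.mp hc') w (hW'X hw)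
    have e : c * w * c⁻¹ = w := by rw [← h, mul_inv_cancel_right]
    rw [e]; exact hw
  · intro w hw
    have h := (Subgroup.mem_centralizer_iff.mp hc') w (hW'X hw)
    have e : c⁻¹ * w * c = w := by rw [mul_assoc, h, inv_mul_cancel_left]
    rw [e]; exact hw

end Cfsg.Agent.Helper4
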