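import Mathlib
import Cfsg.Agent.Helper4.Supersolvable2
import Cfsg.Agent.Helper4.MaxPrimeIndex

set_option autoImplicit false

namespace Cfsg.Agent.Helper4

universe u

/-- A supersolvable group has a normal subgroup whose order is the largest prime divisor of
the group order. -/
theorem exists_normal_card_eq_largest_prime_aux : ∀ (c : ℕ) (G : Type u) [Group G] [Finite G],
    Nat.card G = c → Cfsg.IsSupersolvable G → ∀ p : ℕ, p.Prime → p ∣ Nat.card G →
    (∀ q : ℕ, q.Prime → q ∣ Nat.card G → q ≤ p) →
    ∃ N : Subgroup G, N.Normal ∧ Nat.card N = p := by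
  intro c
  induction c using Nat.strong_induction_on with
  | _ c ih =>
    intro G _ _ hc hG p hp hpd hmax
    haveI : Nontrivial G := by
      rw [← Finite.one_lt_card_iff_nontrivial]
      exact lt_of_lt_of_le hp.one_lt (Nat.le_of_dvd Nat.card_pos hpd)
    obtain ⟨N0, hN0n, hN0p⟩ := exists_normal_prime_of_isSupersolvable hG
    haveI := hN0n
    by_cases hr : Nat.card N0 = p
    · exact ⟨N0, hN0n, hr⟩
    · have hcardG : Nat.card G = Nat.card (G ⧸ N0) * Nat.card N0 :=
        Subgroup.card_eq_card_quotient_mul_card_subgroup N0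
      have hlt : Nat.card (G ⧸ N0) < c := by
        rw [← hc]; exact card_quotient_lt_of_card_prime N0 hN0p
      have hrdvd : Nat.card N0 ∣ Nat.card G := Subgroup.card_subgroup_dvd_card N0
      have hrle : Nat.card N0 ≤ p := hmax _ hN0p hrdvd
      have hrlt : Nat.card N0 < p := lt_of_le_of_ne hrle hr
      have hcop : Nat.Coprime p (Nat.card N0) := (Nat.coprime_primes hp hN0p).mpr (Ne.symm hr)
      have hpQ : p ∣ Nat.card (G ⧸ N0) := by
        rw [hcardG] at hpd
        exact hcop.dvd_of_dvd_mul_right hpd
      have hmaxQ : ∀ q : ℕ, q.Prime → q ∣ Nat.card (G ⧸ N0) → q ≤ p := fun q hq hqd =>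
        hmax q hq (hqd.trans ⟨Nat.card N0, hcardG⟩)
      obtain ⟨Mb, hMbn, hMbc⟩ :=
        ih _ hlt (G ⧸ N0) rfl (isSupersolvable_quotient N0 hG) p hp hpQ hmaxQ
      haveI := hMbn
      have hMn : (Mb.comap (QuotientGroup.mk' N0)).Normal := inferInstance
      have hMc : Nat.card (Mb.comap (QuotientGroup.mk' N0)) = p * Nat.card N0 := by
        rw [card_comap_mk', hMbc]
      generalize Mb.comap (QuotientGroup.mk' N0) = M at hMn hMc
      haveI := hMn
      haveI : Fact p.Prime := ⟨hp⟩
      obtain ⟨P⟩ : Nonempty (Sylow p M) := inferInstance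
      have hf : (p * Nat.card N0).factorization p = 1 := by
        rw [Nat.factorization_mul hp.ne_zero hN0p.ne_zero, Finsupp.add_apply,
          hp.factorization_self, Nat.factorization_eq_zero_of_not_dvd
            (fun h => hr ((Nat.prime_dvd_prime_iff_eq hp hN0p).mp h).symm)]
      have hPc : Nat.card P = p := by
        rw [Sylow.card_eq_multiplicity, hMc, hf, pow_one]
      have hPidx : (P : Subgroup M).index = Nat.card N0 := by
        have := Subgroup.card_mul_index (P : Subgroup M)
        rw [hPc, hMc] at this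
        exact Nat.eq_of_mul_eq_mul_left hp.pos this
      have hsub : Subsingleton (Sylow p M) := by
        have h1 : Nat.card (Sylow p M) ≡ 1 [MOD p] := card_sylow_modEq_one p M
        have h2 : Nat.card (Sylow p M) ∣ (P : Subgroup M).index := P.card_dvd_index
        have h3 : Nat.card (Sylow p M) ≤ Nat.card N0 := by
          rw [← hPidx]
          exact Nat.le_of_dvd (Nat.pos_of_ne_zero Subgroup.index_ne_zero_of_finite) h2
        have h4 : Nat.card (Sylow p M) < p := lt_of_le_of_lt h3 hrlt
        have h5 : Nat.card (Sylow p M) = 1 := by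
          have := h1
          rw [Nat.ModEq, Nat.mod_eq_of_lt h4, Nat.mod_eq_of_lt hp.one_lt] at this
          exact this
        exact (Nat.card_eq_one_iff_unique.mp h5).1
      haveI := hsub
      haveI : (P : Subgroup M).Characteristic := Sylow.characteristic_of_subsingleton P
      refine ⟨(P : Subgroup M).map M.subtype, ConjAct.normal_of_characteristic_of_normal, ?_⟩
      rw [Subgroup.card_subtype, hPc]

theorem decreasing_chain_aux : ∀ (c : ℕ) (G : Type u) [Group G] [Finite G], Nat.card G = c →
    Cfsg.IsSupersolvable G → ∃ (n : ℕ) (H : Fin (n + 1) → Subgroup G), H 0 = ⊥ ∧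
      H (Fin.last n) = ⊤ ∧ (∀ i, (H i).Normal) ∧
      (∀ i : Fin n, H i.castSucc ≤ H i.succ ∧ ((H i.castSucc).relIndex (H i.succ)).Prime) ∧
      ∀ i j : Fin n, i ≤ j →
        (H j.castSucc).relIndex (H j.succ) ≤ (H i.castSucc).relIndex (H i.succ) := by
  intro c
  induction c using Nat.strong_induction_on with
  | _ c ih =>
    intro G _ _ hc hG
    rcases subsingleton_or_nontrivial G with hs | hnt
    · refine ⟨0, fun _ => ⊥, rfl, ?_, fun _ => Subgroup.normal_bot, fun i => i.elim0,
        fun i => i.elim0⟩
      show (⊥ : Subgroup G) = ⊤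
      rw [eq_top_iff]
      intro x _
      rw [Subsingleton.elim x 1]
      exact Subgroup.one_mem _
    · have hcard1 : 1 < Nat.card G := Finite.one_lt_card_iff_nontrivial.mpr hnt
      obtain ⟨p, hp, hpd, hmax⟩ := exists_max_prime_dvd (Nat.card G) hcard1
      obtain ⟨N, hNn, hNc⟩ := exists_normal_card_eq_largest_prime_aux _ G rfl hG p hp hpd hmax
      haveI := hNn
      have hNp : (Nat.card N).Prime := by rw [hNc]; exact hp
      have hlt : Nat.card (G ⧸ N) < c := by
        rw [← hc]; exact card_quotient_lt_of_card_prime N hNp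
      obtain ⟨n, Hb, h0, hlast, hnorm, hstep, hmono⟩ :=
        ih _ hlt (G ⧸ N) rfl (isSupersolvable_quotient N hG)
      have hcomap0 : (Hb 0).comap (QuotientGroup.mk' N) = N := by
        rw [h0, MonoidHom.comap_bot, QuotientGroup.ker_mk']
      have hrel : ∀ A B : Subgroup (G ⧸ N), (A.comap (QuotientGroup.mk' N)).relIndex
          (B.comap (QuotientGroup.mk' N)) = A.relIndex B := by
        intro A B
        rw [Subgroup.relIndex_comap,
          Subgroup.map_comap_eq_self_of_surjective (QuotientGroup.mk'_surjective N)]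
      have hqle : ∀ i : Fin n, (Hb i.castSucc).relIndex (Hb i.succ) ≤ p := by
        intro i
        apply hmax _ (hstep i).2
        exact (Subgroup.relIndex_dvd_card _ _).trans ((Subgroup.card_subgroup_dvd_card _).trans
          ⟨Nat.card N, Subgroup.card_eq_card_quotient_mul_card_subgroup N⟩)
      obtain ⟨H', hH'⟩ : ∃ H' : Fin (n + 1 + 1) → Subgroup G,
          H' = Fin.cons ⊥ (fun i => (Hb i).comap (QuotientGroup.mk' N)) := ⟨_, rfl⟩
      have hH0 : H' 0 = ⊥ := by rw [hH', Fin.cons_zero]
      have hHs : ∀ i : Fin (n + 1), H' i.succ = (Hb i).comap (QuotientGroup.mk' N) := by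
        intro i; rw [hH', Fin.cons_succ]
      have hs0 : (H' (0 : Fin (n + 1)).castSucc).relIndex (H' (0 : Fin (n + 1)).succ) = p := by
        have e1 : (0 : Fin (n + 1)).castSucc = (0 : Fin (n + 1 + 1)) := rfl
        rw [e1, hH0, hHs, hcomap0, Subgroup.relIndex_bot_left, hNc]
      have hss : ∀ i' : Fin n, (H' i'.succ.castSucc).relIndex (H' i'.succ.succ)
          = (Hb i'.castSucc).relIndex (Hb i'.succ) := by
        intro i'
        have e1 : (i'.succ).castSucc = (i'.castSucc).succ := rfl
        rw [e1, hHs, hHs, hrel]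
      refine ⟨n + 1, H', hH0, ?_, ?_, ?_, ?_⟩
      · have : Fin.last (n + 1) = (Fin.last n).succ := rfl
        rw [this, hHs, hlast, Subgroup.comap_top]
      · intro i
        refine Fin.cases ?_ (fun i' => ?_) i
        · rw [hH0]; exact Subgroup.normal_bot
        · rw [hHs]; exact (hnorm i').comap _
      · intro i
        refine Fin.cases ?_ (fun i' => ?_) i
        · refine ⟨?_, by rw [hs0]; exact hp⟩
          have e1 : (0 : Fin (n + 1)).castSucc = (0 : Fin (n + 1 + 1)) := rfl
          rw [e1, hH0]; exact bot_le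
        · refine ⟨?_, by rw [hss]; exact (hstep i').2⟩
          have e1 : (i'.succ).castSucc = (i'.castSucc).succ := rfl
          rw [e1, hHs, hHs]
          exact Subgroup.comap_mono (hstep i').1
      · intro i j
        refine Fin.cases ?_ (fun i' => ?_) i <;> refine Fin.cases ?_ (fun j' => ?_) j
        · intro _; exact le_rfl
        · intro _; rw [hs0, hss]; exact hqle j'
        · intro h
          exact absurd (Fin.le_zero_iff.mp h) (Fin.succ_ne_zero i')
        · intro h
          rw [hss, hss]
          exact hmono i' j' (Fin.succ_le_succ_iff.mp h)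

end Cfsg.Agent.Helper4
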