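import Mathlib
import Cfsg.Agent.Helper4.CardMul
import Cfsg.Agent.Helper1.Basic

set_option autoImplicit false

namespace Cfsg.Agent.Helper4

open scoped Pointwise

/-- Every subgroup `H` has a Sylow `p`-subgroup `R` of `G` with `[H : R ∩ H]` prime to `p`. -/
theorem exists_sylow_not_dvd_relIndex {G : Type*} [Group G] [Finite G] (p : ℕ) [Fact p.Prime]
    (H : Subgroup G) : ∃ R : Sylow p G, ¬ p ∣ (R : Subgroup G).relIndex H := by
  obtain ⟨P0⟩ : Nonempty (Sylow p H) := inferInstance
  obtain ⟨R, hR⟩ := P0.exists_comap_subtype_eq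
  refine ⟨R, ?_⟩
  show ¬ p ∣ ((R : Subgroup G).comap H.subtype).index
  rw [hR]; exact P0.not_dvd_index

theorem relIndex_smul_sylow_of_mem {G : Type*} [Group G] {p : ℕ} (R : Sylow p G)
    (H : Subgroup G) (h : G) (hh : h ∈ H) :
    ((h • R : Sylow p G) : Subgroup G).relIndex H = (R : Subgroup G).relIndex H := by
  have e1 : ((h • R : Sylow p G) : Subgroup G)
      = (R : Subgroup G).map (MulAut.conj h).toMonoidHom := by
    rw [Sylow.coe_subgroup_smul]
    ext x
    rw [Cfsg.Agent.Helper1.mem_conj_smul, Subgroup.mem_map]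
    constructor
    · intro hx
      exact ⟨h⁻¹ * x * h, hx, by simp [mul_assoc]⟩
    · rintro ⟨y, hy, rfl⟩
      simpa [mul_assoc] using hy
  have e2 : H.map (MulAut.conj h).toMonoidHom = H := by
    ext x
    rw [Subgroup.mem_map]
    constructor
    · rintro ⟨y, hy, rfl⟩
      exact H.mul_mem (H.mul_mem hh hy) (H.inv_mem hh)
    · intro hx
      exact ⟨h⁻¹ * x * h, H.mul_mem (H.mul_mem (H.inv_mem hh) hx) hh, by simp [mul_assoc]⟩
  rw [e1]
  conv_lhs => rw [← e2]
  exact Subgroup.relIndex_map_map_of_injective _ _ (MulAut.conj h).injective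

theorem sylow_factor_nat_aux (x y X d mH mK cH cK cG r mG e D : ℕ) (c1 : x * y = X * d)
    (c2 : cH * cK = cG * D) (c3 : x * mH = cH) (c4 : y * mK = cK) (c5 : r * mG = cG)
    (he : D = d * e) (hd : 0 < d) : X * (mH * mK) = r * (mG * e) := by
  subst he c3 c4 c5
  apply Nat.eq_of_mul_eq_mul_left hd
  calc d * (X * (mH * mK)) = (X * d) * (mH * mK) := by ring
    _ = (x * y) * (mH * mK) := by rw [c1]
    _ = (x * mH) * (y * mK) := by ring
    _ = (r * mG) * (d * e) := c2
    _ = d * (r * (mG * e)) := by ring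

/-- If `G = HK` then some Sylow `p`-subgroup of `G` is the product of Sylow `p`-subgroups of
`H` and `K`. -/
theorem sylow_factorization {G : Type*} [Group G] [Finite G] (H K : Subgroup G)
    (hHK : ∀ g : G, ∃ h ∈ H, ∃ k ∈ K, g = h * k) (p : ℕ) [Fact p.Prime] :
    ∃ (P : Sylow p H) (Q : Sylow p K) (R : Sylow p G),
      ((R : Subgroup G) : Set G) = (((P : Subgroup H).map H.subtype : Subgroup G) : Set G)
        * (((Q : Subgroup K).map K.subtype : Subgroup G) : Set G) := by
  classical
  obtain ⟨R1, hR1⟩ := exists_sylow_not_dvd_relIndex p H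
  obtain ⟨R2, hR2⟩ := exists_sylow_not_dvd_relIndex p K
  obtain ⟨g, hg⟩ := MulAction.exists_smul_eq G R1 R2
  obtain ⟨h, hh, k, hk, hgk⟩ := hHK g⁻¹
  have hR : h⁻¹ • R1 = k • R2 := by
    rw [← hg, smul_smul]
    congr 1
    have : g = k⁻¹ * h⁻¹ := by rw [← inv_inv g, hgk]; group
    rw [this]; group
  have hRH : ¬ p ∣ ((h⁻¹ • R1 : Sylow p G) : Subgroup G).relIndex H := by
    rw [relIndex_smul_sylow_of_mem R1 H h⁻¹ (H.inv_mem hh)]; exact hR1
  have hRK : ¬ p ∣ ((h⁻¹ • R1 : Sylow p G) : Subgroup G).relIndex K := by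
    rw [hR, relIndex_smul_sylow_of_mem R2 K k hk]; exact hR2
  generalize h⁻¹ • R1 = R at hRH hRK
  have hpH : IsPGroup p ((R : Subgroup G).subgroupOf H) := R.2.comap_subtype
  have hpK : IsPGroup p ((R : Subgroup G).subgroupOf K) := R.2.comap_subtype
  refine ⟨hpH.toSylow hRH, hpK.toSylow hRK, R, ?_⟩
  show ((R : Subgroup G) : Set G)
      = ((((R : Subgroup G).subgroupOf H).map H.subtype : Subgroup G) : Set G)
        * ((((R : Subgroup G).subgroupOf K).map K.subtype : Subgroup G) : Set G)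
  rw [Subgroup.subgroupOf_map_subtype, Subgroup.subgroupOf_map_subtype]
  symm
  apply Set.eq_of_subset_of_ncard_le
  · rintro x ⟨a, ha, b, hb, rfl⟩
    exact (R : Subgroup G).mul_mem ha.1 hb.1
  · have c1 := card_mul_card_eq ((R : Subgroup G) ⊓ H) ((R : Subgroup G) ⊓ K)
    have c2 := card_mul_card_eq H K
    have huniv : ((H : Set G) * (K : Set G)) = Set.univ := by
      ext g
      simp only [Set.mem_univ, iff_true]
      obtain ⟨h, hh, k, hk, e⟩ := hHK g
      exact ⟨h, hh, k, hk, e.symm⟩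
    have c2' : Nat.card ((H : Set G) * (K : Set G) : Set G) = Nat.card G := by
      rw [huniv]; exact Nat.card_congr (Equiv.Set.univ G)
    rw [c2'] at c2
    have c3 : Nat.card ((R : Subgroup G) ⊓ H : Subgroup G) * (R : Subgroup G).relIndex H
        = Nat.card H := by
      have := Subgroup.relIndex_mul_relIndex (H := ⊥) (K := (R : Subgroup G) ⊓ H) (L := H)
        bot_le inf_le_right
      rwa [Subgroup.relIndex_bot_left, Subgroup.relIndex_bot_left, Subgroup.inf_relIndex_right]
        at this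
    have c4 : Nat.card ((R : Subgroup G) ⊓ K : Subgroup G) * (R : Subgroup G).relIndex K
        = Nat.card K := by
      have := Subgroup.relIndex_mul_relIndex (H := ⊥) (K := (R : Subgroup G) ⊓ K) (L := K)
        bot_le inf_le_right
      rwa [Subgroup.relIndex_bot_left, Subgroup.relIndex_bot_left, Subgroup.inf_relIndex_right]
        at this
    have c5 := Subgroup.card_mul_index (R : Subgroup G)
    obtain ⟨e, he⟩ : Nat.card (((R : Subgroup G) ⊓ H) ⊓ ((R : Subgroup G) ⊓ K) : Subgroup G)
        ∣ Nat.card (H ⊓ K : Subgroup G) :=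
      Subgroup.card_dvd_of_le (inf_le_inf inf_le_right inf_le_right)
    obtain ⟨n, hn⟩ := IsPGroup.iff_card.mp R.2
    have hdpos : 0 < Nat.card (((R : Subgroup G) ⊓ H) ⊓ ((R : Subgroup G) ⊓ K) : Subgroup G) :=
      Nat.card_pos
    have key := sylow_factor_nat_aux _ _ _ _ _ _ _ _ _ _ _ _ _ c1 c2 c3 c4 c5 he hdpos
    have hdvd : Nat.card (R : Subgroup G) ∣ Nat.card
        ((((R : Subgroup G) ⊓ H : Subgroup G) : Set G) * (((R : Subgroup G) ⊓ K : Subgroup G) : Set G) : Set G)
        * ((R : Subgroup G).relIndex H * (R : Subgroup G).relIndex K) := ⟨_, key⟩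
    have hcop : Nat.Coprime (Nat.card (R : Subgroup G))
        ((R : Subgroup G).relIndex H * (R : Subgroup G).relIndex K) := by
      rw [hn]
      apply Nat.Coprime.pow_left
      exact Nat.Coprime.mul_right ((Nat.Prime.coprime_iff_not_dvd Fact.out).mpr hRH)
        ((Nat.Prime.coprime_iff_not_dvd Fact.out).mpr hRK)
    have hdvd' := hcop.dvd_of_dvd_mul_right hdvd
    have hXpos : 0 < Nat.card
        ((((R : Subgroup G) ⊓ H : Subgroup G) : Set G) * (((R : Subgroup G) ⊓ K : Subgroup G) : Set G) : Set G) := by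
      rcases Nat.eq_zero_or_pos (Nat.card
        ((((R : Subgroup G) ⊓ H : Subgroup G) : Set G) * (((R : Subgroup G) ⊓ K : Subgroup G) : Set G) : Set G))
        with h0 | h0
      · rw [h0, zero_mul] at c1
        have : 0 < Nat.card ((R : Subgroup G) ⊓ H : Subgroup G)
            * Nat.card ((R : Subgroup G) ⊓ K : Subgroup G) := Nat.mul_pos Nat.card_pos Nat.card_pos
        omega
      · exact h0
    calc ((R : Subgroup G) : Set G).ncard = Nat.card (R : Subgroup G) :=
          (Nat.card_coe_set_eq _).symm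
      _ ≤ Nat.card ((((R : Subgroup G) ⊓ H : Subgroup G) : Set G)
            * (((R : Subgroup G) ⊓ K : Subgroup G) : Set G) : Set G) := Nat.le_of_dvd hXpos hdvd'
      _ = _ := Nat.card_coe_set_eq _
  · exact Set.toFinite _

end Cfsg.Agent.Helper4
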