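import Mathlib
import Cfsg.Agent.Helper1.SZ

set_option autoImplicit false

namespace Cfsg.Agent.Helper4

universe u

/-- Absorb an element of a normal subgroup `N ≤ A j` on the right of an ordered product
`s 0 * s 1 * ⋯` with `s i ∈ A i`. -/
theorem prod_ofFn_mul_absorb {G : Type*} [Group G] (N : Subgroup G) [N.Normal] :
    ∀ (t : ℕ) (A : Fin t → Subgroup G) (j : Fin t) (_ : N ≤ A j) (s : Fin t → G)
      (_ : ∀ i, s i ∈ A i) (n : G) (_ : n ∈ N),
      ∃ s' : Fin t → G, (∀ i, s' i ∈ A i) ∧ (List.ofFn s).prod * n = (List.ofFn s').prod := by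
  intro t
  induction t with
  | zero => intro A j; exact j.elim0
  | succ t ih =>
    intro A j hj s hs n hn
    have e1 : List.ofFn s = s 0 :: List.ofFn (fun i : Fin t => s i.succ) := List.ofFn_succ
    rcases Fin.eq_zero_or_eq_succ j with rfl | ⟨j', rfl⟩
    · refine ⟨Fin.cons (s 0 * ((List.ofFn fun i : Fin t => s i.succ).prod * n
          * ((List.ofFn fun i : Fin t => s i.succ).prod)⁻¹)) (fun i => s i.succ), ?_, ?_⟩
      · intro i
        refine Fin.cases ?_ (fun i' => ?_) i
        · simp only [Fin.cons_zero]
          exact (A 0).mul_mem (hs 0) (hj (Subgroup.Normal.conj_mem inferInstance n hn _))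
        · simp only [Fin.cons_succ]
          exact hs i'.succ
      · rw [e1, List.ofFn_succ]
        simp only [Fin.cons_zero, Fin.cons_succ, List.prod_cons]
        generalize (List.ofFn fun i : Fin t => s i.succ).prod = T
        group
    · obtain ⟨s', hs', he⟩ := ih (fun i => A i.succ) j' hj (fun i => s i.succ)
        (fun i => hs i.succ) n hn
      refine ⟨Fin.cons (s 0) s', ?_, ?_⟩
      · intro i
        refine Fin.cases ?_ (fun i' => ?_) i
        · simp only [Fin.cons_zero]; exact hs 0
        · simp only [Fin.cons_succ]; exact hs' i'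
      · rw [e1, List.ofFn_succ]
        simp only [Fin.cons_zero, Fin.cons_succ, List.prod_cons]
        rw [mul_assoc, he]

theorem sylow_product_aux : ∀ (c : ℕ) (G : Type u) [Group G] [Finite G] [Group.IsSolvable G],
    Nat.card G = c → ∀ (t : ℕ) (p : Fin t → ℕ) (_ : ∀ i, (p i).Prime)
      (_ : ∀ q : ℕ, q.Prime → q ∣ Nat.card G → ∃ i, p i = q)
      (S : (i : Fin t) → Sylow (p i) G), ∀ g : G, ∃ s : (i : Fin t) → G,
        (∀ i, s i ∈ (S i : Subgroup G)) ∧ g = (List.ofFn s).prod := by
  intro c
  induction c using Nat.strong_induction_on with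
  | _ c ih =>
    intro G _ _ _ hc t p hp hall S g
    haveI : ∀ i, Fact (p i).Prime := fun i => ⟨hp i⟩
    rcases subsingleton_or_nontrivial G with hsub | hnt
    · refine ⟨fun _ => 1, fun i => Subgroup.one_mem _, ?_⟩
      rw [Subsingleton.elim g 1]
      symm
      apply List.prod_eq_one
      intro x hx
      rw [List.mem_ofFn] at hx
      obtain ⟨i, rfl⟩ := hx
      rfl
    · obtain ⟨q, hq, A, hchar, hne, hcomm, hexp⟩ := Cfsg.Agent.Helper1.exists_char_elemAbelian G
      haveI : Fact q.Prime := ⟨hq⟩
      haveI hAn : A.Normal := inferInstance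
      have hAp : IsPGroup q A := by
        intro a
        refine ⟨1, ?_⟩
        apply Subtype.ext
        simpa using hexp a a.2
      have hqdvd : q ∣ Nat.card G := by
        obtain ⟨a, ha1⟩ := (Subgroup.ne_bot_iff_exists_ne_one).mp hne
        have ha1' : (a : G) ≠ 1 := fun h => ha1 (Subtype.ext h)
        have := orderOf_eq_prime (hexp a a.2) ha1'
        rw [← this]
        exact orderOf_dvd_natCard (a : G)
      obtain ⟨j, hj⟩ := hall q hq hqdvd
      have hAS : A ≤ (S j : Subgroup G) := by
        have : IsPGroup (p j) A := by rw [hj]; exact hAp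
        exact this.le_sylow_of_normal (S j)
      have hlt : Nat.card (G ⧸ A) < c := by
        rw [← hc]
        exact Cfsg.Agent.Helper1.card_quotient_lt_of_ne_bot A hne
      have hsurj := QuotientGroup.mk'_surjective A
      have hall' : ∀ q' : ℕ, q'.Prime → q' ∣ Nat.card (G ⧸ A) → ∃ i, p i = q' :=
        fun q' hq' hd => hall q' hq' (hd.trans (Subgroup.card_quotient_dvd_card A))
      obtain ⟨sbar, hsbar, hg⟩ := ih _ hlt (G ⧸ A) rfl t p hp hall'
        (fun i => (S i).mapSurjective hsurj) (QuotientGroup.mk' A g)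
      have hlift : ∀ i, ∃ x ∈ (S i : Subgroup G), QuotientGroup.mk' A x = sbar i := by
        intro i
        have := hsbar i
        rw [Sylow.coe_mapSurjective] at this
        exact this
      choose s hs hsb using hlift
      have hπ : QuotientGroup.mk' A (List.ofFn s).prod = QuotientGroup.mk' A g := by
        rw [map_list_prod, List.map_ofFn, hg]
        congr 2
        funext i
        exact hsb i
      have hn : (List.ofFn s).prod⁻¹ * g ∈ A := QuotientGroup.eq.mp hπ
      obtain ⟨s', hs', he⟩ := prod_ofFn_mul_absorb A t (fun i => (S i : Subgroup G)) j hAS s hs _ hn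
      refine ⟨s', hs', ?_⟩
      rw [← he]
      group

end Cfsg.Agent.Helper4
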