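import Mathlib
import Cfsg.Agent.Helper4.SysNorm2

set_option autoImplicit false

namespace Cfsg.Agent.Helper4

universe u

/-- The normal closure of a system normalizer of a finite solvable group is the whole group. -/
theorem systemNormalizer_normalClosure {G : Type u} [Group G] [Finite G] [Group.IsSolvable G]
    (K : Nat.Primes → Subgroup G) (hK : Cfsg.IsComplementSystem K) :
    Subgroup.normalClosure ((Cfsg.systemNormalizer K : Subgroup G) : Set G) = ⊤ := by
  obtain ⟨N, hN⟩ : ∃ N : Subgroup G,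
      N = Subgroup.normalClosure ((Cfsg.systemNormalizer K : Subgroup G) : Set G) := ⟨_, rfl⟩
  haveI hNn : N.Normal := by rw [hN]; exact Subgroup.normalClosure_normal
  have hDN : Cfsg.systemNormalizer K ≤ N := by rw [hN]; exact Subgroup.le_normalClosure
  rw [← hN]
  obtain ⟨hK1, hD1⟩ := systemNormalizer_map K hK N
  have hD1' : Cfsg.systemNormalizer (fun p => (K p).map (QuotientGroup.mk' N)) = ⊥ := by
    rw [hD1, Subgroup.map_eq_bot_iff, QuotientGroup.ker_mk']; exact hDN
  obtain ⟨hK2, hD2⟩ := systemNormalizer_map (G := G ⧸ N)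
    (fun p => (K p).map (QuotientGroup.mk' N)) hK1 (commutator (G ⧸ N))
  rw [hD1', Subgroup.map_bot] at hD2
  have hc : ∀ a b : (G ⧸ N) ⧸ commutator (G ⧸ N), a * b = b * a := by
    intro a b
    obtain ⟨x, rfl⟩ := QuotientGroup.mk_surjective a
    obtain ⟨y, rfl⟩ := QuotientGroup.mk_surjective b
    rw [← QuotientGroup.mk_mul, ← QuotientGroup.mk_mul, QuotientGroup.eq]
    have : (x * y)⁻¹ * (y * x) = y⁻¹ * x⁻¹ * y⁻¹⁻¹ * x⁻¹⁻¹ := by group
    rw [this, commutator_def]
    exact Subgroup.commutator_mem_commutator (Subgroup.mem_top _) (Subgroup.mem_top _)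
  have htop : Cfsg.systemNormalizer (fun p => ((K p).map (QuotientGroup.mk' N)).map
      (QuotientGroup.mk' (commutator (G ⧸ N)))) = ⊤ := by
    simp only [Cfsg.systemNormalizer]
    rw [eq_top_iff]
    refine le_iInf (fun p => ?_)
    intro x _
    rw [Subgroup.mem_normalizer_iff]
    intro h
    rw [hc x h, mul_inv_cancel_right]
  rw [htop] at hD2
  have hcomm : commutator (G ⧸ N) = ⊤ := by
    rw [eq_top_iff]
    intro x _
    have hx : (QuotientGroup.mk' (commutator (G ⧸ N))) x ∈
        (⊤ : Subgroup ((G ⧸ N) ⧸ commutator (G ⧸ N))) := Subgroup.mem_top _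
    rw [hD2, Subgroup.mem_bot] at hx
    exact (QuotientGroup.eq_one_iff x).mp hx
  by_contra hne
  have hcard : 1 < Nat.card (G ⧸ N) := by
    have h1 : N.index ≠ 1 := mt Subgroup.index_eq_one.mp hne
    have h2 : N.index ≠ 0 := Subgroup.index_ne_zero_of_finite
    have h3 : N.index = Nat.card (G ⧸ N) := rfl
    omega
  haveI : Nontrivial (G ⧸ N) := Finite.one_lt_card_iff_nontrivial.mp hcard
  exact (Group.IsSolvable.commutator_lt_top_of_nontrivial (G ⧸ N)).ne hcomm

end Cfsg.Agent.Helper4
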