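import Mathlib
import Cfsg.Prelude.Def_PLocal
import Cfsg.Agent.Helper4.StableNormal2
import Cfsg.Agent.Helper1.FunNpc
import Cfsg.Agent.Helper1.PStab

set_option autoImplicit false

namespace Cfsg.Agent.Helper4

universe u

open scoped commutatorElement

theorem snp_mem_centralizer {G : Type*} [Group G] (V : Subgroup G) (x : G) :
    x ∈ Subgroup.centralizer (V : Set G) ↔ ∀ y ∈ V, x * y = y * x := by
  rw [Subgroup.mem_centralizer_iff]
  exact ⟨fun h y hy => (h y hy).symm, fun h y hy => (h y hy).symm⟩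

theorem snp_quad_of_commutator {G : Type*} [Group G] (P A : Subgroup G)
    (hquad : ⁅⁅P, A⁆, A⁆ = ⊥) (a : G) (ha : a ∈ A) :
    ∀ u ∈ P, a * (a * u * a⁻¹ * u⁻¹) * a⁻¹ = a * u * a⁻¹ * u⁻¹ := by
  intro u hu
  have h1 : ⁅⁅u, a⁆, a⁆ ∈ ⁅⁅P, A⁆, A⁆ :=
    Subgroup.commutator_mem_commutator (Subgroup.commutator_mem_commutator hu ha) ha
  rw [hquad, Subgroup.mem_bot, commutatorElement_eq_one_iff_commute] at h1
  have e : a * u * a⁻¹ * u⁻¹ = ⁅u, a⁆⁻¹ := by rw [commutatorElement_def]; group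
  rw [e, mul_inv_eq_iff_eq_mul]
  exact (h1.inv_left.eq).symm

theorem snp_charP (p : ℕ) [Fact p.Prime] :
    Cfsg.IsCharPFunctor.{u} p (fun (Q : Type u) [Group Q] => Cfsg.stableNormalClosure p Q) := by
  refine ⟨fun Q _ _ hQ hnt => (Cfsg.Agent.S0622.result hQ).2.2.2.1 hnt,
    fun Q R _ _ _ hQ φ => (Cfsg.Agent.S0622.result hQ).2.2.2.2 R φ⟩

/-- Thompson's normal `p`-complement theorem in the `W(S)`-form. -/
theorem thompson_npc_W (p : ℕ) [Fact p.Prime] (hp2 : p ≠ 2) {G : Type u} [Group G] [Finite G]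
    (S : Sylow p G)
    (hN : Cfsg.HasNormalPComplement p ↥(Subgroup.normalizer
      (((Cfsg.stableNormalClosure p ↥(S : Subgroup G)).map (S : Subgroup G).subtype) : Set G))) :
    Cfsg.HasNormalPComplement p G := by
  have hW := snp_charP.{u} p
  have hL := Cfsg.Agent.Helper1.funLoc_npcLoc _ hW
  have hN' : Cfsg.Agent.Helper1.FunLoc p
      (fun (Q : Type u) [Group Q] => Cfsg.stableNormalClosure p Q) G (S : Subgroup G) := hN
  refine Cfsg.Agent.Helper1.gen_npc p hL (Good := fun _ _ => True) (fun _ _ _ _ _ => trivial)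
    (fun _ _ _ _ _ _ => trivial) ?_ (Nat.card G) G rfl trivial S hN'
  intro G _ _ _ hG P hP H hHn hH hD2 hCH Mb hMbn hMb j₀ hj₀ _ habel
  haveI := hHn
  haveI := hMbn
  obtain ⟨K, hKdef⟩ : ∃ K : Subgroup G, K = Mb.comap (QuotientGroup.mk' H) := ⟨_, rfl⟩
  haveI hKn : K.Normal := by rw [hKdef]; infer_instance
  have hpC : Cfsg.pCore p G = H :=
    le_antisymm (sSup_le (fun X hX => hD2 X hX.1 hX.2)) (Cfsg.Agent.Helper16.le_pCore hHn hH)
  have hcomm : ∀ a ∈ K, ∀ b ∈ K, a * b * a⁻¹ * b⁻¹ ∈ H := by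
    intro a ha b hb
    rw [hKdef] at ha hb
    exact habel a ha b hb
  have hpow : ∀ a ∈ K, a ^ (Nat.card Mb) ∈ H := by
    intro a ha
    rw [hKdef, Subgroup.mem_comap] at ha
    have h1 : (⟨QuotientGroup.mk' H a, ha⟩ : ↥Mb) ^ (Nat.card Mb) = 1 := pow_card_eq_one'
    have h2 : (QuotientGroup.mk' H a) ^ (Nat.card Mb) = 1 := congrArg Subtype.val h1
    rw [← map_pow, ← MonoidHom.mem_ker, QuotientGroup.ker_mk'] at h2
    exact h2
  have hj₁ : ∀ z : G, z ^ (p ^ j₀) ∈ K := by
    intro z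
    rw [hKdef, Subgroup.mem_comap, map_pow]
    exact hj₀ _
  have hst1 : ∀ (V : Subgroup G) [V.Normal], Cfsg.IsElementaryAbelian p V →
      Cfsg.IsPStableOn p V := by
    intro V _ hV
    unfold Cfsg.IsPStableOn
    intro a hq
    exact Cfsg.Agent.Helper1.quad_pcore hp2 V (Subgroup.centralizer (V : Set G)) H K
      (isPGroup_of_isElementaryAbelian hV) hH (snp_mem_centralizer V) hcomm (Nat.card Mb) hMb
      hpow j₀ hj₁ a
      (snp_quad_of_commutator V (Subgroup.zpowers a) hq a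
        (Subgroup.mem_zpowers a))
  have hWQ' : ∀ a : G,
      (∀ x ∈ Cfsg.pCore p G, a * (a * x * a⁻¹ * x⁻¹) * a⁻¹ = a * x * a⁻¹ * x⁻¹) →
        a ∈ Cfsg.pCore p G := by
    rw [hpC]
    intro a hq
    have hmem := Cfsg.Agent.Helper1.quad_pcore hp2 H (Subgroup.centralizer (H : Set G)) H K hH hH
      (snp_mem_centralizer H) hcomm (Nat.card Mb) hMb hpow j₀ hj₁ a hq
    have hDp : IsPGroup p ↥((Cfsg.pCore p (G ⧸ Subgroup.centralizer (H : Set G))).comap
        (QuotientGroup.mk' (Subgroup.centralizer (H : Set G)))) := by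
      rintro ⟨x, hx⟩
      obtain ⟨k, hk⟩ :=
        (Cfsg.Agent.Helper16.pCore_isPGroup p (G ⧸ Subgroup.centralizer (H : Set G)))
          ⟨QuotientGroup.mk' (Subgroup.centralizer (H : Set G)) x, hx⟩
      have hk' : (QuotientGroup.mk' (Subgroup.centralizer (H : Set G)) x) ^ (p ^ k) = 1 :=
        congrArg Subtype.val hk
      rw [← map_pow, ← MonoidHom.mem_ker, QuotientGroup.ker_mk'] at hk'
      obtain ⟨j, hj⟩ := hH ⟨x ^ (p ^ k), hCH hk'⟩
      have hj' : (x ^ (p ^ k)) ^ (p ^ j) = 1 := congrArg Subtype.val hj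
      refine ⟨k + j, Subtype.ext ?_⟩
      show x ^ p ^ (k + j) = 1
      rw [pow_add, pow_mul]
      exact hj'
    have hDn : ((Cfsg.pCore p (G ⧸ Subgroup.centralizer (H : Set G))).comap
        (QuotientGroup.mk' (Subgroup.centralizer (H : Set G)))).Normal := inferInstance
    exact hD2 _ hDn hDp hmem
  have hst3 : ∀ (S : Sylow p G)
      (V : Subgroup ↥(Subgroup.normalizer (Cfsg.thompsonSubgroupOf p (S : Subgroup G) : Set G)))
      [V.Normal],
      V.map (Subgroup.normalizer (Cfsg.thompsonSubgroupOf p (S : Subgroup G) : Set G)).subtype ≤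
          (Cfsg.omegaCenterThompson p ↥(S : Subgroup G)).map (S : Subgroup G).subtype →
        Cfsg.IsPStableOn p V := by
    intro S V _ hV
    unfold Cfsg.IsPStableOn
    intro a hq
    have hVp : IsPGroup p ↥V := by
      intro v
      have hvS : ((v : ↥(Subgroup.normalizer
          (Cfsg.thompsonSubgroupOf p (S : Subgroup G) : Set G))) : G) ∈ (S : Subgroup G) :=
        (Subgroup.map_subtype_le _) (hV (Subgroup.mem_map_of_mem _ v.2))
      obtain ⟨k, hk⟩ := S.isPGroup' ⟨_, hvS⟩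
      have hk' : ((v : ↥(Subgroup.normalizer
          (Cfsg.thompsonSubgroupOf p (S : Subgroup G) : Set G))) : G) ^ (p ^ k) = 1 :=
        congrArg Subtype.val hk
      refine ⟨k, Subtype.ext (Subtype.ext ?_)⟩
      exact hk'
    have hc1 : ∀ a ∈ K.subgroupOf (Subgroup.normalizer
          (Cfsg.thompsonSubgroupOf p (S : Subgroup G) : Set G)),
        ∀ b ∈ K.subgroupOf (Subgroup.normalizer
          (Cfsg.thompsonSubgroupOf p (S : Subgroup G) : Set G)),
        a * b * a⁻¹ * b⁻¹ ∈ H.subgroupOf (Subgroup.normalizer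
          (Cfsg.thompsonSubgroupOf p (S : Subgroup G) : Set G)) := by
      intro a ha b hb
      rw [Subgroup.mem_subgroupOf] at ha hb ⊢
      exact hcomm (a : G) ha (b : G) hb
    have hc2 : ∀ a ∈ K.subgroupOf (Subgroup.normalizer
          (Cfsg.thompsonSubgroupOf p (S : Subgroup G) : Set G)),
        a ^ (Nat.card Mb) ∈ H.subgroupOf (Subgroup.normalizer
          (Cfsg.thompsonSubgroupOf p (S : Subgroup G) : Set G)) := by
      intro a ha
      rw [Subgroup.mem_subgroupOf] at ha ⊢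
      exact hpow (a : G) ha
    have hc3 : ∀ z : ↥(Subgroup.normalizer
          (Cfsg.thompsonSubgroupOf p (S : Subgroup G) : Set G)),
        z ^ (p ^ j₀) ∈ K.subgroupOf (Subgroup.normalizer
          (Cfsg.thompsonSubgroupOf p (S : Subgroup G) : Set G)) := by
      intro z
      rw [Subgroup.mem_subgroupOf]
      exact hj₁ (z : G)
    have hHp' : IsPGroup p ↥(H.subgroupOf (Subgroup.normalizer
          (Cfsg.thompsonSubgroupOf p (S : Subgroup G) : Set G))) := hH.comap_subtype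
    have hq' := snp_quad_of_commutator V (Subgroup.zpowers a) hq a (Subgroup.mem_zpowers a)
    have key := Cfsg.Agent.Helper1.quad_pcore hp2 V (Subgroup.centralizer (V : Set _))
      (H.subgroupOf _) (K.subgroupOf _) hVp hHp' (snp_mem_centralizer V) hc1
      (Nat.card Mb) hMb hc2 j₀ hc3 a hq'
    exact key
  have hc' : Subgroup.centralizer (Cfsg.pCore p G : Set G) ≤ Cfsg.pCore p G := by
    rw [hpC]; exact hCH
  have hnormal := snn_main' hst1 hWQ' hst3 hc' P
  have htop : Subgroup.normalizer ((Cfsg.inducedFunctor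
      (fun (Q : Type u) [Group Q] => Cfsg.stableNormalClosure p Q) (P : Subgroup G)
        : Subgroup G) : Set G) = ⊤ :=
    Subgroup.normalizer_eq_top_iff.mpr hnormal
  exact hG (Cfsg.Agent.Helper1.npc_of_eq_top _ htop hP)

end Cfsg.Agent.Helper4
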