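import Mathlib
import Cfsg.Prelude.Def_FischerSpaces
import Cfsg.Prelude.Def_Solvable
import Cfsg.Agent.Helper16.PCore

set_option autoImplicit false

namespace Cfsg.Agent.Helper4

universe u

open scoped Pointwise

section tt
variable {G : Type u} [Group G]

theorem tt_mul_self {D : Set G} (hD : Cfsg.IsThreeTranspositionSet D) {x : G} (hx : x ∈ D) :
    x * x = 1 := by
  obtain ⟨h1, _⟩ := hD
  have h := h1 x hx
  have h2 : x ^ 2 = 1 := by rw [← h]; exact pow_orderOf_eq_one x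
  rwa [pow_two] at h2

theorem tt_inv {D : Set G} (hD : Cfsg.IsThreeTranspositionSet D) {x : G} (hx : x ∈ D) :
    x⁻¹ = x :=
  inv_eq_of_mul_eq_one_left (tt_mul_self hD hx)

theorem tt_commute_of_sq {x y : G} (hx : x * x = 1) (hy : y * y = 1) (h : (x * y) ^ 2 = 1) :
    Commute x y := by
  have h1 : x * y * (x * y) = 1 := by rw [← pow_two]; exact h
  have h2 : (x * y)⁻¹ = x * y := inv_eq_of_mul_eq_one_left h1
  have hx' : x⁻¹ = x := inv_eq_of_mul_eq_one_left hx
  have hy' : y⁻¹ = y := inv_eq_of_mul_eq_one_left hy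
  show x * y = y * x
  calc x * y = (x * y)⁻¹ := h2.symm
    _ = y⁻¹ * x⁻¹ := mul_inv_rev x y
    _ = y * x := by rw [hx', hy']

theorem tt_braid {x y : G} (hx : x * x = 1) (hy : y * y = 1) (h : (x * y) ^ 3 = 1) :
    x * y * x = y * x * y := by
  have hx' : x⁻¹ = x := inv_eq_of_mul_eq_one_left hx
  have hy' : y⁻¹ = y := inv_eq_of_mul_eq_one_left hy
  have h1 : x * y * x * (y * x * y) = 1 := by
    calc x * y * x * (y * x * y) = (x * y) ^ 3 := by
          simp only [pow_succ, pow_zero, one_mul, mul_assoc]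
      _ = 1 := h
  have h2 : x * y * x = (y * x * y)⁻¹ := eq_inv_of_mul_eq_one_left h1
  calc x * y * x = (y * x * y)⁻¹ := h2
    _ = y⁻¹ * x⁻¹ * y⁻¹ := by group
    _ = y * x * y := by rw [hx', hy']

theorem tt_conj_prod {x y : G} (hx : x * x = 1) (hy : y * y = 1) (h : (x * y) ^ 3 = 1) :
    (x * y) * x * (x * y)⁻¹ = y := by
  have hb := tt_braid hx hy h
  have hxi : x⁻¹ = x := inv_eq_of_mul_eq_one_left hx
  have hyi : y⁻¹ = y := inv_eq_of_mul_eq_one_left hy
  calc (x * y) * x * (x * y)⁻¹ = (x * y * x) * y⁻¹ * x⁻¹ := by group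
    _ = (y * x * y) * y * x := by rw [hb, hyi, hxi]
    _ = y * x * (y * y) * x := by group
    _ = y * (x * x) := by rw [hy]; group
    _ = y := by rw [hx, mul_one]

theorem tt_cube {D : Set G} (hD : Cfsg.IsThreeTranspositionSet D) {x y : G} (hx : x ∈ D)
    (hy : y ∈ D) (h : ¬ Commute x y) : (x * y) ^ 3 = 1 := by
  have hD' := hD
  obtain ⟨_, h2⟩ := hD'
  rcases h2 x hx y hy with h3 | h3
  · exact absurd (tt_commute_of_sq (tt_mul_self hD hx) (tt_mul_self hD hy) h3) h
  · exact h3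

theorem tt_not_mem_three {T : Subgroup G} (hT : IsPGroup 3 T) {a : G} (ha : orderOf a = 2) :
    a ∉ T := by
  intro haT
  obtain ⟨k, hk⟩ := hT ⟨a, haT⟩
  have h1 : a ^ (3 ^ k) = 1 := by
    have := congrArg Subtype.val hk
    simpa using this
  have h2 : 2 ∣ 3 ^ k := by rw [← ha]; exact orderOf_dvd_of_pow_eq_one h1
  have h3 : 2 ∣ 3 := Nat.Prime.dvd_of_dvd_pow Nat.prime_two h2
  exact absurd h3 (by norm_num)

theorem tt_core_aux {T : Subgroup G} (hTn : T.Normal) {a t : G} (ha : a * a = 1) (ht : t ∈ T)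
    (h3 : (a * t) ^ 3 = 1) : a ∈ T := by
  have hai : a⁻¹ = a := inv_eq_of_mul_eq_one_left ha
  have h1 : a * t * a⁻¹ ∈ T := hTn.conj_mem t ht a
  have h4 : (a * t * a⁻¹ * t) * (a * t) = 1 := by
    calc (a * t * a⁻¹ * t) * (a * t) = (a * t * a * t) * (a * t) := by rw [hai]
      _ = (a * t) ^ 3 := by simp only [pow_succ, pow_zero, one_mul, mul_assoc]
      _ = 1 := h3
  have h2 : a = (a * t * a⁻¹ * t)⁻¹ * t⁻¹ := by
    calc a = (a * t * a⁻¹ * t)⁻¹ * ((a * t * a⁻¹ * t) * (a * t)) * t⁻¹ := by group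
      _ = (a * t * a⁻¹ * t)⁻¹ * t⁻¹ := by rw [h4, mul_one]
  rw [h2]
  exact T.mul_mem (T.inv_mem (T.mul_mem h1 ht)) (T.inv_mem ht)

theorem tt_closure_normal (T : Set G) (hT : ∀ t ∈ T, ∀ g : G, g * t * g⁻¹ ∈ T) :
    (Subgroup.closure T).Normal := by
  constructor
  intro n hn g
  induction hn using Subgroup.closure_induction with
  | mem x hx => exact Subgroup.subset_closure (hT x hx g)
  | one => simp
  | mul x y _ _ hx hy =>
    have e : g * (x * y) * g⁻¹ = (g * x * g⁻¹) * (g * y * g⁻¹) := by group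
    rw [e]; exact Subgroup.mul_mem _ hx hy
  | inv x _ hx =>
    have e : g * x⁻¹ * g⁻¹ = (g * x * g⁻¹)⁻¹ := by group
    rw [e]; exact Subgroup.inv_mem _ hx

/-- the commuting partners of `x` in `D` -/
abbrev ttA (D : Set G) (x : G) : Set G := {y : G | y ∈ D ∧ y ≠ x ∧ Commute x y}

theorem ttA_conj {D : Set G} (hconj : ∀ g : G, ∀ x ∈ D, g * x * g⁻¹ ∈ D) (g u t : G) :
    t ∈ ttA D (g * u * g⁻¹) ↔ g⁻¹ * t * g ∈ ttA D u := by
  constructor
  · rintro ⟨h1, h2, h3⟩
    refine ⟨?_, ?_, ?_⟩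
    · have := hconj g⁻¹ t h1
      rwa [inv_inv] at this
    · intro h
      apply h2
      rw [← h]; group
    · show u * (g⁻¹ * t * g) = g⁻¹ * t * g * u
      have h3' : g * u * g⁻¹ * t = t * (g * u * g⁻¹) := h3
      calc u * (g⁻¹ * t * g) = g⁻¹ * (g * u * g⁻¹ * t) * g := by group
        _ = g⁻¹ * (t * (g * u * g⁻¹)) * g := by rw [h3']
        _ = g⁻¹ * t * g * u := by group
  · rintro ⟨h1, h2, h3⟩
    refine ⟨?_, ?_, ?_⟩
    · have := hconj g _ h1
      have e : g * (g⁻¹ * t * g) * g⁻¹ = t := by group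
      rwa [e] at this
    · intro h
      apply h2
      rw [h]; group
    · show g * u * g⁻¹ * t = t * (g * u * g⁻¹)
      have h3' : u * (g⁻¹ * t * g) = g⁻¹ * t * g * u := h3
      calc g * u * g⁻¹ * t = g * (u * (g⁻¹ * t * g)) * g⁻¹ := by group
        _ = g * (g⁻¹ * t * g * u) * g⁻¹ := by rw [h3']
        _ = t * (g * u * g⁻¹) := by group

theorem ttA_conj_eq {D : Set G} (hconj : ∀ g : G, ∀ x ∈ D, g * x * g⁻¹ ∈ D) (g u v : G)
    (h : ttA D u = ttA D v) : ttA D (g * u * g⁻¹) = ttA D (g * v * g⁻¹) := by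
  ext t
  rw [ttA_conj hconj, ttA_conj hconj, h]

theorem tt_cube_of_equiv {D : Set G} (hD : Cfsg.IsThreeTranspositionSet D) {a b : G} (ha : a ∈ D)
    (hb : b ∈ D) (hab : ttA D a = ttA D b) : (a * b) ^ 3 = 1 := by
  by_cases hc : Commute a b
  · have : b = a := by
      by_contra hne
      have hmem : b ∈ ttA D a := ⟨hb, hne, hc⟩
      rw [hab] at hmem
      obtain ⟨_, h2, _⟩ := hmem
      exact h2 rfl
    rw [this, tt_mul_self hD ha, one_pow]
  · exact tt_cube hD ha hb hc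

theorem tt_order_of_equiv {D : Set G} (hD : Cfsg.IsThreeTranspositionSet D) {a b : G}
    (ha : a ∈ D) (hb : b ∈ D) (hab : ttA D a = ttA D b) : ∃ k : ℕ, orderOf (a * b) = 3 ^ k := by
  have h3 := tt_cube_of_equiv hD ha hb hab
  have hdvd : orderOf (a * b) ∣ 3 := orderOf_dvd_of_pow_eq_one h3
  rcases (Nat.dvd_prime Nat.prime_three).mp hdvd with h | h
  · exact ⟨0, by rw [h, pow_zero]⟩
  · exact ⟨1, by rw [h, pow_one]⟩

/-- products `x * y` with `x, y` equivalent preserve every class -/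
theorem ttA_kernel {D : Set G} (hD : Cfsg.IsThreeTranspositionSet D)
    (hconj : ∀ g : G, ∀ x ∈ D, g * x * g⁻¹ ∈ D)
    {x y z : G} (hx : x ∈ D) (hy : y ∈ D) (hz : z ∈ D) (hxy : ttA D x = ttA D y) :
    ttA D ((x * y) * z * (x * y)⁻¹) = ttA D z := by
  have hxx := tt_mul_self hD hx
  have hyy := tt_mul_self hD hy
  have hzz := tt_mul_self hD hz
  have hxi := tt_inv hD hx
  have hyi := tt_inv hD hy
  have hzi := tt_inv hD hz
  have e1 : ttA D (x * y * x⁻¹) = ttA D x := by
    have := ttA_conj_eq hconj x y x hxy.symm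
    rw [this]; congr 1; group
  have e0 : (x * y) * z * (x * y)⁻¹ = x * (y * z * y⁻¹) * x⁻¹ := by group
  rw [e0]
  by_cases hyz : Commute y z
  · by_cases hzy : z = y
    · rw [hzy]
      have e2 : x * (y * y * y⁻¹) * x⁻¹ = x * y * x⁻¹ := by group
      rw [e2, e1, hxy]
    · have hzA : z ∈ ttA D y := ⟨hz, hzy, hyz⟩
      rw [← hxy] at hzA
      obtain ⟨_, _, hxz⟩ := hzA
      have e2 : x * (y * z * y⁻¹) * x⁻¹ = z := by
        have h1 : y * z = z * y := hyz
        have h2 : x * z = z * x := hxz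
        calc x * (y * z * y⁻¹) * x⁻¹ = x * (z * y * y⁻¹) * x⁻¹ := by rw [h1]
          _ = x * z * x⁻¹ := by group
          _ = z * x * x⁻¹ := by rw [h2]
          _ = z := by group
      rw [e2]
  · have hzy : z ≠ y := by
      intro h
      apply hyz
      rw [h]
    have hzA : z ∉ ttA D x := by
      rw [hxy]
      rintro ⟨_, _, h⟩
      exact hyz h
    by_cases hzx : z = x
    · rw [hzx]
      have e2 : ttA D (y * x * y⁻¹) = ttA D y := by
        have := ttA_conj_eq hconj y x y hxy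
        rw [this]; congr 1; group
      have e3 := ttA_conj_eq hconj x _ _ e2
      rw [e3, e1]
    · have hxz : ¬ Commute x z := by
        intro h
        exact hzA ⟨hz, hzx, h⟩
      have b1 : y * z * y = z * y * z := tt_braid hyy hzz (tt_cube hD hy hz hyz)
      have b2 : x * z * x = z * x * z := tt_braid hxx hzz (tt_cube hD hx hz hxz)
      have e2 : y * z * y⁻¹ = z * y * z⁻¹ := by rw [hyi, hzi]; exact b1
      have e3 : z * x * z⁻¹ = x * z * x⁻¹ := by rw [hzi, hxi]; exact b2.symm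
      have e4 : ttA D (z * y * z⁻¹) = ttA D (z * x * z⁻¹) := ttA_conj_eq hconj z y x hxy.symm
      have e5 : ttA D (y * z * y⁻¹) = ttA D (x * z * x⁻¹) := by rw [e2, e4, e3]
      have e6 := ttA_conj_eq hconj x _ _ e5
      rw [e6]; congr 1
      calc x * (x * z * x⁻¹) * x⁻¹ = (x * x) * z * (x * x)⁻¹ := by group
        _ = z := by rw [hxx]; group

/-- the stabilizer of the class of `x` -/
def ttStab (D : Set G) (hconj : ∀ g : G, ∀ x ∈ D, g * x * g⁻¹ ∈ D) (x : G) : Subgroup G where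
  carrier := {g | ttA D (g * x * g⁻¹) = ttA D x}
  mul_mem' := by
    intro a b ha hb
    have ha' : ttA D (a * x * a⁻¹) = ttA D x := ha
    have hb' : ttA D (b * x * b⁻¹) = ttA D x := hb
    show ttA D (a * b * x * (a * b)⁻¹) = ttA D x
    have e : a * b * x * (a * b)⁻¹ = a * (b * x * b⁻¹) * a⁻¹ := by group
    rw [e, ttA_conj_eq hconj a _ _ hb', ha']
  one_mem' := by
    show ttA D (1 * x * 1⁻¹) = ttA D x
    congr 1; group
  inv_mem' := by
    intro a ha
    have ha' : ttA D (a * x * a⁻¹) = ttA D x := ha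
    show ttA D (a⁻¹ * x * a⁻¹⁻¹) = ttA D x
    have h := ttA_conj_eq hconj a⁻¹ _ _ ha'
    have e : a⁻¹ * (a * x * a⁻¹) * a⁻¹⁻¹ = x := by group
    rw [e] at h
    exact h.symm

theorem ttStab_self {D : Set G} (hconj : ∀ g : G, ∀ x ∈ D, g * x * g⁻¹ ∈ D) (x : G) :
    x ∈ ttStab D hconj x := by
  show ttA D (x * x * x⁻¹) = ttA D x
  congr 1; group

theorem ttA_sub_of_core {D : Set G} (hD : Cfsg.IsThreeTranspositionSet D) {d w : G} (hd : d ∈ D)
    (hw : w ∈ D) (hT : d * w ∈ Cfsg.pCore 3 G) : ttA D d ⊆ ttA D w := by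
  intro y hy
  obtain ⟨hyD, hyd, hdy⟩ := hy
  have hD' := hD
  obtain ⟨hord, hprod⟩ := hD'
  have hdd := tt_mul_self hD hd
  have hyy := tt_mul_self hD hyD
  have hww := tt_mul_self hD hw
  have hP := Cfsg.Agent.Helper16.pCore_isPGroup 3 G
  have hPn := Cfsg.Agent.Helper16.pCore_normal 3 G
  have ha2 : (y * d) * (y * d) = 1 := by
    have hc : d * y = y * d := hdy
    calc y * d * (y * d) = y * (d * y) * d := by group
      _ = y * (y * d) * d := by rw [hc]
      _ = (y * y) * (d * d) := by group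
      _ = 1 := by rw [hyy, hdd, one_mul]
  have hne1 : y * d ≠ 1 := by
    intro h
    apply hyd
    have : y = d⁻¹ := eq_inv_of_mul_eq_one_left h
    rw [this, tt_inv hD hd]
  have hord2 : orderOf (y * d) = 2 := by
    apply orderOf_eq_prime
    · rw [pow_two]; exact ha2
    · exact hne1
  have hnot : y * d ∉ Cfsg.pCore 3 G := tt_not_mem_three hP hord2
  have hyw : y * w = (y * d) * (d * w) := by
    calc y * w = y * (d * d) * w := by rw [hdd, mul_one]
      _ = (y * d) * (d * w) := by group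
  have hcube : (y * w) ^ 3 ≠ 1 := by
    intro h3
    rw [hyw] at h3
    exact hnot (tt_core_aux hPn ha2 hT h3)
  refine ⟨hyD, ?_, ?_⟩
  · intro h
    apply hcube
    rw [h, hww, one_pow]
  · rcases hprod y hyD w hw with h2 | h3
    · exact (tt_commute_of_sq hyy hww h2).symm
    · exact absurd h3 hcube

/-- the statement of S5561 inside a subgroup -/
theorem tt_three_core_sub
    (h5561 : ∀ (H : Type u) [Group H] [Finite H] (d : H), orderOf d = 2 →
      (∀ a ∈ conjugatesOf d, ∀ b ∈ conjugatesOf d, ∃ k : ℕ, orderOf (a * b) = 3 ^ k) →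
      ∀ a ∈ conjugatesOf d, ∀ b ∈ conjugatesOf d, a * b ∈ Cfsg.pCore 3 H)
    [Finite G] (L : Subgroup G) {d : G} (hd : d ∈ L) (hd2 : orderOf d = 2)
    (hprod : ∀ g ∈ L, ∀ h ∈ L, ∃ k : ℕ, orderOf ((g * d * g⁻¹) * (h * d * h⁻¹)) = 3 ^ k) :
    ∃ T : Subgroup G, T ≤ L ∧ (∀ g ∈ L, ∀ t ∈ T, g * t * g⁻¹ ∈ T) ∧ IsPGroup 3 T ∧
      ∀ g ∈ L, d * (g * d * g⁻¹) ∈ T := by
  have hd2' : orderOf (⟨d, hd⟩ : L) = 2 := by rw [← hd2]; exact Subgroup.orderOf_mk d hd
  have hprod' : ∀ a ∈ conjugatesOf (⟨d, hd⟩ : L), ∀ b ∈ conjugatesOf (⟨d, hd⟩ : L),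
      ∃ k : ℕ, orderOf (a * b) = 3 ^ k := by
    intro a ha b hb
    have ha' : IsConj (⟨d, hd⟩ : L) a := ha
    have hb' : IsConj (⟨d, hd⟩ : L) b := hb
    obtain ⟨g, rfl⟩ := isConj_iff.mp ha'
    obtain ⟨h, rfl⟩ := isConj_iff.mp hb'
    obtain ⟨k, hk⟩ := hprod g g.2 h h.2
    refine ⟨k, ?_⟩
    have e : orderOf (g * ⟨d, hd⟩ * g⁻¹ * (h * ⟨d, hd⟩ * h⁻¹) : L)
        = orderOf ((g : G) * d * (g : G)⁻¹ * ((h : G) * d * (h : G)⁻¹)) :=
      (Subgroup.orderOf_coe _).symm
    rw [e, hk]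
  have key := h5561 (↥L) ⟨d, hd⟩ hd2' hprod'
  refine ⟨(Cfsg.pCore 3 L).map L.subtype, ?_, ?_, ?_, ?_⟩
  · exact Subgroup.map_subtype_le _
  · rintro g hg t ⟨t', ht', rfl⟩
    have hn := Cfsg.Agent.Helper16.pCore_normal 3 L
    exact ⟨⟨g, hg⟩ * t' * ⟨g, hg⟩⁻¹, hn.conj_mem t' ht' ⟨g, hg⟩, rfl⟩
  · exact (Cfsg.Agent.Helper16.pCore_isPGroup 3 L).map _
  · intro g hg
    have h1 : (⟨d, hd⟩ : L) ∈ conjugatesOf (⟨d, hd⟩ : L) := mem_conjugatesOf_self
    have h2 : (⟨g, hg⟩ * ⟨d, hd⟩ * ⟨g, hg⟩⁻¹ : L) ∈ conjugatesOf (⟨d, hd⟩ : L) := by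
      show IsConj _ _
      exact isConj_iff.mpr ⟨⟨g, hg⟩, rfl⟩
    exact ⟨_, key _ h1 _ h2, rfl⟩

/-- S5346 modulo the statement of S5561 -/
theorem tt_width_one_iff
    (h5561 : ∀ (H : Type u) [Group H] [Finite H] (d : H), orderOf d = 2 →
      (∀ a ∈ conjugatesOf d, ∀ b ∈ conjugatesOf d, ∃ k : ℕ, orderOf (a * b) = 3 ^ k) →
      ∀ a ∈ conjugatesOf d, ∀ b ∈ conjugatesOf d, a * b ∈ Cfsg.pCore 3 H)
    [Finite G] {D : Set G} (hD : Cfsg.IsThreeTranspositionGroup D) {d : G} (hd : d ∈ D) :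
    Cfsg.commutingWidth D = 1 ↔ Subgroup.zpowers d ⊔ Cfsg.pCore 3 G = ⊤ := by
  obtain ⟨hD1, hD2, hD3⟩ := hD
  have hD1' := hD1
  obtain ⟨hord, hprod⟩ := hD1'
  have hdd : d * d = 1 := tt_mul_self hD1 hd
  have hdi : d⁻¹ = d := tt_inv hD1 hd
  have hT := Cfsg.Agent.Helper16.pCore_isPGroup 3 G
  have hTn := Cfsg.Agent.Helper16.pCore_normal 3 G
  constructor
  · intro hw
    have hnc : ∀ a ∈ D, ∀ b ∈ D, Commute a b → a = b := by
      intro a ha b hb hab
      by_contra hne
      have hmem : 2 ∈ {n : ℕ | ∃ E : Set G, E ⊆ D ∧ E.Finite ∧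
          (∀ a ∈ E, ∀ b ∈ E, Commute a b) ∧ E.ncard = n} := by
        refine ⟨{a, b}, ?_, Set.toFinite _, ?_, Set.ncard_pair hne⟩
        · intro x hx
          rcases hx with hx | hx
          · rw [hx]; exact ha
          · rw [Set.mem_singleton_iff] at hx
            rw [hx]; exact hb
        · intro x hx y hy
          have hx' : x = a ∨ x = b := hx
          have hy' : y = a ∨ y = b := hy
          rcases hx' with hx' | hx' <;> rcases hy' with hy' | hy' <;> rw [hx', hy']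
          · exact hab
          · exact hab.symm
      have hbdd : BddAbove {n : ℕ | ∃ E : Set G, E ⊆ D ∧ E.Finite ∧
          (∀ a ∈ E, ∀ b ∈ E, Commute a b) ∧ E.ncard = n} := by
        refine ⟨Nat.card G, ?_⟩
        rintro n ⟨E, -, -, -, rfl⟩
        calc E.ncard ≤ (Set.univ : Set G).ncard :=
              Set.ncard_le_ncard (Set.subset_univ E) Set.finite_univ
          _ = Nat.card G := Set.ncard_univ G
      have h2 : 2 ≤ Cfsg.commutingWidth D := le_csSup hbdd hmem
      omega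
    have hconjD : ∀ a ∈ conjugatesOf d, a ∈ D := by
      intro a ha
      have ha' : IsConj d a := ha
      obtain ⟨c, rfl⟩ := isConj_iff.mp ha'
      exact hD2 c d hd
    have hprod' : ∀ a ∈ conjugatesOf d, ∀ b ∈ conjugatesOf d,
        ∃ k : ℕ, orderOf (a * b) = 3 ^ k := by
      intro a ha b hb
      have haD := hconjD a ha
      have hbD := hconjD b hb
      by_cases hc : Commute a b
      · have hab := hnc a haD b hbD hc
        refine ⟨0, ?_⟩
        rw [hab, tt_mul_self hD1 hbD]; simp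
      · have h3 := tt_cube hD1 haD hbD hc
        have hne : a * b ≠ 1 := by
          intro h1
          apply hc
          have : a = b⁻¹ := eq_inv_of_mul_eq_one_left h1
          rw [this]; exact (Commute.refl b).inv_left
        refine ⟨1, ?_⟩
        rw [pow_one]
        exact orderOf_eq_prime h3 hne
    have key := h5561 G d (hord d hd) hprod'
    rw [eq_top_iff, ← hD3, Subgroup.closure_le]
    intro e he
    have hde : d * e ∈ Cfsg.pCore 3 G := by
      by_cases hc : Commute d e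
      · have := hnc d hd e he hc
        rw [← this, hdd]; exact one_mem _
      · have h3 := tt_cube hD1 hd he hc
        have hee : e * e = 1 := tt_mul_self hD1 he
        have hmem : e ∈ conjugatesOf d := by
          show IsConj d e
          exact isConj_iff.mpr ⟨d * e, tt_conj_prod hdd hee h3⟩
        exact key d mem_conjugatesOf_self e hmem
    have : e = d * (d * e) := by rw [← mul_assoc, hdd, one_mul]
    rw [this]
    exact Subgroup.mul_mem _ (Subgroup.mem_sup_left (Subgroup.mem_zpowers d))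
      (Subgroup.mem_sup_right hde)
  · intro htop
    have hform : ∀ x ∈ D, ∃ t ∈ Cfsg.pCore 3 G, x = d * t := by
      intro x hx
      have hxtop : x ∈ (Subgroup.zpowers d ⊔ Cfsg.pCore 3 G : Subgroup G) := by
        rw [htop]; exact Subgroup.mem_top x
      haveI := hTn
      have hx' : x ∈ ((Subgroup.zpowers d : Subgroup G) : Set G) *
          ((Cfsg.pCore 3 G : Subgroup G) : Set G) := by
        rw [← Subgroup.mul_normal]; exact hxtop
      obtain ⟨y, hy, z, hz, hyz⟩ := Set.mem_mul.mp hx'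
      obtain ⟨k, hk⟩ := Subgroup.mem_zpowers_iff.mp hy
      rcases Int.even_or_odd k with ⟨j, hj⟩ | ⟨j, hj⟩
      · exfalso
        have h1 : d ^ k = 1 := by
          rw [hj, ← two_mul, zpow_mul, zpow_two, hdd, one_zpow]
        rw [← hk, h1, one_mul] at hyz
        have hz' : z ∈ Cfsg.pCore 3 G := hz
        rw [hyz] at hz'
        exact tt_not_mem_three hT (hord x hx) hz'
      · refine ⟨z, hz, ?_⟩
        have h1 : d ^ k = d := by
          rw [hj, zpow_add, zpow_mul, zpow_two, hdd, one_zpow, one_mul, zpow_one]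
        rw [← hyz, ← hk, h1]
    have hnc : ∀ a ∈ D, ∀ b ∈ D, Commute a b → a = b := by
      intro a ha b hb hab
      by_contra hne
      have haa := tt_mul_self hD1 ha
      have hbb := tt_mul_self hD1 hb
      have hord2 : orderOf (a * b) = 2 := by
        apply orderOf_eq_prime
        · rw [pow_two]
          have hc : a * b = b * a := hab
          calc a * b * (a * b) = a * (b * a) * b := by group
            _ = a * (a * b) * b := by rw [← hc]
            _ = (a * a) * (b * b) := by group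
            _ = 1 := by rw [haa, hbb, one_mul]
        · intro h1
          apply hne
          have : a = b⁻¹ := eq_inv_of_mul_eq_one_left h1
          rw [this, tt_inv hD1 hb]
      obtain ⟨t, ht, hat⟩ := hform a ha
      obtain ⟨s, hs, hbs⟩ := hform b hb
      have hmem : a * b ∈ Cfsg.pCore 3 G := by
        have h1 : a * b = (d * t * d⁻¹) * s := by rw [hat, hbs, hdi]; group
        rw [h1]
        exact Subgroup.mul_mem _ (hTn.conj_mem t ht d) hs
      exact tt_not_mem_three hT hord2 hmem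
    have hgr : IsGreatest {n : ℕ | ∃ E : Set G, E ⊆ D ∧ E.Finite ∧
        (∀ a ∈ E, ∀ b ∈ E, Commute a b) ∧ E.ncard = n} 1 := by
      constructor
      · refine ⟨{d}, ?_, Set.finite_singleton d, ?_, Set.ncard_singleton d⟩
        · intro x hx
          rw [Set.mem_singleton_iff] at hx
          rw [hx]; exact hd
        · intro x hx y hy
          rw [Set.mem_singleton_iff] at hx hy
          rw [hx, hy]
      · rintro n ⟨E, hED, hEf, hEc, rfl⟩
        rw [Set.ncard_le_one hEf]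
        intro a ha b hb
        exact hnc a (hED ha) b (hED hb) (hEc a ha b hb)
    exact hgr.csSup_eq

/-- S5350 modulo the statement of S5561 -/
theorem tt_w_class
    (h5561 : ∀ (H : Type u) [Group H] [Finite H] (d : H), orderOf d = 2 →
      (∀ a ∈ conjugatesOf d, ∀ b ∈ conjugatesOf d, ∃ k : ℕ, orderOf (a * b) = 3 ^ k) →
      ∀ a ∈ conjugatesOf d, ∀ b ∈ conjugatesOf d, a * b ∈ Cfsg.pCore 3 H)
    [Finite G] {D : Set G} (hD : Cfsg.IsThreeTranspositionClass D) {d : G} (hd : d ∈ D) :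
    {w : G | w ∈ D ∧ ttA D d = ttA D w} = {w : G | w ∈ D ∧ d⁻¹ * w ∈ Cfsg.pCore 3 G} ∧
    {w : G | w ∈ D ∧ ttA D d = ttA D w} = {w : G | ∃ g ∈ Cfsg.pCore 3 G, w = g * d * g⁻¹} := by
  obtain ⟨hD1, ⟨d₀, hd₀, hcls⟩, hgen⟩ := hD
  have hconj : ∀ g : G, ∀ x ∈ D, g * x * g⁻¹ ∈ D := by
    intro g x hx
    rw [hcls] at hx ⊢
    have hx' : IsConj d₀ x := hx
    show IsConj d₀ (g * x * g⁻¹)
    exact hx'.trans (isConj_iff.mpr ⟨g, rfl⟩)
  have hT := Cfsg.Agent.Helper16.pCore_isPGroup 3 G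
  have hTn := Cfsg.Agent.Helper16.pCore_normal 3 G
  have hdd := tt_mul_self hD1 hd
  have hdi := tt_inv hD1 hd
  have hD1' := hD1
  obtain ⟨hord, hprod⟩ := hD1'
  have h21 : ∀ w, (∃ g ∈ Cfsg.pCore 3 G, w = g * d * g⁻¹) →
      w ∈ D ∧ d⁻¹ * w ∈ Cfsg.pCore 3 G := by
    rintro w ⟨g, hg, rfl⟩
    refine ⟨hconj g d hd, ?_⟩
    have e : d⁻¹ * (g * d * g⁻¹) = (d⁻¹ * g * d⁻¹⁻¹) * g⁻¹ := by group
    rw [e]
    exact Subgroup.mul_mem _ (hTn.conj_mem g hg d⁻¹) (Subgroup.inv_mem _ hg)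
  have h1W : ∀ w, (w ∈ D ∧ d⁻¹ * w ∈ Cfsg.pCore 3 G) → w ∈ D ∧ ttA D d = ttA D w := by
    rintro w ⟨hw, hwT⟩
    refine ⟨hw, ?_⟩
    rw [hdi] at hwT
    have hwT' : w * d ∈ Cfsg.pCore 3 G := by
      have e : w * d = (d * w)⁻¹ := by rw [mul_inv_rev, tt_inv hD1 hw, hdi]
      rw [e]; exact Subgroup.inv_mem _ hwT
    exact Set.Subset.antisymm (ttA_sub_of_core hD1 hd hw hwT) (ttA_sub_of_core hD1 hw hd hwT')
  have hW2 : ∀ w, (w ∈ D ∧ ttA D d = ttA D w) → ∃ g ∈ Cfsg.pCore 3 G, w = g * d * g⁻¹ := by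
    rintro w ⟨hw, hwA⟩
    have hww := tt_mul_self hD1 hw
    have h3 : (d * w) ^ 3 = 1 := tt_cube_of_equiv hD1 hd hw hwA
    suffices hmem : d * w ∈ Cfsg.pCore 3 G from
      ⟨d * w, hmem, (tt_conj_prod hdd hww h3).symm⟩
    obtain ⟨gens, hgens⟩ : ∃ gens : Set G, gens =
        {m : G | ∃ x ∈ D, ∃ y ∈ D, ttA D x = ttA D y ∧ m = x * y} := ⟨_, rfl⟩
    obtain ⟨M, hM⟩ : ∃ M : Subgroup G, M = Subgroup.closure gens := ⟨_, rfl⟩
    have hgM : ∀ m ∈ gens, m ∈ M := by
      intro m hm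
      rw [hM]; exact Subgroup.subset_closure hm
    have hMn : M.Normal := by
      rw [hM]
      apply tt_closure_normal
      intro t ht g
      rw [hgens] at ht ⊢
      obtain ⟨x, hx, y, hy, hxy, rfl⟩ := ht
      exact ⟨g * x * g⁻¹, hconj g x hx, g * y * g⁻¹, hconj g y hy,
        ttA_conj_eq hconj g x y hxy, by group⟩
    have hMK : ∀ m ∈ M, ∀ z ∈ D, ttA D (m * z * m⁻¹) = ttA D z := by
      intro m hm
      rw [hM] at hm
      induction hm using Subgroup.closure_induction with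
      | mem m hm =>
        rw [hgens] at hm
        obtain ⟨x, hx, y, hy, hxy, rfl⟩ := hm
        intro z hz
        exact ttA_kernel hD1 hconj hx hy hz hxy
      | one =>
        intro z hz
        congr 1; group
      | mul a b _ _ ha hb =>
        intro z hz
        have e : a * b * z * (a * b)⁻¹ = a * (b * z * b⁻¹) * a⁻¹ := by group
        rw [e, ha _ (hconj b z hz), hb z hz]
      | inv a _ ha =>
        intro z hz
        have h1 := ha (a⁻¹ * z * a⁻¹⁻¹) (hconj a⁻¹ z hz)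
        have e : a * (a⁻¹ * z * a⁻¹⁻¹) * a⁻¹ = z := by group
        rw [e] at h1
        exact h1.symm
    have hgen_core : ∀ m ∈ gens, ∀ hm : m ∈ M, (⟨m, hm⟩ : M) ∈ Cfsg.pCore 3 M := by
      intro m hmg hm
      rw [hgens] at hmg
      obtain ⟨x, hx, y, hy, hxy, rfl⟩ := hmg
      have hxx := tt_mul_self hD1 hx
      have hyy := tt_mul_self hD1 hy
      have hcube : (x * y) ^ 3 = 1 := tt_cube_of_equiv hD1 hx hy hxy
      have hprodL : ∀ g ∈ ttStab D hconj x, ∀ h ∈ ttStab D hconj x,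
          ∃ k : ℕ, orderOf ((g * x * g⁻¹) * (h * x * h⁻¹)) = 3 ^ k := by
        intro g hg h hh
        have hg' : ttA D (g * x * g⁻¹) = ttA D x := hg
        have hh' : ttA D (h * x * h⁻¹) = ttA D x := hh
        exact tt_order_of_equiv hD1 (hconj g x hx) (hconj h x hx) (hg'.trans hh'.symm)
      obtain ⟨T, hTL, hTinv, hTp, hTmem⟩ := tt_three_core_sub h5561 (ttStab D hconj x)
        (ttStab_self hconj x) (hord x hx) hprodL
      have hxyL : x * y ∈ ttStab D hconj x := by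
        show ttA D ((x * y) * x * (x * y)⁻¹) = ttA D x
        rw [tt_conj_prod hxx hyy hcube]; exact hxy.symm
      have hxyT : x * y ∈ T := by
        have := hTmem (x * y) hxyL
        rwa [tt_conj_prod hxx hyy hcube] at this
      have hUn : (T.subgroupOf M).Normal := by
        constructor
        intro n hn g
        rw [Subgroup.mem_subgroupOf] at hn ⊢
        have hgL : (g : G) ∈ ttStab D hconj x := hMK g g.2 x hx
        exact hTinv g hgL n hn
      have hUp : IsPGroup 3 (T.subgroupOf M) := hTp.comap_subtype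
      have hle := Cfsg.Agent.Helper16.le_pCore hUn hUp
      apply hle
      rw [Subgroup.mem_subgroupOf]
      exact hxyT
    have hMQ : M ≤ (Cfsg.pCore 3 M).map M.subtype := by
      have h1 : Subgroup.closure gens ≤ (Cfsg.pCore 3 M).map M.subtype := by
        rw [Subgroup.closure_le]
        intro m hm
        exact Subgroup.mem_map.mpr ⟨⟨m, hgM m hm⟩, hgen_core m hm (hgM m hm), rfl⟩
      calc M = Subgroup.closure gens := hM
        _ ≤ _ := h1
    have hMp : IsPGroup 3 M :=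
      ((Cfsg.Agent.Helper16.pCore_isPGroup 3 M).map M.subtype).to_le hMQ
    have hMle := Cfsg.Agent.Helper16.le_pCore hMn hMp
    apply hMle
    apply hgM
    rw [hgens]
    exact ⟨d, hd, w, hw, hwA, rfl⟩
  constructor
  · ext w; exact ⟨fun h => h21 w (hW2 w h), h1W w⟩
  · ext w; exact ⟨hW2 w, fun h => h1W w (h21 w h)⟩

end tt

end Cfsg.Agent.Helper4
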