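import Mathlib
import Cfsg.Prelude.Def_FischerSpaces
import Cfsg.Prelude.Def_Solvable
import Cfsg.Prelude.Def_Local
import Cfsg.Agent.Helper16.PCore
import Cfsg.Agent.Helper9.Layer2
import Cfsg.Agent.Helper4.ThreeTransp

set_option autoImplicit false

namespace Cfsg.Agent.Helper4

universe u

open scoped Pointwise commutatorElement

section tt2
variable {G : Type u} [Group G]

theorem tt_class_conj {D : Set G} {d : G} (hcls : D = conjugatesOf d) :
    ∀ g : G, ∀ x ∈ D, g * x * g⁻¹ ∈ D := by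
  intro g x hx
  rw [hcls] at hx ⊢
  have hx' : IsConj d x := hx
  show IsConj d (g * x * g⁻¹)
  exact hx'.trans (isConj_iff.mpr ⟨g, rfl⟩)

theorem tt_central_of_comm {D : Set G} {d : G} (hcls : D = conjugatesOf d)
    (hgen : Subgroup.closure D = ⊤) {N : Subgroup G} (hN : N.Normal)
    (h : ∀ x ∈ N, d * x = x * d) : N ≤ Subgroup.center G := by
  have hle : Subgroup.closure D ≤ Subgroup.centralizer (N : Set G) := by
    rw [Subgroup.closure_le]
    intro e he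
    rw [hcls] at he
    have he' : IsConj d e := he
    obtain ⟨g, rfl⟩ := isConj_iff.mp he'
    rw [SetLike.mem_coe, Subgroup.mem_centralizer_iff]
    intro x hx
    have h1 := h (g⁻¹ * x * g) (by have := hN.conj_mem x hx g⁻¹; rwa [inv_inv] at this)
    calc x * (g * d * g⁻¹) = g * ((g⁻¹ * x * g) * d) * g⁻¹ := by group
      _ = g * (d * (g⁻¹ * x * g)) * g⁻¹ := by rw [h1]
      _ = g * d * g⁻¹ * x := by group
  rw [hgen] at hle
  intro x hx
  rw [Subgroup.mem_center_iff]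
  intro g
  have hg : g ∈ Subgroup.centralizer (N : Set G) := hle (Subgroup.mem_top g)
  exact (Subgroup.mem_centralizer_iff.mp hg x hx).symm

theorem tt_eq_one_of_pgroup {p : ℕ} {N : Subgroup G} (hN : IsPGroup p N) {t : G} (ht : t ∈ N)
    {q : ℕ} (hq : Nat.Coprime p q) (hpow : t ^ q = 1) : t = 1 := by
  obtain ⟨k, hk⟩ := hN ⟨t, ht⟩
  have h1 : t ^ (p ^ k) = 1 := by
    have := congrArg Subtype.val hk
    simpa using this
  have h2 : orderOf t ∣ p ^ k := orderOf_dvd_of_pow_eq_one h1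
  have h3 : orderOf t ∣ q := orderOf_dvd_of_pow_eq_one hpow
  have h4 : Nat.Coprime (p ^ k) q := Nat.Coprime.pow_left k hq
  have h5 : Nat.Coprime (orderOf t) q := Nat.Coprime.coprime_dvd_left h2 h4
  have h6 : orderOf t = 1 := Nat.Coprime.eq_one_of_dvd h5 h3
  exact orderOf_eq_one_iff.mp h6

theorem tt_order_six {a b : G} (hab : Commute a b) (ha : a ^ 2 = 1) (ha1 : a ≠ 1)
    (hb : b ^ 3 = 1) (hb1 : b ≠ 1) : ¬ ((a * b) ^ 2 = 1 ∨ (a * b) ^ 3 = 1) := by
  rintro (h | h)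
  · rw [hab.mul_pow, ha, one_mul] at h
    apply hb1
    calc b = b ^ 3 * (b ^ 2)⁻¹ := by group
      _ = 1 := by rw [hb, h]; simp
  · rw [hab.mul_pow, hb, mul_one] at h
    apply ha1
    calc a = a ^ 3 * (a ^ 2)⁻¹ := by group
      _ = 1 := by rw [h, ha]; simp

theorem tt_tfacts {D : Set G} (hD : Cfsg.IsThreeTranspositionSet D)
    (hconj : ∀ g : G, ∀ x ∈ D, g * x * g⁻¹ ∈ D) {d : G} (hd : d ∈ D) (x : G) :
    ((d * x * d⁻¹ * x⁻¹) ^ 2 = 1 ∨ (d * x * d⁻¹ * x⁻¹) ^ 3 = 1) ∧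
      d * x * d⁻¹ * x⁻¹ = d * (x * d * x⁻¹) := by
  have hdi := tt_inv hD hd
  have e : d * x * d⁻¹ * x⁻¹ = d * (x * d * x⁻¹) := by
    calc d * x * d⁻¹ * x⁻¹ = d * (x * d⁻¹ * x⁻¹) := by group
      _ = d * (x * d * x⁻¹) := by rw [hdi]
  refine ⟨?_, e⟩
  rw [e]
  have hD' := hD
  obtain ⟨_, h2⟩ := hD'
  exact h2 d hd _ (hconj x d hd)

theorem tt_clash {D : Set G} (hD : Cfsg.IsThreeTranspositionSet D)
    (hconj : ∀ g : G, ∀ x ∈ D, g * x * g⁻¹ ∈ D) {d : G} (hd : d ∈ D) (x y : G)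
    (hcomm : Commute (d * x * d⁻¹ * x⁻¹) (d * y * d⁻¹ * y⁻¹))
    (hu1 : d * x * d⁻¹ * x⁻¹ ≠ 1) (hv1 : d * y * d⁻¹ * y⁻¹ ≠ 1)
    (hu2 : (d * x * d⁻¹ * x⁻¹) ^ 2 = 1) (hv3 : (d * y * d⁻¹ * y⁻¹) ^ 3 = 1) : False := by
  have hdi := tt_inv hD hd
  have hD' := hD
  obtain ⟨_, h2⟩ := hD'
  have hef := h2 (x * d * x⁻¹) (hconj x d hd) (y * d * y⁻¹) (hconj y d hd)
  have e : (x * d * x⁻¹) * (y * d * y⁻¹) = (d * x * d⁻¹ * x⁻¹)⁻¹ * (d * y * d⁻¹ * y⁻¹) := by
    calc (x * d * x⁻¹) * (y * d * y⁻¹) = (x * d * x⁻¹) * (y * d⁻¹ * y⁻¹) := by rw [hdi]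
      _ = (d * x * d⁻¹ * x⁻¹)⁻¹ * (d * y * d⁻¹ * y⁻¹) := by group
  rw [e] at hef
  exact tt_order_six hcomm.inv_left (by rw [inv_pow, hu2, inv_one])
    (fun h => hu1 (inv_eq_one.mp h)) hv3 hv1 hef

theorem tt_commute_of_pgroups {p q : ℕ} (hpq : Nat.Coprime p q) {N M : Subgroup G}
    (hN : N.Normal) (hM : M.Normal) (hNp : IsPGroup p N) (hMq : IsPGroup q M) {u v : G}
    (hu : u ∈ N) (hv : v ∈ M) : Commute u v := by
  have hc1 : u * v * u⁻¹ * v⁻¹ ∈ N := by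
    have : u * v * u⁻¹ * v⁻¹ = u * (v * u⁻¹ * v⁻¹) := by group
    rw [this]; exact N.mul_mem hu (hN.conj_mem _ (N.inv_mem hu) v)
  have hc2 : u * v * u⁻¹ * v⁻¹ ∈ M := M.mul_mem (hM.conj_mem v hv u) (M.inv_mem hv)
  obtain ⟨k, hk⟩ := hMq ⟨_, hc2⟩
  have h1 : (u * v * u⁻¹ * v⁻¹) ^ (q ^ k) = 1 := by
    have := congrArg Subtype.val hk
    simpa using this
  have h2 := tt_eq_one_of_pgroup hNp hc1 (Nat.Coprime.pow_right k hpq) h1
  show u * v = v * u
  calc u * v = (u * v * u⁻¹ * v⁻¹) * v * u := by group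
    _ = v * u := by rw [h2, one_mul]

theorem tt_zpowers_cases {d z : G} (hdd : d * d = 1) (hz : z ∈ Subgroup.zpowers d) :
    z = 1 ∨ z = d := by
  obtain ⟨k, hk⟩ := Subgroup.mem_zpowers_iff.mp hz
  rcases Int.even_or_odd k with ⟨j, hj⟩ | ⟨j, hj⟩
  · left
    rw [← hk, hj, ← two_mul, zpow_mul, zpow_two, hdd, one_zpow]
  · right
    rw [← hk, hj, zpow_add, zpow_mul, zpow_two, hdd, one_zpow, one_mul, zpow_one]

theorem tt_closure_conj (T : Set G) (g : G) (hT : ∀ t ∈ T, g * t * g⁻¹ ∈ T) :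
    ∀ n ∈ Subgroup.closure T, g * n * g⁻¹ ∈ Subgroup.closure T := by
  intro n hn
  induction hn using Subgroup.closure_induction with
  | mem x hx => exact Subgroup.subset_closure (hT x hx)
  | one => simp
  | mul x y _ _ hx hy =>
    have e : g * (x * y) * g⁻¹ = (g * x * g⁻¹) * (g * y * g⁻¹) := by group
    rw [e]; exact Subgroup.mul_mem _ hx hy
  | inv x _ hx =>
    have e : g * x⁻¹ * g⁻¹ = (g * x * g⁻¹)⁻¹ := by group
    rw [e]; exact Subgroup.inv_mem _ hx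

/-- if all `[d, x]`, `x ∈ E(G)`, lie in a nilpotent subgroup of `E(G)` normalized by `E(G)`, then
`E(G) = 1` -/
theorem tt_layer_bot [Finite G] {D : Set G} (hD : Cfsg.IsThreeTranspositionSet D) {d : G}
    (hd : d ∈ D) (hcls : D = conjugatesOf d) (hgen : Subgroup.closure D = ⊤)
    {A : Subgroup G} (hAE : A ≤ Cfsg.layer G)
    (hnorm : ∀ g ∈ Cfsg.layer G, ∀ a ∈ A, g * a * g⁻¹ ∈ A)
    (hnil : Group.IsNilpotent A) (hmem : ∀ x ∈ Cfsg.layer G, d * x * d⁻¹ * x⁻¹ ∈ A) :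
    Cfsg.layer G = ⊥ := by
  have hEn : (Cfsg.layer G).Normal := Cfsg.Agent.Helper9.layer_normal
  have hAsub : A.IsSubnormal := by
    refine Subgroup.IsSubnormal.step A (Cfsg.layer G) hAE hEn.isSubnormal ?_
    constructor
    intro n hn g
    rw [Subgroup.mem_subgroupOf] at hn ⊢
    exact hnorm g g.2 n hn
  have hAF : A ≤ Cfsg.fittingSubgroup G :=
    Cfsg.Agent.Helper9.subnormal_nilpotent_le_fitting A hAsub hnil
  have hcent : ∀ x ∈ Cfsg.layer G,
      d * x * d⁻¹ * x⁻¹ ∈ Subgroup.centralizer (Cfsg.layer G : Set G) := by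
    intro x hx
    rw [Subgroup.mem_centralizer_iff]
    intro e he
    exact Cfsg.Agent.Helper9.fitting_inf_layer_central (hAF (hmem x hx)) e he
  have hdd := tt_mul_self hD hd
  have h1 : ⁅⁅Cfsg.layer G, Subgroup.zpowers d⁆, Cfsg.layer G⁆ = ⊥ := by
    rw [Subgroup.commutator_eq_bot_iff_le_centralizer, Subgroup.commutator_le]
    intro x hx z hz
    rcases tt_zpowers_cases hdd hz with h | h
    · rw [h, commutatorElement_one_right]; exact Subgroup.one_mem _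
    · rw [h]
      have e : ⁅x, d⁆ = (d * x * d⁻¹ * x⁻¹)⁻¹ := by rw [commutatorElement_def]; group
      rw [e]
      exact Subgroup.inv_mem _ (hcent x hx)
  have h2 : ⁅⁅Subgroup.zpowers d, Cfsg.layer G⁆, Cfsg.layer G⁆ = ⊥ := by
    rw [Subgroup.commutator_comm (Subgroup.zpowers d)]; exact h1
  have h3 := Subgroup.commutator_commutator_eq_bot_of_rotate h1 h2
  rw [Cfsg.Agent.Helper9.layer_perfect] at h3
  have h4 := Subgroup.commutator_eq_bot_iff_le_centralizer.mp h3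
  have h5 : Cfsg.layer G ≤ Subgroup.center G := by
    apply tt_central_of_comm hcls hgen hEn
    intro x hx
    have := h4 hx
    rw [Subgroup.mem_centralizer_iff] at this
    exact this d (Subgroup.mem_zpowers d)
  have h6 : ⁅Cfsg.layer G, Cfsg.layer G⁆ = ⊥ := by
    rw [Subgroup.commutator_eq_bot_iff_le_centralizer]
    exact h5.trans (Subgroup.center_le_centralizer _)
  rw [Cfsg.Agent.Helper9.layer_perfect] at h6
  exact h6

/-- S5351 modulo the statement of S5561 -/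
theorem tt_trichotomy
    (h5561 : ∀ (H : Type u) [Group H] [Finite H] (d : H), orderOf d = 2 →
      (∀ a ∈ conjugatesOf d, ∀ b ∈ conjugatesOf d, ∃ k : ℕ, orderOf (a * b) = 3 ^ k) →
      ∀ a ∈ conjugatesOf d, ∀ b ∈ conjugatesOf d, a * b ∈ Cfsg.pCore 3 H)
    [Finite G] {D : Set G} (hD : Cfsg.IsThreeTranspositionClass D)
    (hD2 : ∃ a ∈ D, ∃ b ∈ D, a ≠ b) :
    (∀ p : ℕ, p.Prime → 3 < p → Cfsg.pCore p G ≤ Subgroup.center G) ∧
    ((¬ Cfsg.pCore 2 G ≤ Subgroup.center G ∧ Cfsg.pCore 3 G ≤ Subgroup.center G ∧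
        Cfsg.layer G = ⊥) ∨
     (Cfsg.pCore 2 G ≤ Subgroup.center G ∧ ¬ Cfsg.pCore 3 G ≤ Subgroup.center G ∧
        Cfsg.layer G = ⊥) ∨
     (Cfsg.pCore 2 G ≤ Subgroup.center G ∧ Cfsg.pCore 3 G ≤ Subgroup.center G ∧
        Cfsg.layer G ≠ ⊥)) := by
  obtain ⟨hD1, ⟨d, hd, hcls⟩, hgen⟩ := hD
  have hconj := tt_class_conj hcls
  have hdd := tt_mul_self hD1 hd
  have hdi := tt_inv hD1 hd
  have hD1' := hD1
  obtain ⟨hord, hprod⟩ := hD1'
  have hEn : (Cfsg.layer G).Normal := Cfsg.Agent.Helper9.layer_normal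
  have htmem : ∀ (N : Subgroup G), N.Normal → ∀ x ∈ N, d * x * d⁻¹ * x⁻¹ ∈ N := by
    intro N hN x hx
    exact Subgroup.mul_mem _ (hN.conj_mem x hx d) (Subgroup.inv_mem _ hx)
  have hwit : ∀ N : Subgroup G, N.Normal → ¬ N ≤ Subgroup.center G →
      ∃ x ∈ N, d * x * d⁻¹ * x⁻¹ ≠ 1 := by
    intro N hN hnc
    by_contra hcon
    push Not at hcon
    apply hnc
    apply tt_central_of_comm hcls hgen hN
    intro x hx
    have h1 := hcon x hx
    calc d * x = (d * x * d⁻¹ * x⁻¹) * x * d := by group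
      _ = x * d := by rw [h1, one_mul]
  have hcop23 : Nat.Coprime 2 3 := by norm_num
  have hcop32 : Nat.Coprime 3 2 := by norm_num
  have hP2 := Cfsg.Agent.Helper16.pCore_isPGroup 2 G
  have hP3 := Cfsg.Agent.Helper16.pCore_isPGroup 3 G
  have hN2 := Cfsg.Agent.Helper16.pCore_normal 2 G
  have hN3 := Cfsg.Agent.Helper16.pCore_normal 3 G
  have hw2 : ¬ Cfsg.pCore 2 G ≤ Subgroup.center G → ∃ x ∈ Cfsg.pCore 2 G,
      d * x * d⁻¹ * x⁻¹ ≠ 1 ∧ (d * x * d⁻¹ * x⁻¹) ^ 2 = 1 := by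
    intro h
    obtain ⟨x, hx, hne⟩ := hwit _ hN2 h
    refine ⟨x, hx, hne, ?_⟩
    rcases (tt_tfacts hD1 hconj hd x).1 with h2 | h3
    · exact h2
    · exact absurd (tt_eq_one_of_pgroup hP2 (htmem _ hN2 x hx) hcop23 h3) hne
  have hw3 : ¬ Cfsg.pCore 3 G ≤ Subgroup.center G → ∃ x ∈ Cfsg.pCore 3 G,
      d * x * d⁻¹ * x⁻¹ ≠ 1 ∧ (d * x * d⁻¹ * x⁻¹) ^ 3 = 1 := by
    intro h
    obtain ⟨x, hx, hne⟩ := hwit _ hN3 h
    refine ⟨x, hx, hne, ?_⟩
    rcases (tt_tfacts hD1 hconj hd x).1 with h2 | h3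
    · exact absurd (tt_eq_one_of_pgroup hP3 (htmem _ hN3 x hx) hcop32 h2) hne
    · exact h3
  have hF2 : Cfsg.pCore 2 G ≤ Cfsg.fittingSubgroup G := Cfsg.Agent.Helper9.pCore_le_fitting 2
  have hF3 : Cfsg.pCore 3 G ≤ Cfsg.fittingSubgroup G := Cfsg.Agent.Helper9.pCore_le_fitting 3
  have h1 : ∀ p : ℕ, p.Prime → 3 < p → Cfsg.pCore p G ≤ Subgroup.center G := by
    intro p hp h3
    by_contra hnc
    have hNp := Cfsg.Agent.Helper16.pCore_normal p G
    obtain ⟨x, hx, hne⟩ := hwit _ hNp hnc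
    have hPp := Cfsg.Agent.Helper16.pCore_isPGroup p G
    have hmem := htmem _ hNp x hx
    rcases (tt_tfacts hD1 hconj hd x).1 with h2 | h3'
    · exact hne (tt_eq_one_of_pgroup hPp hmem
        ((Nat.coprime_primes hp Nat.prime_two).mpr (by omega)) h2)
    · exact hne (tt_eq_one_of_pgroup hPp hmem
        ((Nat.coprime_primes hp Nat.prime_three).mpr (by omega)) h3')
  -- layer witnesses
  have hB2 : Cfsg.layer G ≠ ⊥ → ∃ x ∈ Cfsg.layer G, (d * x * d⁻¹ * x⁻¹) ^ 2 ≠ 1 := by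
    intro hE
    by_contra hcon
    push Not at hcon
    apply hE
    obtain ⟨S, hS⟩ : ∃ S : Set G, S = {e | ∃ x ∈ Cfsg.layer G, e = x * d * x⁻¹} := ⟨_, rfl⟩
    have hScomm : ∀ a ∈ S, ∀ b ∈ S, a * b = b * a := by
      intro a ha b hb
      rw [hS] at ha hb
      obtain ⟨x, hx, rfl⟩ := ha
      obtain ⟨y, hy, rfl⟩ := hb
      have hxy : x⁻¹ * y ∈ Cfsg.layer G := Subgroup.mul_mem _ (Subgroup.inv_mem _ hx) hy
      have h1 := hcon (x⁻¹ * y) hxy
      rw [(tt_tfacts hD1 hconj hd (x⁻¹ * y)).2] at h1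
      have hc : Commute d ((x⁻¹ * y) * d * (x⁻¹ * y)⁻¹) :=
        tt_commute_of_sq hdd (tt_mul_self hD1 (hconj _ d hd)) h1
      have hc' : d * ((x⁻¹ * y) * d * (x⁻¹ * y)⁻¹) = ((x⁻¹ * y) * d * (x⁻¹ * y)⁻¹) * d := hc
      calc x * d * x⁻¹ * (y * d * y⁻¹)
          = x * (d * ((x⁻¹ * y) * d * (x⁻¹ * y)⁻¹)) * x⁻¹ := by group
        _ = x * (((x⁻¹ * y) * d * (x⁻¹ * y)⁻¹) * d) * x⁻¹ := by rw [hc']
        _ = y * d * y⁻¹ * (x * d * x⁻¹) := by group
    have hc1 : Subgroup.closure S ≤ Subgroup.centralizer S := by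
      rw [Subgroup.closure_le]
      intro a ha
      rw [SetLike.mem_coe, Subgroup.mem_centralizer_iff]
      intro b hb
      exact hScomm b hb a ha
    have hBcomm : ∀ a ∈ Subgroup.closure S, ∀ b ∈ Subgroup.closure S, a * b = b * a := by
      have hc2 : Subgroup.closure S ≤ Subgroup.centralizer (Subgroup.closure S : Set G) := by
        rw [Subgroup.closure_le]
        intro s hs
        rw [SetLike.mem_coe, Subgroup.mem_centralizer_iff]
        intro b hb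
        exact (Subgroup.mem_centralizer_iff.mp (hc1 hb) s hs).symm
      intro a ha b hb
      exact Subgroup.mem_centralizer_iff.mp (hc2 hb) a ha
    apply tt_layer_bot hD1 hd hcls hgen (A := Subgroup.closure S ⊓ Cfsg.layer G) inf_le_right
    · intro g hg a ha
      obtain ⟨ha1, ha2⟩ := Subgroup.mem_inf.mp ha
      refine Subgroup.mem_inf.mpr ⟨?_, hEn.conj_mem a ha2 g⟩
      refine tt_closure_conj S g ?_ a ha1
      intro t ht
      rw [hS] at ht ⊢
      obtain ⟨x, hx, rfl⟩ := ht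
      exact ⟨g * x, Subgroup.mul_mem _ hg hx, by group⟩
    · exact Cfsg.Agent.Helper9.nilpotent_of_comm (fun a b =>
        Subtype.ext (hBcomm a (Subgroup.mem_inf.mp a.2).1 b (Subgroup.mem_inf.mp b.2).1))
    · intro x hx
      refine Subgroup.mem_inf.mpr ⟨?_, htmem _ hEn x hx⟩
      rw [(tt_tfacts hD1 hconj hd x).2]
      apply Subgroup.mul_mem
      · apply Subgroup.subset_closure
        rw [hS]
        exact ⟨1, Subgroup.one_mem _, by group⟩
      · apply Subgroup.subset_closure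
        rw [hS]
        exact ⟨x, hx, rfl⟩
  have hB3 : Cfsg.layer G ≠ ⊥ → ∃ x ∈ Cfsg.layer G, (d * x * d⁻¹ * x⁻¹) ^ 3 ≠ 1 := by
    intro hE
    by_contra hcon
    push Not at hcon
    apply hE
    obtain ⟨L, hL⟩ : ∃ L : Subgroup G, L = Cfsg.layer G ⊔ Subgroup.zpowers d := ⟨_, rfl⟩
    have hEL : Cfsg.layer G ≤ L := by rw [hL]; exact le_sup_left
    have hdL : d ∈ L := by rw [hL]; exact Subgroup.mem_sup_right (Subgroup.mem_zpowers d)
    have hLconj : ∀ g ∈ L, ∃ x ∈ Cfsg.layer G, g * d * g⁻¹ = x * d * x⁻¹ := by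
      intro g hg
      rw [hL] at hg
      haveI := hEn
      have hg' : g ∈ ((Cfsg.layer G : Subgroup G) : Set G) *
          ((Subgroup.zpowers d : Subgroup G) : Set G) := by
        rw [← Subgroup.normal_mul]; exact hg
      obtain ⟨x, hx, z, hz, rfl⟩ := Set.mem_mul.mp hg'
      refine ⟨x, hx, ?_⟩
      rcases tt_zpowers_cases hdd hz with h | h
      · rw [h]; group
      · rw [h]
        calc x * d * d * (x * d)⁻¹ = x * (d * d) * d⁻¹ * x⁻¹ := by group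
          _ = x * d * x⁻¹ := by rw [hdd, mul_one, hdi]
    have hprodL : ∀ g ∈ L, ∀ g' ∈ L,
        ∃ k : ℕ, orderOf ((g * d * g⁻¹) * (g' * d * g'⁻¹)) = 3 ^ k := by
      intro g hg g' hg'
      obtain ⟨x, hx, ex⟩ := hLconj g hg
      obtain ⟨y, hy, ey⟩ := hLconj g' hg'
      rw [ex, ey]
      have hxy : x⁻¹ * y ∈ Cfsg.layer G := Subgroup.mul_mem _ (Subgroup.inv_mem _ hx) hy
      have h1 := hcon (x⁻¹ * y) hxy
      rw [(tt_tfacts hD1 hconj hd (x⁻¹ * y)).2] at h1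
      have h2 : ((x * d * x⁻¹) * (y * d * y⁻¹)) ^ 3 = 1 := by
        have e : (x * d * x⁻¹) * (y * d * y⁻¹)
            = x * (d * ((x⁻¹ * y) * d * (x⁻¹ * y)⁻¹)) * x⁻¹ := by group
        rw [e, conj_pow, h1]; group
      have hdvd : orderOf ((x * d * x⁻¹) * (y * d * y⁻¹)) ∣ 3 := orderOf_dvd_of_pow_eq_one h2
      rcases (Nat.dvd_prime Nat.prime_three).mp hdvd with h | h
      · exact ⟨0, by rw [h, pow_zero]⟩
      · exact ⟨1, by rw [h, pow_one]⟩
    obtain ⟨T, hTL, hTinv, hTp, hTmem⟩ := tt_three_core_sub h5561 L hdL (hord d hd) hprodL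
    apply tt_layer_bot hD1 hd hcls hgen (A := T ⊓ Cfsg.layer G) inf_le_right
    · intro g hg a ha
      obtain ⟨ha1, ha2⟩ := Subgroup.mem_inf.mp ha
      exact Subgroup.mem_inf.mpr ⟨hTinv g (hEL hg) a ha1, hEn.conj_mem a ha2 g⟩
    · have hp : IsPGroup 3 ↥(T ⊓ Cfsg.layer G) := hTp.to_le inf_le_left
      exact hp.isNilpotent
    · intro x hx
      refine Subgroup.mem_inf.mpr ⟨?_, htmem _ hEn x hx⟩
      rw [(tt_tfacts hD1 hconj hd x).2]
      exact hTmem x (hEL hx)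
  have hF1 : ¬ Cfsg.pCore 2 G ≤ Subgroup.center G → Cfsg.pCore 3 G ≤ Subgroup.center G := by
    intro ha
    by_contra hb
    obtain ⟨x, hx, hu1, hu2⟩ := hw2 ha
    obtain ⟨y, hy, hv1, hv3⟩ := hw3 hb
    have hcomm : Commute (d * x * d⁻¹ * x⁻¹) (d * y * d⁻¹ * y⁻¹) :=
      tt_commute_of_pgroups hcop23 hN2 hN3 hP2 hP3 (htmem _ hN2 x hx) (htmem _ hN3 y hy)
    exact tt_clash hD1 hconj hd x y hcomm hu1 hv1 hu2 hv3
  have hFE2 : ¬ Cfsg.pCore 2 G ≤ Subgroup.center G → Cfsg.layer G ≠ ⊥ → False := by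
    intro ha hE
    obtain ⟨y, hy, hu1, hu2⟩ := hw2 ha
    obtain ⟨x, hx, hv2⟩ := hB2 hE
    have hv1 : d * x * d⁻¹ * x⁻¹ ≠ 1 := by
      intro h
      apply hv2
      rw [h, one_pow]
    have hv3 : (d * x * d⁻¹ * x⁻¹) ^ 3 = 1 := by
      rcases (tt_tfacts hD1 hconj hd x).1 with h2 | h3
      · exact absurd h2 hv2
      · exact h3
    have hcomm : Commute (d * y * d⁻¹ * y⁻¹) (d * x * d⁻¹ * x⁻¹) :=
      (Cfsg.Agent.Helper9.fitting_inf_layer_central (hF2 (htmem _ hN2 y hy)) _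
        (htmem _ hEn x hx)).symm
    exact tt_clash hD1 hconj hd y x hcomm hu1 hv1 hu2 hv3
  have hFE3 : ¬ Cfsg.pCore 3 G ≤ Subgroup.center G → Cfsg.layer G ≠ ⊥ → False := by
    intro hb hE
    obtain ⟨y, hy, hu1, hu3⟩ := hw3 hb
    obtain ⟨x, hx, hv3⟩ := hB3 hE
    have hv1 : d * x * d⁻¹ * x⁻¹ ≠ 1 := by
      intro h
      apply hv3
      rw [h, one_pow]
    have hv2 : (d * x * d⁻¹ * x⁻¹) ^ 2 = 1 := by
      rcases (tt_tfacts hD1 hconj hd x).1 with h2 | h3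
      · exact h2
      · exact absurd h3 hv3
    have hcomm : Commute (d * x * d⁻¹ * x⁻¹) (d * y * d⁻¹ * y⁻¹) :=
      Cfsg.Agent.Helper9.fitting_inf_layer_central (hF3 (htmem _ hN3 y hy)) _
        (htmem _ hEn x hx)
    exact tt_clash hD1 hconj hd x y hcomm hv1 hu1 hv2 hu3
  have hF4 : Cfsg.pCore 2 G ≤ Subgroup.center G → Cfsg.pCore 3 G ≤ Subgroup.center G →
      Cfsg.layer G = ⊥ → False := by
    intro ha hb hc
    have hFZ : Cfsg.fittingSubgroup G ≤ Subgroup.center G := by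
      rw [Cfsg.Agent.Helper9.fitting_eq_iSup_pCore]
      apply iSup_le
      rintro ⟨p, hp⟩
      show Cfsg.pCore p G ≤ Subgroup.center G
      by_cases h2 : p = 2
      · rw [h2]; exact ha
      · by_cases h3 : p = 3
        · rw [h3]; exact hb
        · apply h1 p hp
          have := hp.two_le
          omega
    have hFs : Cfsg.generalizedFittingSubgroup G = Cfsg.fittingSubgroup G := by
      unfold Cfsg.generalizedFittingSubgroup
      rw [hc, bot_sup_eq]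
    have hcent := Cfsg.Agent.Helper9.centralizer_genFitting_le (G := G)
    rw [hFs] at hcent
    have hall : ∀ g : G, g ∈ Subgroup.center G := by
      intro g
      apply hFZ
      apply hcent
      rw [Subgroup.mem_centralizer_iff]
      intro f hf
      exact (Subgroup.mem_center_iff.mp (hFZ hf) g).symm
    obtain ⟨a, haD, b, hbD, hab⟩ := hD2
    apply hab
    rw [hcls] at haD hbD
    have ha' : IsConj d a := haD
    have hb' : IsConj d b := hbD
    obtain ⟨g₁, rfl⟩ := isConj_iff.mp ha'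
    obtain ⟨g₂, rfl⟩ := isConj_iff.mp hb'
    have hdc := hall d
    rw [Subgroup.mem_center_iff] at hdc
    calc g₁ * d * g₁⁻¹ = d * g₁ * g₁⁻¹ := by rw [hdc g₁]
      _ = d := by group
      _ = d * g₂ * g₂⁻¹ := by group
      _ = g₂ * d * g₂⁻¹ := by rw [hdc g₂]
  refine ⟨h1, ?_⟩
  by_cases ha : Cfsg.pCore 2 G ≤ Subgroup.center G
  · by_cases hb : Cfsg.pCore 3 G ≤ Subgroup.center G
    · right; right
      exact ⟨ha, hb, fun hc => hF4 ha hb hc⟩
    · right; left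
      refine ⟨ha, hb, ?_⟩
      by_contra hE
      exact hFE3 hb hE
  · left
    refine ⟨ha, hF1 ha, ?_⟩
    by_contra hE
    exact hFE2 ha hE

end tt2

end Cfsg.Agent.Helper4
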