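import Mathlib
import Cfsg.Prelude.Def_FischerSpaces
import Cfsg.Prelude.Def_Solvable
import Cfsg.Prelude.Def_Local
import Cfsg.Agent.Helper16.PCore
import Cfsg.Agent.Helper9.Layer2
import Cfsg.Agent.Helper9.Comp
import Cfsg.Agent.Helper9.Quasi
import Cfsg.Agent.Helper4.ThreeTransp
import Cfsg.Agent.Helper4.ThreeTransp2

set_option autoImplicit false

namespace Cfsg.Agent.Helper4

universe u

open scoped Pointwise commutatorElement

section tt3
variable {G : Type u} [Group G]

theorem tt_card_two_three {Q : Type u} [Group Q] [Finite Q] (h : ∀ q : Q, q ^ 6 = 1) :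
    ∃ a b : ℕ, Nat.card Q = 2 ^ a * 3 ^ b := by
  have hprime : ∀ p : ℕ, p.Prime → p ∣ Nat.card Q → p = 2 ∨ p = 3 := by
    intro p hp hdvd
    haveI : Fact p.Prime := ⟨hp⟩
    obtain ⟨x, hx⟩ := exists_prime_orderOf_dvd_card' p hdvd
    have h6 : p ∣ 6 := by rw [← hx]; exact orderOf_dvd_of_pow_eq_one (h x)
    have e6 : (6 : ℕ) = 2 * 3 := by norm_num
    rw [e6] at h6
    rcases (Nat.Prime.dvd_mul hp).mp h6 with h | h
    · left; exact (Nat.prime_dvd_prime_iff_eq hp Nat.prime_two).mp h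
    · right; exact (Nat.prime_dvd_prime_iff_eq hp Nat.prime_three).mp h
  have key : ∀ n : ℕ, n ≠ 0 → (∀ p : ℕ, p.Prime → p ∣ n → p = 2 ∨ p = 3) →
      ∃ a b : ℕ, n = 2 ^ a * 3 ^ b := by
    intro n
    induction n using Nat.strong_induction_on with
    | _ n ih =>
      intro hn hp
      by_cases h1 : n = 1
      · exact ⟨0, 0, by rw [h1]; norm_num⟩
      · have hmf := Nat.minFac_prime h1
        obtain ⟨m, hm⟩ := Nat.minFac_dvd n
        have hm0 : m ≠ 0 := by
          intro h0
          rw [h0, mul_zero] at hm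
          exact hn hm
        have hlt : m < n := by
          have h2 := hmf.two_le
          calc m < 2 * m := by omega
            _ ≤ n.minFac * m := Nat.mul_le_mul_right m h2
            _ = n := hm.symm
        have hpm : ∀ p : ℕ, p.Prime → p ∣ m → p = 2 ∨ p = 3 := by
          intro p hpp hpd
          apply hp p hpp
          rw [hm]
          exact Dvd.dvd.mul_left hpd _
        obtain ⟨a, b, hab⟩ := ih m hlt hm0 hpm
        rcases hp _ hmf (Nat.minFac_dvd n) with h2 | h3
        · exact ⟨a + 1, b, by rw [hm, h2, hab]; ring⟩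
        · exact ⟨a, b + 1, by rw [hm, h3, hab]; ring⟩
  exact key _ (Nat.card_pos.ne') hprime

theorem tt_closure_conj' (T : Set G) (g : G)
    (hT : ∀ t ∈ T, g * t * g⁻¹ ∈ Subgroup.closure T) :
    ∀ n ∈ Subgroup.closure T, g * n * g⁻¹ ∈ Subgroup.closure T := by
  intro n hn
  induction hn using Subgroup.closure_induction with
  | mem x hx => exact hT x hx
  | one => simp
  | mul x y _ _ hx hy =>
    have e : g * (x * y) * g⁻¹ = (g * x * g⁻¹) * (g * y * g⁻¹) := by group
    rw [e]; exact Subgroup.mul_mem _ hx hy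
  | inv x _ hx =>
    have e : g * x⁻¹ * g⁻¹ = (g * x * g⁻¹)⁻¹ := by group
    rw [e]; exact Subgroup.inv_mem _ hx

theorem tt_cls_of_mem {D : Set G} {d a : G} (hcls : D = conjugatesOf d) (ha : a ∈ D) :
    D = conjugatesOf a := by
  rw [hcls] at ha ⊢
  have ha' : IsConj d a := ha
  exact ha'.conjugatesOf_eq

/-- a member of the class cannot act on a nontrivial perfect normal subgroup through central
elements -/
theorem tt_not_cent {D : Set G} (hD : Cfsg.IsThreeTranspositionSet D) {d : G} (hd : d ∈ D)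
    (hcls : D = conjugatesOf d) (hgen : Subgroup.closure D = ⊤)
    {K : Subgroup G} (hKn : K.Normal) (hKp : ⁅K, K⁆ = K) (hK1 : K ≠ ⊥)
    (hcent : ∀ x ∈ K, d * x * d⁻¹ * x⁻¹ ∈ Subgroup.centralizer (K : Set G)) : False := by
  have hdd := tt_mul_self hD hd
  have h1 : ⁅⁅K, Subgroup.zpowers d⁆, K⁆ = ⊥ := by
    rw [Subgroup.commutator_eq_bot_iff_le_centralizer, Subgroup.commutator_le]
    intro x hx z hz
    rcases tt_zpowers_cases hdd hz with h | h
    · rw [h, commutatorElement_one_right]; exact Subgroup.one_mem _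
    · rw [h]
      have e : ⁅x, d⁆ = (d * x * d⁻¹ * x⁻¹)⁻¹ := by rw [commutatorElement_def]; group
      rw [e]
      exact Subgroup.inv_mem _ (hcent x hx)
  have h2 : ⁅⁅Subgroup.zpowers d, K⁆, K⁆ = ⊥ := by
    rw [Subgroup.commutator_comm (Subgroup.zpowers d)]; exact h1
  have h3 := Subgroup.commutator_commutator_eq_bot_of_rotate h1 h2
  rw [hKp] at h3
  have h4 := Subgroup.commutator_eq_bot_iff_le_centralizer.mp h3
  have h5 : K ≤ Subgroup.center G := by
    apply tt_central_of_comm hcls hgen hKn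
    intro x hx
    have := h4 hx
    rw [Subgroup.mem_centralizer_iff] at this
    exact this d (Subgroup.mem_zpowers d)
  have h6 : ⁅K, K⁆ = ⊥ := by
    rw [Subgroup.commutator_eq_bot_iff_le_centralizer]
    exact h5.trans (Subgroup.center_le_centralizer _)
  rw [hKp] at h6
  exact hK1 h6

theorem tt_perfect_bot [Finite G] {D : Set G} (hD : Cfsg.IsThreeTranspositionSet D) {d : G}
    (hd : d ∈ D) (hcls : D = conjugatesOf d) (hgen : Subgroup.closure D = ⊤)
    {K : Subgroup G} (hKn : K.Normal) (hKp : ⁅K, K⁆ = K) (hKE : K ≤ Cfsg.layer G)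
    {A : Subgroup G} (hAK : A ≤ K) (hnorm : ∀ g ∈ K, ∀ a ∈ A, g * a * g⁻¹ ∈ A)
    (hnil : Group.IsNilpotent A) (hmem : ∀ x ∈ K, d * x * d⁻¹ * x⁻¹ ∈ A) : K = ⊥ := by
  by_contra hK1
  have hAsub : A.IsSubnormal := by
    refine Subgroup.IsSubnormal.step A K hAK hKn.isSubnormal ?_
    constructor
    intro n hn g
    rw [Subgroup.mem_subgroupOf] at hn ⊢
    exact hnorm g g.2 n hn
  have hAF : A ≤ Cfsg.fittingSubgroup G :=
    Cfsg.Agent.Helper9.subnormal_nilpotent_le_fitting A hAsub hnil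
  apply tt_not_cent hD hd hcls hgen hKn hKp hK1
  intro x hx
  rw [Subgroup.mem_centralizer_iff]
  intro e he
  exact Cfsg.Agent.Helper9.fitting_inf_layer_central (hAF (hmem x hx)) e (hKE he)

theorem tt_wit2 [Finite G] {D : Set G} (hD : Cfsg.IsThreeTranspositionSet D) {d : G}
    (hd : d ∈ D) (hcls : D = conjugatesOf d) (hgen : Subgroup.closure D = ⊤)
    {K : Subgroup G} (hKn : K.Normal) (hKp : ⁅K, K⁆ = K) (hKE : K ≤ Cfsg.layer G)
    (hK1 : K ≠ ⊥) : ∃ x ∈ K, (d * x * d⁻¹ * x⁻¹) ^ 2 ≠ 1 := by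
  have hconj := tt_class_conj hcls
  have hdd := tt_mul_self hD hd
  by_contra hcon
  push Not at hcon
  apply hK1
  obtain ⟨S, hS⟩ : ∃ S : Set G, S = {e | ∃ x ∈ K, e = x * d * x⁻¹} := ⟨_, rfl⟩
  have hScomm : ∀ a ∈ S, ∀ b ∈ S, a * b = b * a := by
    intro a ha b hb
    rw [hS] at ha hb
    obtain ⟨x, hx, rfl⟩ := ha
    obtain ⟨y, hy, rfl⟩ := hb
    have hxy : x⁻¹ * y ∈ K := Subgroup.mul_mem _ (Subgroup.inv_mem _ hx) hy
    have h1 := hcon (x⁻¹ * y) hxy
    rw [(tt_tfacts hD hconj hd (x⁻¹ * y)).2] at h1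
    have hc : Commute d ((x⁻¹ * y) * d * (x⁻¹ * y)⁻¹) :=
      tt_commute_of_sq hdd (tt_mul_self hD (hconj _ d hd)) h1
    have hc' : d * ((x⁻¹ * y) * d * (x⁻¹ * y)⁻¹) = ((x⁻¹ * y) * d * (x⁻¹ * y)⁻¹) * d := hc
    calc x * d * x⁻¹ * (y * d * y⁻¹)
        = x * (d * ((x⁻¹ * y) * d * (x⁻¹ * y)⁻¹)) * x⁻¹ := by group
      _ = x * (((x⁻¹ * y) * d * (x⁻¹ * y)⁻¹) * d) * x⁻¹ := by rw [hc']
      _ = y * d * y⁻¹ * (x * d * x⁻¹) := by group
  have hc1 : Subgroup.closure S ≤ Subgroup.centralizer S := by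
    rw [Subgroup.closure_le]
    intro a ha
    rw [SetLike.mem_coe, Subgroup.mem_centralizer_iff]
    intro b hb
    exact hScomm b hb a ha
  have hBcomm : ∀ a ∈ Subgroup.closure S, ∀ b ∈ Subgroup.closure S, a * b = b * a := by
    have hc2 : Subgroup.closure S ≤ Subgroup.centralizer (Subgroup.closure S : Set G) := by
      rw [Subgroup.closure_le]
      intro s hs
      rw [SetLike.mem_coe, Subgroup.mem_centralizer_iff]
      intro b hb
      exact (Subgroup.mem_centralizer_iff.mp (hc1 hb) s hs).symm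
    intro a ha b hb
    exact Subgroup.mem_centralizer_iff.mp (hc2 hb) a ha
  apply tt_perfect_bot hD hd hcls hgen hKn hKp hKE (A := Subgroup.closure S ⊓ K) inf_le_right
  · intro g hg a ha
    obtain ⟨ha1, ha2⟩ := Subgroup.mem_inf.mp ha
    refine Subgroup.mem_inf.mpr ⟨?_, hKn.conj_mem a ha2 g⟩
    refine tt_closure_conj S g ?_ a ha1
    intro t ht
    rw [hS] at ht ⊢
    obtain ⟨x, hx, rfl⟩ := ht
    exact ⟨g * x, Subgroup.mul_mem _ hg hx, by group⟩
  · exact Cfsg.Agent.Helper9.nilpotent_of_comm (fun a b =>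
      Subtype.ext (hBcomm a (Subgroup.mem_inf.mp a.2).1 b (Subgroup.mem_inf.mp b.2).1))
  · intro x hx
    refine Subgroup.mem_inf.mpr ⟨?_,
      Subgroup.mul_mem _ (hKn.conj_mem x hx d) (Subgroup.inv_mem _ hx)⟩
    rw [(tt_tfacts hD hconj hd x).2]
    apply Subgroup.mul_mem
    · apply Subgroup.subset_closure
      rw [hS]
      exact ⟨1, Subgroup.one_mem _, by group⟩
    · apply Subgroup.subset_closure
      rw [hS]
      exact ⟨x, hx, rfl⟩

theorem tt_wit3
    (h5561 : ∀ (H : Type u) [Group H] [Finite H] (d : H), orderOf d = 2 →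
      (∀ a ∈ conjugatesOf d, ∀ b ∈ conjugatesOf d, ∃ k : ℕ, orderOf (a * b) = 3 ^ k) →
      ∀ a ∈ conjugatesOf d, ∀ b ∈ conjugatesOf d, a * b ∈ Cfsg.pCore 3 H)
    [Finite G] {D : Set G} (hD : Cfsg.IsThreeTranspositionSet D) {d : G}
    (hd : d ∈ D) (hcls : D = conjugatesOf d) (hgen : Subgroup.closure D = ⊤)
    {K : Subgroup G} (hKn : K.Normal) (hKp : ⁅K, K⁆ = K) (hKE : K ≤ Cfsg.layer G)
    (hK1 : K ≠ ⊥) : ∃ x ∈ K, (d * x * d⁻¹ * x⁻¹) ^ 3 ≠ 1 := by
  have hconj := tt_class_conj hcls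
  have hdd := tt_mul_self hD hd
  have hdi := tt_inv hD hd
  have hD' := hD
  obtain ⟨hord, _⟩ := hD'
  by_contra hcon
  push Not at hcon
  apply hK1
  obtain ⟨L, hL⟩ : ∃ L : Subgroup G, L = K ⊔ Subgroup.zpowers d := ⟨_, rfl⟩
  have hEL : K ≤ L := by rw [hL]; exact le_sup_left
  have hdL : d ∈ L := by rw [hL]; exact Subgroup.mem_sup_right (Subgroup.mem_zpowers d)
  have hLconj : ∀ g ∈ L, ∃ x ∈ K, g * d * g⁻¹ = x * d * x⁻¹ := by
    intro g hg
    rw [hL] at hg
    haveI := hKn
    have hg' : g ∈ ((K : Subgroup G) : Set G) *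
        ((Subgroup.zpowers d : Subgroup G) : Set G) := by
      rw [← Subgroup.normal_mul]; exact hg
    obtain ⟨x, hx, z, hz, rfl⟩ := Set.mem_mul.mp hg'
    refine ⟨x, hx, ?_⟩
    rcases tt_zpowers_cases hdd hz with h | h
    · rw [h]; group
    · rw [h]
      calc x * d * d * (x * d)⁻¹ = x * (d * d) * d⁻¹ * x⁻¹ := by group
        _ = x * d * x⁻¹ := by rw [hdd, mul_one, hdi]
  have hprodL : ∀ g ∈ L, ∀ g' ∈ L,
      ∃ k : ℕ, orderOf ((g * d * g⁻¹) * (g' * d * g'⁻¹)) = 3 ^ k := by
    intro g hg g' hg'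
    obtain ⟨x, hx, ex⟩ := hLconj g hg
    obtain ⟨y, hy, ey⟩ := hLconj g' hg'
    rw [ex, ey]
    have hxy : x⁻¹ * y ∈ K := Subgroup.mul_mem _ (Subgroup.inv_mem _ hx) hy
    have h1 := hcon (x⁻¹ * y) hxy
    rw [(tt_tfacts hD hconj hd (x⁻¹ * y)).2] at h1
    have h2 : ((x * d * x⁻¹) * (y * d * y⁻¹)) ^ 3 = 1 := by
      have e : (x * d * x⁻¹) * (y * d * y⁻¹)
          = x * (d * ((x⁻¹ * y) * d * (x⁻¹ * y)⁻¹)) * x⁻¹ := by group
      rw [e, conj_pow, h1]; group
    have hdvd : orderOf ((x * d * x⁻¹) * (y * d * y⁻¹)) ∣ 3 := orderOf_dvd_of_pow_eq_one h2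
    rcases (Nat.dvd_prime Nat.prime_three).mp hdvd with h | h
    · exact ⟨0, by rw [h, pow_zero]⟩
    · exact ⟨1, by rw [h, pow_one]⟩
  obtain ⟨T, hTL, hTinv, hTp, hTmem⟩ := tt_three_core_sub h5561 L hdL (hord d hd) hprodL
  apply tt_perfect_bot hD hd hcls hgen hKn hKp hKE (A := T ⊓ K) inf_le_right
  · intro g hg a ha
    obtain ⟨ha1, ha2⟩ := Subgroup.mem_inf.mp ha
    exact Subgroup.mem_inf.mpr ⟨hTinv g (hEL hg) a ha1, hKn.conj_mem a ha2 g⟩
  · have hp : IsPGroup 3 ↥(T ⊓ K) := hTp.to_le inf_le_left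
    exact hp.isNilpotent
  · intro x hx
    refine Subgroup.mem_inf.mpr ⟨?_,
      Subgroup.mul_mem _ (hKn.conj_mem x hx d) (Subgroup.inv_mem _ hx)⟩
    rw [(tt_tfacts hD hconj hd x).2]
    exact hTmem x (hEL hx)

/-- members of the class normalize every component -/
theorem tt_comp_normalized
    (h144 : ∀ (H : Type u) [Group H] [Finite H] (p q a b : ℕ), p.Prime → q.Prime →
      Nat.card H = p ^ a * q ^ b → Group.IsSolvable H)
    [Finite G] {D : Set G} (hD : Cfsg.IsThreeTranspositionSet D)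
    (hconj : ∀ g : G, ∀ x ∈ D, g * x * g⁻¹ ∈ D) {e : G} (he : e ∈ D)
    {K : Subgroup G} (hK : Cfsg.IsComponent K) : ∀ x ∈ K, e * x * e⁻¹ ∈ K := by
  intro x₀ hx₀
  by_contra hnot
  have hKc' : Cfsg.IsComponent (K.map (MulAut.conj e).toMonoidHom) :=
    Cfsg.Agent.Helper9.component_map_equiv (MulAut.conj e) K hK
  have hne : K ≠ K.map (MulAut.conj e).toMonoidHom := by
    intro h
    apply hnot
    have : e * x₀ * e⁻¹ ∈ K.map (MulAut.conj e).toMonoidHom :=
      Subgroup.mem_map.mpr ⟨x₀, hx₀, rfl⟩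
    rw [← h] at this
    exact this
  have hcomm := Cfsg.Agent.Helper9.components_commute hK hKc' hne
  rw [Subgroup.commutator_eq_bot_iff_le_centralizer] at hcomm
  have hkey : ∀ x ∈ K, (∀ k ∈ K, k * x ^ 2 = x ^ 2 * k) ∨ (∀ k ∈ K, k * x ^ 3 = x ^ 3 * k) := by
    intro x hx
    have hy : e * x * e⁻¹ ∈ K.map (MulAut.conj e).toMonoidHom :=
      Subgroup.mem_map.mpr ⟨x, hx, rfl⟩
    have hxy : Commute (e * x * e⁻¹) x⁻¹ :=
      Subgroup.mem_centralizer_iff.mp (hcomm (K.inv_mem hx)) _ hy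
    have hpow : ∀ n : ℕ, (e * x * e⁻¹ * x⁻¹) ^ n = 1 → ∀ k ∈ K, k * x ^ n = x ^ n * k := by
      intro n hn k hk
      rw [hxy.mul_pow, conj_pow, inv_pow] at hn
      have h1 : e * x ^ n * e⁻¹ = x ^ n := by
        calc e * x ^ n * e⁻¹ = (e * x ^ n * e⁻¹ * (x ^ n)⁻¹) * x ^ n := by group
          _ = x ^ n := by rw [hn, one_mul]
      have h2 : x ^ n ∈ K.map (MulAut.conj e).toMonoidHom := by
        have : e * x ^ n * e⁻¹ ∈ K.map (MulAut.conj e).toMonoidHom :=
          Subgroup.mem_map.mpr ⟨x ^ n, K.pow_mem hx n, rfl⟩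
        rw [h1] at this
        exact this
      exact (Subgroup.mem_centralizer_iff.mp (hcomm hk) _ h2).symm
    rcases (tt_tfacts hD hconj he x).1 with h2 | h3
    · exact Or.inl (hpow 2 h2)
    · exact Or.inr (hpow 3 h3)
  have hQ6 : ∀ q : (↥K ⧸ Subgroup.center ↥K), q ^ 6 = 1 := by
    intro q
    obtain ⟨k, rfl⟩ := QuotientGroup.mk_surjective q
    rw [← QuotientGroup.mk_pow, QuotientGroup.eq_one_iff, Subgroup.mem_center_iff]
    intro g
    apply Subtype.ext
    show (g : G) * (k : G) ^ 6 = (k : G) ^ 6 * (g : G)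
    rcases hkey k k.2 with h | h
    · have h1 : Commute (g : G) ((k : G) ^ 2) := h g g.2
      have e6 : (k : G) ^ 6 = ((k : G) ^ 2) ^ 3 := by rw [← pow_mul]
      rw [e6]
      exact (h1.pow_right 3).eq
    · have h1 : Commute (g : G) ((k : G) ^ 3) := h g g.2
      have e6 : (k : G) ^ 6 = ((k : G) ^ 3) ^ 2 := by rw [← pow_mul]
      rw [e6]
      exact (h1.pow_right 2).eq
  obtain ⟨a, b, hab⟩ := tt_card_two_three hQ6
  have hQs : Group.IsSolvable (↥K ⧸ Subgroup.center ↥K) :=
    h144 _ 2 3 a b Nat.prime_two Nat.prime_three hab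
  have hKs : Group.IsSolvable ↥K := by
    haveI := hQs
    haveI : Group.IsSolvable ↥(Subgroup.center ↥K) :=
      Group.isSolvable_of_comm (fun a b => Subtype.ext (Subgroup.mem_center_iff.mp b.2 a))
    exact Group.isSolvable_of_ker_le_range (Subgroup.center ↥K).subtype
      (QuotientGroup.mk' (Subgroup.center ↥K))
      (by rw [QuotientGroup.ker_mk', Subgroup.range_subtype])
  exact Cfsg.Agent.Helper9.quasi_not_solvable hK.2 hKs

/-- S5352 modulo the statements of S5561 and S0144 -/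
theorem tt_quasi
    (h5561 : ∀ (H : Type u) [Group H] [Finite H] (d : H), orderOf d = 2 →
      (∀ a ∈ conjugatesOf d, ∀ b ∈ conjugatesOf d, ∃ k : ℕ, orderOf (a * b) = 3 ^ k) →
      ∀ a ∈ conjugatesOf d, ∀ b ∈ conjugatesOf d, a * b ∈ Cfsg.pCore 3 H)
    (h144 : ∀ (H : Type u) [Group H] [Finite H] (p q a b : ℕ), p.Prime → q.Prime →
      Nat.card H = p ^ a * q ^ b → Group.IsSolvable H)
    [Finite G] {D : Set G} (hD : Cfsg.IsThreeTranspositionClass D)
    (hD2 : ∃ a ∈ D, ∃ b ∈ D, a ≠ b) (h2 : Cfsg.pCore 2 G ≤ Subgroup.center G)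
    (h3 : Cfsg.pCore 3 G ≤ Subgroup.center G) :
    ∃ L : Subgroup G, L.Normal ∧ Cfsg.IsQuasisimple L ∧
      Cfsg.generalizedFittingSubgroup G = L ⊔ Subgroup.center G ∧
      (L = ⊤ ∨ ∀ a ∈ D, ∀ b ∈ D, a * b * a⁻¹ * b⁻¹ ∈ L → a⁻¹ * b ∈ L) := by
  have htri := tt_trichotomy h5561 hD hD2
  obtain ⟨hD1, ⟨d, hd, hcls⟩, hgen⟩ := hD
  have hconj := tt_class_conj hcls
  have hD1' := hD1
  obtain ⟨hord, hprod⟩ := hD1'
  obtain ⟨hp, hcases⟩ := htri
  have hE : Cfsg.layer G ≠ ⊥ := by
    rcases hcases with ⟨h, _, _⟩ | ⟨_, h, _⟩ | ⟨_, _, h⟩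
    · exact absurd h2 h
    · exact absurd h3 h
    · exact h
  have hFZ : Cfsg.fittingSubgroup G = Subgroup.center G := by
    apply le_antisymm
    · rw [Cfsg.Agent.Helper9.fitting_eq_iSup_pCore]
      apply iSup_le
      rintro ⟨p, hpp⟩
      show Cfsg.pCore p G ≤ Subgroup.center G
      by_cases hp2 : p = 2
      · rw [hp2]; exact h2
      · by_cases hp3 : p = 3
        · rw [hp3]; exact h3
        · apply hp p hpp
          have := hpp.two_le
          omega
    · apply Cfsg.Agent.Helper9.le_fitting inferInstance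
      exact Cfsg.Agent.Helper9.nilpotent_of_comm
        (fun a b => Subtype.ext (Subgroup.mem_center_iff.mp b.2 a))
  have hnormcomp : ∀ K : Subgroup G, Cfsg.IsComponent K → K.Normal := by
    intro K hK
    have h1 : ∀ e ∈ D, ∀ x ∈ K, e * x * e⁻¹ ∈ K :=
      fun e he => tt_comp_normalized h144 hD1 hconj he hK
    have h2' : Subgroup.closure D ≤ Subgroup.normalizer (K : Set G) := by
      rw [Subgroup.closure_le]
      intro e he
      rw [SetLike.mem_coe, Subgroup.mem_normalizer_iff]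
      intro x
      constructor
      · exact h1 e he x
      · intro hx
        have := h1 e⁻¹ (by rw [tt_inv hD1 he]; exact he) _ hx
        have e2 : e⁻¹ * (e * x * e⁻¹) * e⁻¹⁻¹ = x := by group
        rwa [e2] at this
    rw [hgen] at h2'
    exact Subgroup.normalizer_eq_top_iff.mp (top_le_iff.mp h2')
  have hne_bot : ∀ K : Subgroup G, Cfsg.IsComponent K → K ≠ ⊥ := by
    intro K hK h
    apply Cfsg.Agent.Helper9.component_commutative_false hK
    intro a ha b hb
    rw [h, Subgroup.mem_bot] at ha hb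
    rw [ha, hb]
  obtain ⟨L, hL⟩ : ∃ L : Subgroup G, Cfsg.IsComponent L := by
    by_contra hno
    push Not at hno
    apply hE
    apply le_antisymm _ bot_le
    unfold Cfsg.layer
    apply sSup_le
    intro K hK
    exact absurd hK (hno K)
  have hLn := hnormcomp L hL
  have hLp := Cfsg.Agent.Helper9.component_perfect hL
  have hLE := Cfsg.Agent.Helper9.le_layer hL
  have hL1 := hne_bot L hL
  have huniq : ∀ K : Subgroup G, Cfsg.IsComponent K → K = L := by
    intro K hK
    by_contra hne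
    have hKn := hnormcomp K hK
    have hKp := Cfsg.Agent.Helper9.component_perfect hK
    have hKE := Cfsg.Agent.Helper9.le_layer hK
    have hK1 := hne_bot K hK
    obtain ⟨x, hx, hx3⟩ := tt_wit3 h5561 hD1 hd hcls hgen hKn hKp hKE hK1
    obtain ⟨y, hy, hy2⟩ := tt_wit2 hD1 hd hcls hgen hLn hLp hLE hL1
    have hu1 : d * x * d⁻¹ * x⁻¹ ≠ 1 := fun h => hx3 (by rw [h, one_pow])
    have hv1 : d * y * d⁻¹ * y⁻¹ ≠ 1 := fun h => hy2 (by rw [h, one_pow])
    have hu2 : (d * x * d⁻¹ * x⁻¹) ^ 2 = 1 := by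
      rcases (tt_tfacts hD1 hconj hd x).1 with h | h
      · exact h
      · exact absurd h hx3
    have hv3 : (d * y * d⁻¹ * y⁻¹) ^ 3 = 1 := by
      rcases (tt_tfacts hD1 hconj hd y).1 with h | h
      · exact absurd h hy2
      · exact h
    have hcomm : Commute (d * x * d⁻¹ * x⁻¹) (d * y * d⁻¹ * y⁻¹) := by
      have hc := Cfsg.Agent.Helper9.components_commute hK hL hne
      rw [Subgroup.commutator_eq_bot_iff_le_centralizer] at hc
      have hu : d * x * d⁻¹ * x⁻¹ ∈ K :=
        Subgroup.mul_mem _ (hKn.conj_mem x hx d) (Subgroup.inv_mem _ hx)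
      have hv : d * y * d⁻¹ * y⁻¹ ∈ L :=
        Subgroup.mul_mem _ (hLn.conj_mem y hy d) (Subgroup.inv_mem _ hy)
      exact (Subgroup.mem_centralizer_iff.mp (hc hu) _ hv).symm
    exact tt_clash hD1 hconj hd x y hcomm hu1 hv1 hu2 hv3
  have hlayer : Cfsg.layer G = L := by
    apply le_antisymm
    · unfold Cfsg.layer
      apply sSup_le
      intro K hK
      exact (huniq K hK).le
    · exact hLE
  refine ⟨L, hLn, hL.2, ?_, Or.inr ?_⟩
  · unfold Cfsg.generalizedFittingSubgroup
    rw [hlayer, hFZ]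
  · intro a ha b hb hc
    have hai := tt_inv hD1 ha
    have hbi := tt_inv hD1 hb
    have haa := tt_mul_self hD1 ha
    have hbb := tt_mul_self hD1 hb
    rw [hai]
    rw [hai, hbi] at hc
    rcases hprod a ha b hb with hsq | hcube
    · by_cases hab : a = b
      · rw [hab, hbb]; exact Subgroup.one_mem _
      · by_contra hnot
        have hα : ∀ x ∈ L, Commute a (x * b * x⁻¹) := by
          intro x hx
          rcases hprod a ha _ (hconj x b hb) with h | h
          · exact tt_commute_of_sq haa (tt_mul_self hD1 (hconj x b hb)) h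
          · exfalso
            apply hnot
            have hl : b⁻¹ * x * b * x⁻¹ ∈ L := by
              have := hLn.conj_mem x hx b⁻¹
              rw [inv_inv] at this
              exact Subgroup.mul_mem _ this (Subgroup.inv_mem _ hx)
            have e : a * (x * b * x⁻¹) = (a * b) * (b⁻¹ * x * b * x⁻¹) := by group
            rw [e] at h
            have hab2 : (a * b) * (a * b) = 1 := by rw [← pow_two]; exact hsq
            exact tt_core_aux hLn hab2 hl h
        have hβ : ∀ x ∈ L, a * (b * x * b⁻¹ * x⁻¹) = (b * x * b⁻¹ * x⁻¹) * a := by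
          intro x hx
          rw [(tt_tfacts hD1 hconj hb x).2]
          have h1 : Commute a b := tt_commute_of_sq haa hbb hsq
          exact (h1.mul_right (hα x hx)).eq
        obtain ⟨S, hS⟩ : ∃ S : Set G, S = {s | ∃ x ∈ L, s = b * x * b⁻¹ * x⁻¹} := ⟨_, rfl⟩
        have hSL : Subgroup.closure S ≤ L := by
          rw [Subgroup.closure_le]
          intro s hs
          rw [hS] at hs
          obtain ⟨x, hx, rfl⟩ := hs
          exact Subgroup.mul_mem _ (hLn.conj_mem x hx b) (Subgroup.inv_mem _ hx)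
        have hSa : Subgroup.closure S ≤ Subgroup.centralizer ({a} : Set G) := by
          rw [Subgroup.closure_le]
          intro s hs
          rw [hS] at hs
          obtain ⟨x, hx, rfl⟩ := hs
          rw [SetLike.mem_coe, Subgroup.mem_centralizer_iff]
          intro h hh
          rw [Set.mem_singleton_iff] at hh
          rw [hh]
          exact hβ x hx
        have hSn : ((Subgroup.closure S).subgroupOf L).Normal := by
          constructor
          intro n hn g
          rw [Subgroup.mem_subgroupOf] at hn ⊢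
          refine tt_closure_conj' S (g : G) ?_ n hn
          intro t ht
          rw [hS] at ht
          obtain ⟨x, hx, rfl⟩ := ht
          have e : (g : G) * (b * x * b⁻¹ * x⁻¹) * (g : G)⁻¹
              = (b * (g : G) * b⁻¹ * (g : G)⁻¹)⁻¹ *
                (b * ((g : G) * x) * b⁻¹ * ((g : G) * x)⁻¹) := by group
          rw [e]
          apply Subgroup.mul_mem
          · apply Subgroup.inv_mem
            apply Subgroup.subset_closure
            rw [hS]
            exact ⟨g, g.2, rfl⟩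
          · apply Subgroup.subset_closure
            rw [hS]
            exact ⟨g * x, Subgroup.mul_mem _ g.2 hx, rfl⟩
        have hclsa : D = conjugatesOf a := tt_cls_of_mem hcls ha
        have hclsb : D = conjugatesOf b := tt_cls_of_mem hcls hb
        by_cases htop : (Subgroup.closure S).subgroupOf L = ⊤
        · apply tt_not_cent hD1 ha hclsa hgen hLn hLp hL1
          intro x hx
          have hxS : x ∈ Subgroup.closure S := by
            have : (⟨x, hx⟩ : L) ∈ (Subgroup.closure S).subgroupOf L := by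
              rw [htop]; exact Subgroup.mem_top _
            rwa [Subgroup.mem_subgroupOf] at this
          have hax := Subgroup.mem_centralizer_iff.mp (hSa hxS) a (Set.mem_singleton a)
          have e1 : a * x * a⁻¹ * x⁻¹ = 1 := by rw [hax]; group
          rw [e1]; exact Subgroup.one_mem _
        · have hcen := Cfsg.Agent.Helper9.quasi_normal_le_center hL.2 _ hSn htop
          apply tt_not_cent hD1 hb hclsb hgen hLn hLp hL1
          intro x hx
          rw [Subgroup.mem_centralizer_iff]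
          intro l hl
          have hs : b * x * b⁻¹ * x⁻¹ ∈ Subgroup.closure S := by
            apply Subgroup.subset_closure
            rw [hS]
            exact ⟨x, hx, rfl⟩
          have hmem : (⟨b * x * b⁻¹ * x⁻¹, hSL hs⟩ : L) ∈ (Subgroup.closure S).subgroupOf L := by
            rw [Subgroup.mem_subgroupOf]; exact hs
          have := Subgroup.mem_center_iff.mp (hcen hmem) ⟨l, hl⟩
          exact congrArg Subtype.val this
    · have e : a * b = (a * b * a * b) ^ 2 := by
        calc a * b = (a * b) ^ 3 * (a * b) := by rw [hcube, one_mul]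
          _ = (a * b * a * b) ^ 2 := by simp only [pow_succ, pow_zero, one_mul, mul_assoc]
      rw [e]
      exact Subgroup.pow_mem _ hc 2

end tt3

end Cfsg.Agent.Helper4
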