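import Mathlib
import Cfsg.Prelude.Def_FischerSpaces
import Cfsg.Prelude.Def_Solvable
import Cfsg.Prelude.Def_Local
import Cfsg.Agent.Helper16.PCore
import Cfsg.Agent.Helper9.Layer2
import Cfsg.Agent.Helper9.Comp
import Cfsg.Agent.Helper9.Quasi
import Cfsg.Agent.Helper4.ThreeTransp
import Cfsg.Agent.Helper4.ThreeTransp2
import Cfsg.Agent.Helper4.ThreeTransp3

set_option autoImplicit false

namespace Cfsg.Agent.Helper4

universe u

open scoped Pointwise commutatorElement

section tt4
variable {G : Type u} [Group G]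

/-- members of the class whose commutator lies in a normal quasisimple subgroup are congruent
modulo it -/
theorem tt_comm_mod {D : Set G} (hD1 : Cfsg.IsThreeTranspositionSet D) {d : G}
    (hcls : D = conjugatesOf d) (hgen : Subgroup.closure D = ⊤)
    {L : Subgroup G} (hLn : L.Normal) (hLq : Cfsg.IsQuasisimple L) :
    ∀ a ∈ D, ∀ b ∈ D, a * b * a⁻¹ * b⁻¹ ∈ L → a⁻¹ * b ∈ L := by
  have hconj := tt_class_conj hcls
  have hD1' := hD1
  obtain ⟨hord, hprod⟩ := hD1'
  have hL : Cfsg.IsComponent L := ⟨hLn.isSubnormal, hLq⟩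
  have hLp := Cfsg.Agent.Helper9.component_perfect hL
  have hL1 : L ≠ ⊥ := by
    intro h
    apply Cfsg.Agent.Helper9.component_commutative_false hL
    intro a ha b hb
    rw [h, Subgroup.mem_bot] at ha hb
    rw [ha, hb]
  intro a ha b hb hc
  have hai := tt_inv hD1 ha
  have hbi := tt_inv hD1 hb
  have haa := tt_mul_self hD1 ha
  have hbb := tt_mul_self hD1 hb
  rw [hai]
  rw [hai, hbi] at hc
  rcases hprod a ha b hb with hsq | hcube
  · by_cases hab : a = b
    · rw [hab, hbb]; exact Subgroup.one_mem _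
    · by_contra hnot
      have hα : ∀ x ∈ L, Commute a (x * b * x⁻¹) := by
        intro x hx
        rcases hprod a ha _ (hconj x b hb) with h | h
        · exact tt_commute_of_sq haa (tt_mul_self hD1 (hconj x b hb)) h
        · exfalso
          apply hnot
          have hl : b⁻¹ * x * b * x⁻¹ ∈ L := by
            have := hLn.conj_mem x hx b⁻¹
            rw [inv_inv] at this
            exact Subgroup.mul_mem _ this (Subgroup.inv_mem _ hx)
          have e : a * (x * b * x⁻¹) = (a * b) * (b⁻¹ * x * b * x⁻¹) := by group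
          rw [e] at h
          have hab2 : (a * b) * (a * b) = 1 := by rw [← pow_two]; exact hsq
          exact tt_core_aux hLn hab2 hl h
      have hβ : ∀ x ∈ L, a * (b * x * b⁻¹ * x⁻¹) = (b * x * b⁻¹ * x⁻¹) * a := by
        intro x hx
        rw [(tt_tfacts hD1 hconj hb x).2]
        have h1 : Commute a b := tt_commute_of_sq haa hbb hsq
        exact (h1.mul_right (hα x hx)).eq
      obtain ⟨S, hS⟩ : ∃ S : Set G, S = {s | ∃ x ∈ L, s = b * x * b⁻¹ * x⁻¹} := ⟨_, rfl⟩
      have hSL : Subgroup.closure S ≤ L := by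
        rw [Subgroup.closure_le]
        intro s hs
        rw [hS] at hs
        obtain ⟨x, hx, rfl⟩ := hs
        exact Subgroup.mul_mem _ (hLn.conj_mem x hx b) (Subgroup.inv_mem _ hx)
      have hSa : Subgroup.closure S ≤ Subgroup.centralizer ({a} : Set G) := by
        rw [Subgroup.closure_le]
        intro s hs
        rw [hS] at hs
        obtain ⟨x, hx, rfl⟩ := hs
        rw [SetLike.mem_coe, Subgroup.mem_centralizer_iff]
        intro h hh
        rw [Set.mem_singleton_iff] at hh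
        rw [hh]
        exact hβ x hx
      have hSn : ((Subgroup.closure S).subgroupOf L).Normal := by
        constructor
        intro n hn g
        rw [Subgroup.mem_subgroupOf] at hn ⊢
        refine tt_closure_conj' S (g : G) ?_ n hn
        intro t ht
        rw [hS] at ht
        obtain ⟨x, hx, rfl⟩ := ht
        have e : (g : G) * (b * x * b⁻¹ * x⁻¹) * (g : G)⁻¹
            = (b * (g : G) * b⁻¹ * (g : G)⁻¹)⁻¹ *
              (b * ((g : G) * x) * b⁻¹ * ((g : G) * x)⁻¹) := by group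
        rw [e]
        apply Subgroup.mul_mem
        · apply Subgroup.inv_mem
          apply Subgroup.subset_closure
          rw [hS]
          exact ⟨g, g.2, rfl⟩
        · apply Subgroup.subset_closure
          rw [hS]
          exact ⟨g * x, Subgroup.mul_mem _ g.2 hx, rfl⟩
      have hclsa : D = conjugatesOf a := tt_cls_of_mem hcls ha
      have hclsb : D = conjugatesOf b := tt_cls_of_mem hcls hb
      by_cases htop : (Subgroup.closure S).subgroupOf L = ⊤
      · apply tt_not_cent hD1 ha hclsa hgen hLn hLp hL1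
        intro x hx
        have hxS : x ∈ Subgroup.closure S := by
          have : (⟨x, hx⟩ : L) ∈ (Subgroup.closure S).subgroupOf L := by
            rw [htop]; exact Subgroup.mem_top _
          rwa [Subgroup.mem_subgroupOf] at this
        have hax := Subgroup.mem_centralizer_iff.mp (hSa hxS) a (Set.mem_singleton a)
        have e1 : a * x * a⁻¹ * x⁻¹ = 1 := by rw [hax]; group
        rw [e1]; exact Subgroup.one_mem _
      · have hcen := Cfsg.Agent.Helper9.quasi_normal_le_center hLq _ hSn htop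
        apply tt_not_cent hD1 hb hclsb hgen hLn hLp hL1
        intro x hx
        rw [Subgroup.mem_centralizer_iff]
        intro l hl
        have hs : b * x * b⁻¹ * x⁻¹ ∈ Subgroup.closure S := by
          apply Subgroup.subset_closure
          rw [hS]
          exact ⟨x, hx, rfl⟩
        have hmem : (⟨b * x * b⁻¹ * x⁻¹, hSL hs⟩ : L) ∈ (Subgroup.closure S).subgroupOf L := by
          rw [Subgroup.mem_subgroupOf]; exact hs
        have := Subgroup.mem_center_iff.mp (hcen hmem) ⟨l, hl⟩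
        exact congrArg Subtype.val this
  · have e : a * b = (a * b * a * b) ^ 2 := by
      calc a * b = (a * b) ^ 3 * (a * b) := by rw [hcube, one_mul]
        _ = (a * b * a * b) ^ 2 := by simp only [pow_succ, pow_zero, one_mul, mul_assoc]
    rw [e]
    exact Subgroup.pow_mem _ hc 2

/-- a normal subgroup whose coset of an involution `d` contains a generating set has index at
most 2 -/
theorem tt_index_le_two [Finite G] {D : Set G} {d : G} (hdd : d * d = 1)
    (hgen : Subgroup.closure D = ⊤) {L : Subgroup G} (hLn : L.Normal)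
    (hcoset : ∀ x ∈ D, d * x ∈ L) : L.index ≤ 2 := by
  haveI := hLn
  have hdi : d⁻¹ = d := inv_eq_of_mul_eq_one_left hdd
  have hall : ∀ g : G, g ∈ L ∨ d * g ∈ L := by
    intro g
    have hg : g ∈ Subgroup.closure D := by rw [hgen]; exact Subgroup.mem_top g
    induction hg using Subgroup.closure_induction with
    | mem x hx => exact Or.inr (hcoset x hx)
    | one => exact Or.inl (Subgroup.one_mem _)
    | mul x y _ _ hx hy =>
      rcases hx with hx | hx
      · rcases hy with hy | hy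
        · exact Or.inl (Subgroup.mul_mem _ hx hy)
        · right
          have e : d * (x * y) = (d * x * d⁻¹) * (d * y) := by group
          rw [e]
          exact Subgroup.mul_mem _ (hLn.conj_mem x hx d) hy
      · rcases hy with hy | hy
        · right
          have e : d * (x * y) = (d * x) * y := by group
          rw [e]
          exact Subgroup.mul_mem _ hx hy
        · left
          have e : x * y = (d * (d * x) * d⁻¹) * (d * y) := by
            have e1 : (d * (d * x) * d⁻¹) * (d * y) = (d * d) * x * y := by group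
            rw [e1, hdd, one_mul]
          rw [e]
          exact Subgroup.mul_mem _ (hLn.conj_mem _ hx d) hy
    | inv x _ hx =>
      rcases hx with hx | hx
      · exact Or.inl (Subgroup.inv_mem _ hx)
      · right
        have e : d * x⁻¹ = d * (d * x)⁻¹ * d⁻¹ := by
          have e1 : d * (d * x)⁻¹ * d⁻¹ = d * x⁻¹ * (d * d)⁻¹ := by group
          rw [e1, hdd, inv_one, mul_one]
        rw [e]
        exact hLn.conj_mem _ (Subgroup.inv_mem _ hx) d
  have hsurj : Function.Surjective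
      (fun i : Fin 2 => if i = 0 then (1 : G ⧸ L) else (QuotientGroup.mk d : G ⧸ L)) := by
    intro q
    obtain ⟨g, rfl⟩ := QuotientGroup.mk_surjective q
    rcases hall g with h | h
    · refine ⟨0, ?_⟩
      show (if (0 : Fin 2) = 0 then (1 : G ⧸ L) else (QuotientGroup.mk d : G ⧸ L))
        = QuotientGroup.mk g
      rw [if_pos rfl]
      exact ((QuotientGroup.eq_one_iff g).mpr h).symm
    · refine ⟨1, ?_⟩
      show (if (1 : Fin 2) = 0 then (1 : G ⧸ L) else (QuotientGroup.mk d : G ⧸ L))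
        = QuotientGroup.mk g
      rw [if_neg (by decide)]
      exact QuotientGroup.eq.mpr (by rw [hdi]; exact h)
  have h1 := Nat.card_le_card_of_surjective _ hsurj
  have h2 : Nat.card (Fin 2) = 2 := by simp
  rw [h2] at h1
  exact h1

theorem tt_index_of_connected [Finite G] {D : Set G} (hD : Cfsg.IsThreeTranspositionClass D)
    {L : Subgroup G} (hLn : L.Normal) (hLq : Cfsg.IsQuasisimple L)
    (hconn : (Cfsg.commutingGraph D).Connected) : L.index ≤ 2 := by
  obtain ⟨hD1, ⟨d, hd, hcls⟩, hgen⟩ := hD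
  have hdd := tt_mul_self hD1 hd
  have hdi := tt_inv hD1 hd
  have hmod := tt_comm_mod hD1 hcls hgen hLn hLq
  have hadj : ∀ a b : D, (Cfsg.commutingGraph D).Adj a b → (a : G)⁻¹ * (b : G) ∈ L := by
    intro a b hab
    unfold Cfsg.commutingGraph at hab
    rw [SimpleGraph.fromRel_adj] at hab
    apply hmod a a.2 b b.2
    have hc : (a : G) * (b : G) = (b : G) * (a : G) := by
      rcases hab.2 with h | h
      · have h' : Commute (a : G) (b : G) := h
        exact h'.eq
      · have h' : Commute (b : G) (a : G) := h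
        exact h'.eq.symm
    have e : (a : G) * (b : G) * (a : G)⁻¹ * (b : G)⁻¹ = 1 := by
      rw [hc]; group
    rw [e]; exact Subgroup.one_mem _
  have hreach : ∀ a b : D, Relation.ReflTransGen (Cfsg.commutingGraph D).Adj a b →
      (a : G)⁻¹ * (b : G) ∈ L := by
    intro a b h
    induction h with
    | refl => rw [inv_mul_cancel]; exact Subgroup.one_mem _
    | @tail b c hab hbc ih =>
      have e : (a : G)⁻¹ * (c : G) = ((a : G)⁻¹ * (b : G)) * ((b : G)⁻¹ * (c : G)) := by group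
      rw [e]
      exact Subgroup.mul_mem _ ih (hadj _ _ hbc)
  apply tt_index_le_two hdd hgen hLn
  intro x hx
  have hr : (Cfsg.commutingGraph D).Reachable ⟨d, hd⟩ ⟨x, hx⟩ := hconn.preconnected _ _
  rw [SimpleGraph.reachable_iff_reflTransGen] at hr
  have h' : d⁻¹ * x ∈ L := hreach ⟨d, hd⟩ ⟨x, hx⟩ hr
  rw [hdi] at h'
  exact h'

/-! ### blocks -/

theorem tt_blk {B : Set G}
    (hblk : ∀ g : G, (fun x => g * x * g⁻¹) '' B = B ∨ Disjoint ((fun x => g * x * g⁻¹) '' B) B) :
    ∀ g : G, ∀ x ∈ B, g * x * g⁻¹ ∈ B → ∀ y ∈ B, g * y * g⁻¹ ∈ B := by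
  intro g x hx hgx y hy
  rcases hblk g with h | h
  · have : g * y * g⁻¹ ∈ (fun x => g * x * g⁻¹) '' B := ⟨y, hy, rfl⟩
    rw [h] at this
    exact this
  · exact absurd hgx (Set.disjoint_left.mp h ⟨x, hx, rfl⟩)

/-- the setwise stabilizer of a nonempty block -/
def ttBlockStab (B : Set G) (hne : B.Nonempty)
    (hblk : ∀ g : G, ∀ x ∈ B, g * x * g⁻¹ ∈ B → ∀ y ∈ B, g * y * g⁻¹ ∈ B) : Subgroup G where
  carrier := {g | ∀ y ∈ B, g * y * g⁻¹ ∈ B}
  mul_mem' := by
    intro a b ha hb
    show ∀ y ∈ B, a * b * y * (a * b)⁻¹ ∈ B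
    intro y hy
    have ha' : ∀ y ∈ B, a * y * a⁻¹ ∈ B := ha
    have hb' : ∀ y ∈ B, b * y * b⁻¹ ∈ B := hb
    have e : a * b * y * (a * b)⁻¹ = a * (b * y * b⁻¹) * a⁻¹ := by group
    rw [e]
    exact ha' _ (hb' y hy)
  one_mem' := by
    show ∀ y ∈ B, (1 : G) * y * (1 : G)⁻¹ ∈ B
    intro y hy
    have e : (1 : G) * y * (1 : G)⁻¹ = y := by group
    rw [e]; exact hy
  inv_mem' := by
    intro a ha
    show ∀ y ∈ B, a⁻¹ * y * a⁻¹⁻¹ ∈ B
    have ha' : ∀ y ∈ B, a * y * a⁻¹ ∈ B := ha
    obtain ⟨x, hx⟩ := hne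
    apply hblk a⁻¹ (a * x * a⁻¹) (ha' x hx)
    have e : a⁻¹ * (a * x * a⁻¹) * a⁻¹⁻¹ = x := by group
    rw [e]; exact hx

theorem mem_ttBlockStab {B : Set G} {hne : B.Nonempty}
    {hblk : ∀ g : G, ∀ x ∈ B, g * x * g⁻¹ ∈ B → ∀ y ∈ B, g * y * g⁻¹ ∈ B} {g : G} :
    g ∈ ttBlockStab B hne hblk ↔ ∀ y ∈ B, g * y * g⁻¹ ∈ B := Iff.rfl

theorem tt_block_mixed {D : Set G} (hD1 : Cfsg.IsThreeTranspositionSet D)
    (hconj : ∀ g : G, ∀ x ∈ D, g * x * g⁻¹ ∈ D) {B : Set G} (hBD : B ⊆ D)
    (S : Subgroup G) (hS : ∀ g : G, g ∈ S ↔ ∀ y ∈ B, g * y * g⁻¹ ∈ B)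
    (hblk : ∀ g : G, ∀ x ∈ B, g * x * g⁻¹ ∈ B → ∀ y ∈ B, g * y * g⁻¹ ∈ B)
    {a b x : G} (ha : a ∈ B) (hb : b ∈ B) (hx : x ∈ B) (h : G)
    (hc : Commute x (h * a * h⁻¹)) (hnc : ¬ Commute x (h * b * h⁻¹)) : h ∈ S := by
  have hBS : ∀ y ∈ B, y ∈ S := by
    intro y hy
    exact (hS y).mpr (hblk y y hy (by rw [mul_inv_cancel_right]; exact hy))
  have hSof : ∀ g : G, ∀ x ∈ B, g * x * g⁻¹ ∈ B → g ∈ S :=
    fun g x hx hgx => (hS g).mpr (hblk g x hx hgx)
  have hb'D : h * b * h⁻¹ ∈ D := hconj h b (hBD hb)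
  have hxx := tt_mul_self hD1 (hBD hx)
  have hbb' := tt_mul_self hD1 hb'D
  have hbi := tt_inv hD1 (hBD hb)
  have hbr := tt_braid hxx hbb' (tt_cube hD1 (hBD hx) hb'D hnc)
  have e1 : (h⁻¹ * x * h) * a * (h⁻¹ * x * h)⁻¹ = a := by
    calc (h⁻¹ * x * h) * a * (h⁻¹ * x * h)⁻¹ = h⁻¹ * (x * (h * a * h⁻¹)) * x⁻¹ * h := by group
      _ = h⁻¹ * ((h * a * h⁻¹) * x) * x⁻¹ * h := by rw [hc.eq]
      _ = a := by group
  have hg1 : h⁻¹ * x * h ∈ S := hSof _ a ha (by rw [e1]; exact ha)
  have h2 := (hS _).mp hg1 b hb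
  have e3 : (b * h⁻¹) * x * (b * h⁻¹)⁻¹ = (h⁻¹ * x * h) * b * (h⁻¹ * x * h)⁻¹ := by
    have e4 : (h⁻¹ * x * h) * b * (h⁻¹ * x * h)⁻¹
        = h⁻¹ * (x * (h * b * h⁻¹) * x) * (x⁻¹ * x⁻¹) * h := by group
    have e5 : x⁻¹ * x⁻¹ = 1 := by rw [← mul_inv_rev, hxx, inv_one]
    rw [e4, hbr, e5, mul_one]
    have e6 : h⁻¹ * ((h * b * h⁻¹) * x * (h * b * h⁻¹)) * h
        = (b * h⁻¹) * x * (b⁻¹ * h⁻¹)⁻¹ := by group
    rw [e6, hbi]
  have hw : b * h⁻¹ ∈ S := hSof _ x hx (by rw [e3]; exact h2)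
  have hinv : h⁻¹ ∈ S := by
    have e : h⁻¹ = b⁻¹ * (b * h⁻¹) := by group
    rw [e]
    exact S.mul_mem (S.inv_mem (hBS b hb)) hw
  have := S.inv_mem hinv
  rwa [inv_inv] at this

theorem tt_block_prod {D : Set G} (hD1 : Cfsg.IsThreeTranspositionSet D)
    (hconj : ∀ g : G, ∀ x ∈ D, g * x * g⁻¹ ∈ D) {B : Set G} (hBD : B ⊆ D)
    (S : Subgroup G) (hS : ∀ g : G, g ∈ S ↔ ∀ y ∈ B, g * y * g⁻¹ ∈ B)
    (hblk : ∀ g : G, ∀ x ∈ B, g * x * g⁻¹ ∈ B → ∀ y ∈ B, g * y * g⁻¹ ∈ B)
    {a b : G} (ha : a ∈ B) (hb : b ∈ B) (h : G) :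
    (h * a * h⁻¹) * (h * b * h⁻¹) ∈ S := by
  have hBS : ∀ y ∈ B, y ∈ S := by
    intro y hy
    exact (hS y).mpr (hblk y y hy (by rw [mul_inv_cancel_right]; exact hy))
  have hSof : ∀ g : G, ∀ x ∈ B, g * x * g⁻¹ ∈ B → g ∈ S :=
    fun g x hx hgx => (hS g).mpr (hblk g x hx hgx)
  have ha'D0 : h * a * h⁻¹ ∈ D := hconj h a (hBD ha)
  have hb'D0 : h * b * h⁻¹ ∈ D := hconj h b (hBD hb)
  by_cases hca0 : Commute a (h * a * h⁻¹)
  · by_cases hcb0 : Commute a (h * b * h⁻¹)
    · apply hSof _ a ha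
      have h1 : (h * a * h⁻¹) * a * (h * a * h⁻¹)⁻¹ = a := by
        rw [← hca0.eq, mul_inv_cancel_right]
      have h2 : (h * b * h⁻¹) * a * (h * b * h⁻¹)⁻¹ = a := by
        rw [← hcb0.eq, mul_inv_cancel_right]
      have e : ((h * a * h⁻¹) * (h * b * h⁻¹)) * a * ((h * a * h⁻¹) * (h * b * h⁻¹))⁻¹
          = (h * a * h⁻¹) * ((h * b * h⁻¹) * a * (h * b * h⁻¹)⁻¹) * (h * a * h⁻¹)⁻¹ := by group
      rw [e, h2, h1]
      exact ha
    · have hh := tt_block_mixed hD1 hconj hBD S hS hblk ha hb ha h hca0 hcb0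
      exact S.mul_mem (hBS _ ((hS h).mp hh a ha)) (hBS _ ((hS h).mp hh b hb))
  · by_cases hcb0 : Commute a (h * b * h⁻¹)
    · have hh := tt_block_mixed hD1 hconj hBD S hS hblk hb ha ha h hcb0 hca0
      exact S.mul_mem (hBS _ ((hS h).mp hh a ha)) (hBS _ ((hS h).mp hh b hb))
    · obtain ⟨a', ha'⟩ : ∃ a' : G, a' = h * a * h⁻¹ := ⟨_, rfl⟩
      obtain ⟨b', hb'⟩ : ∃ b' : G, b' = h * b * h⁻¹ := ⟨_, rfl⟩
      rw [← ha', ← hb']
      rw [← ha'] at ha'D0 hca0
      rw [← hb'] at hb'D0 hcb0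
      have haa := tt_mul_self hD1 (hBD ha)
      have haa' := tt_mul_self hD1 ha'D0
      have hbb' := tt_mul_self hD1 hb'D0
      have hai := tt_inv hD1 (hBD ha)
      have hai' := tt_inv hD1 ha'D0
      have hbi' := tt_inv hD1 hb'D0
      have hbr1 := tt_braid haa haa' (tt_cube hD1 (hBD ha) ha'D0 hca0)
      have hbr2 := tt_braid haa hbb' (tt_cube hD1 (hBD ha) hb'D0 hcb0)
      have e1 : (a' * a * h) * a * (a' * a * h)⁻¹ = a := by
        calc (a' * a * h) * a * (a' * a * h)⁻¹
            = a' * (a * (h * a * h⁻¹) * a⁻¹) * a'⁻¹ := by group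
          _ = a' * (a * a' * a) * a' := by rw [← ha', hai, hai']
          _ = a' * (a' * a * a') * a' := by rw [hbr1]
          _ = (a' * a') * a * (a' * a') := by group
          _ = a := by rw [haa', one_mul, mul_one]
      have hw : a' * a * h ∈ S := hSof _ a ha (by rw [e1]; exact ha)
      have h2 := (hS _).mp hw b hb
      apply hSof _ a ha
      have e2 : (a' * b') * a * (a' * b')⁻¹ = (a' * a * h) * b * (a' * a * h)⁻¹ := by
        symm
        calc (a' * a * h) * b * (a' * a * h)⁻¹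
            = a' * (a * (h * b * h⁻¹) * a⁻¹) * a'⁻¹ := by group
          _ = a' * (a * b' * a) * a'⁻¹ := by rw [← hb', hai]
          _ = a' * (b' * a * b') * a'⁻¹ := by rw [hbr2]
          _ = (a' * b') * a * (a' * b'⁻¹)⁻¹ := by group
          _ = (a' * b') * a * (a' * b')⁻¹ := by rw [hbi']
      rw [e2]; exact h2

/-- two different members of the class cannot have a central product -/
theorem tt_no_central_prod {D : Set G} (hD1 : Cfsg.IsThreeTranspositionSet D) {d : G}
    (hcls : D = conjugatesOf d) (hgen : Subgroup.closure D = ⊤)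
    {a b : G} (ha : a ∈ D) (hb : b ∈ D) (hab : a ≠ b)
    (hz : a * b ∈ Subgroup.center G) : False := by
  have hD1' := hD1
  obtain ⟨hord, hprod⟩ := hD1'
  have haa := tt_mul_self hD1 ha
  have hbb := tt_mul_self hD1 hb
  have hzc : ∀ g : G, g * (a * b) = (a * b) * g := fun g => Subgroup.mem_center_iff.mp hz g
  have hcab : a * b = b * a := by
    have h1 := hzc a
    rw [← mul_assoc, haa, one_mul] at h1
    calc a * b = a * b * (a * a) := by rw [haa, mul_one]
      _ = (a * b * a) * a := by group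
      _ = b * a := by rw [← h1]
  have hz2 : (a * b) * (a * b) = 1 := by
    calc (a * b) * (a * b) = a * (b * a) * b := by group
      _ = a * (a * b) * b := by rw [hcab]
      _ = (a * a) * (b * b) := by group
      _ = 1 := by rw [haa, hbb, one_mul]
  have hz1 : a * b ≠ 1 := by
    intro h
    apply hab
    calc a = a * (b * b) := by rw [hbb, mul_one]
      _ = (a * b) * b := by group
      _ = b := by rw [h, one_mul]
  have key : ∀ z : G, z ^ 3 = 1 → z ^ 2 = 1 → z = 1 := by
    intro z h3 h2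
    calc z = z ^ 3 * (z ^ 2)⁻¹ := by group
      _ = 1 := by rw [h3, h2, inv_one, mul_one]
  have hzsq : (a * b) ^ 2 = 1 := by rw [pow_two]; exact hz2
  have hcomm : ∀ x ∈ D, Commute x a := by
    intro x hx
    by_contra hnc
    have hxx := tt_mul_self hD1 hx
    have h3 : (x * a) ^ 3 = 1 := tt_cube hD1 hx ha hnc
    have hxa2 : (x * a) ^ 2 ≠ 1 := fun h => hnc (tt_commute_of_sq hxx haa h)
    have hcz : Commute (x * a) (a * b) := hzc (x * a)
    have e : x * b = (x * a) * (a * b) := by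
      calc x * b = x * (a * a) * b := by rw [haa, mul_one]
        _ = (x * a) * (a * b) := by group
    rcases hprod x hx b hb with h | h
    · rw [e, hcz.mul_pow, hzsq, mul_one] at h
      exact hxa2 h
    · rw [e, hcz.mul_pow, h3, one_mul] at h
      exact hz1 (key _ h hzsq)
  have hle : Subgroup.closure D ≤ Subgroup.centralizer ({a} : Set G) := by
    rw [Subgroup.closure_le]
    intro x hx
    rw [SetLike.mem_coe, Subgroup.mem_centralizer_iff]
    intro y hy
    rw [Set.mem_singleton_iff] at hy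
    rw [hy]
    exact (hcomm x hx).eq.symm
  rw [hgen] at hle
  have hclsa : D = conjugatesOf a := tt_cls_of_mem hcls ha
  rw [hclsa] at hb
  have hb' : IsConj a b := hb
  obtain ⟨g, hg⟩ := isConj_iff.mp hb'
  have hga : a * g = g * a :=
    Subgroup.mem_centralizer_iff.mp (hle (Subgroup.mem_top g)) a (Set.mem_singleton a)
  apply hab
  rw [← hg, ← hga, mul_inv_cancel_right]

theorem tt_fitting_center
    (h5561 : ∀ (H : Type u) [Group H] [Finite H] (d : H), orderOf d = 2 →
      (∀ a ∈ conjugatesOf d, ∀ b ∈ conjugatesOf d, ∃ k : ℕ, orderOf (a * b) = 3 ^ k) →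
      ∀ a ∈ conjugatesOf d, ∀ b ∈ conjugatesOf d, a * b ∈ Cfsg.pCore 3 H)
    [Finite G] {D : Set G} (hD : Cfsg.IsThreeTranspositionClass D)
    (hD2 : ∃ a ∈ D, ∃ b ∈ D, a ≠ b) (h2 : Cfsg.pCore 2 G ≤ Subgroup.center G)
    (h3 : Cfsg.pCore 3 G ≤ Subgroup.center G) :
    Cfsg.fittingSubgroup G = Subgroup.center G := by
  have hp := (tt_trichotomy h5561 hD hD2).1
  apply le_antisymm
  · rw [Cfsg.Agent.Helper9.fitting_eq_iSup_pCore]
    apply iSup_le
    rintro ⟨p, hpp⟩
    show Cfsg.pCore p G ≤ Subgroup.center G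
    by_cases hp2 : p = 2
    · rw [hp2]; exact h2
    · by_cases hp3 : p = 3
      · rw [hp3]; exact h3
      · apply hp p hpp
        have := hpp.two_le
        omega
  · apply Cfsg.Agent.Helper9.le_fitting inferInstance
    exact Cfsg.Agent.Helper9.nilpotent_of_comm
      (fun a b => Subtype.ext (Subgroup.mem_center_iff.mp b.2 a))

/-- all members of the class lie in one coset of a normal subgroup of index at most 2 -/
theorem tt_coset_of_index [Finite G] {D : Set G} {d : G} (hcls : D = conjugatesOf d)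
    {L : Subgroup G} (hLn : L.Normal) (hidx : L.index ≤ 2) :
    ∀ x ∈ D, ∀ y ∈ D, x * y ∈ L := by
  intro x hx y hy
  have hidx0 : L.index ≠ 0 := Subgroup.index_ne_zero_of_finite
  have hcases : L.index = 1 ∨ L.index = 2 := by omega
  rcases hcases with h1 | h2
  · rw [Subgroup.index_eq_one.mp h1]; exact Subgroup.mem_top _
  · rw [Subgroup.mul_mem_iff_of_index_two h2]
    have hclsx : D = conjugatesOf x := tt_cls_of_mem hcls hx
    rw [hclsx] at hy
    have hy' : IsConj x y := hy
    obtain ⟨g, hg⟩ := isConj_iff.mp hy'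
    constructor
    · intro hxL; rw [← hg]; exact hLn.conj_mem x hxL g
    · intro hyL
      have h4 : g⁻¹ * y * g⁻¹⁻¹ ∈ L := hLn.conj_mem y hyL g⁻¹
      have e : g⁻¹ * y * g⁻¹⁻¹ = x := by rw [← hg]; group
      rw [e] at h4; exact h4

/-- S5353, first half, modulo the statement of S5561 -/
theorem tt_prim_of_index
    (h5561 : ∀ (H : Type u) [Group H] [Finite H] (d : H), orderOf d = 2 →
      (∀ a ∈ conjugatesOf d, ∀ b ∈ conjugatesOf d, ∃ k : ℕ, orderOf (a * b) = 3 ^ k) →
      ∀ a ∈ conjugatesOf d, ∀ b ∈ conjugatesOf d, a * b ∈ Cfsg.pCore 3 H)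
    [Finite G] {D : Set G} (hD : Cfsg.IsThreeTranspositionClass D)
    (hD2 : ∃ a ∈ D, ∃ b ∈ D, a ≠ b) (h2 : Cfsg.pCore 2 G ≤ Subgroup.center G)
    (h3 : Cfsg.pCore 3 G ≤ Subgroup.center G)
    {L : Subgroup G} (hLn : L.Normal) (hLq : Cfsg.IsQuasisimple L) (hidx : L.index ≤ 2) :
    Cfsg.IsPrimitiveUnderConj D := by
  have hFZ := tt_fitting_center h5561 hD hD2 h2 h3
  obtain ⟨hD1, ⟨d, hd, hcls⟩, hgen⟩ := hD
  have hconj := tt_class_conj hcls
  have hL : Cfsg.IsComponent L := ⟨hLn.isSubnormal, hLq⟩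
  have hLp := Cfsg.Agent.Helper9.component_perfect hL
  have hcoset := tt_coset_of_index hcls hLn hidx
  have htrans : ∀ a ∈ D, ∀ b ∈ D, ∃ g : G, g * a * g⁻¹ = b := by
    intro a ha b hb
    have hclsa : D = conjugatesOf a := tt_cls_of_mem hcls ha
    rw [hclsa] at hb
    have hb' : IsConj a b := hb
    exact isConj_iff.mp hb'
  refine ⟨htrans, hD2, ?_⟩
  intro B hBD hblk0
  have hblk := tt_blk hblk0
  by_contra hcon
  push Not at hcon
  obtain ⟨hns, hBne⟩ := hcon
  obtain ⟨a, ha, b, hb, hab⟩ := hns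
  have hne : B.Nonempty := ⟨a, ha⟩
  obtain ⟨S, hSdef⟩ : ∃ S : Subgroup G, S = ttBlockStab B hne hblk := ⟨_, rfl⟩
  have hS : ∀ g : G, g ∈ S ↔ ∀ y ∈ B, g * y * g⁻¹ ∈ B := by
    intro g; rw [hSdef]; exact Iff.rfl
  have hBS : ∀ y ∈ B, y ∈ S := by
    intro y hy
    exact (hS y).mpr (hblk y y hy (by rw [mul_inv_cancel_right]; exact hy))
  have haD := hBD ha
  have hbD := hBD hb
  obtain ⟨K, hK⟩ : ∃ K : Subgroup G, K = S.normalCore := ⟨_, rfl⟩
  have hKn : K.Normal := by rw [hK]; infer_instance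
  have hKS : K ≤ S := by rw [hK]; exact Subgroup.normalCore_le S
  have hzK : a * b ∈ K := by
    rw [hK]
    show ∀ g : G, g * (a * b) * g⁻¹ ∈ S
    intro g
    have e : g * (a * b) * g⁻¹ = (g * a * g⁻¹) * (g * b * g⁻¹) := by group
    rw [e]
    exact tt_block_prod hD1 hconj hBD S hS hblk ha hb g
  have hKLn : (K.subgroupOf L).Normal := by
    haveI := hKn
    infer_instance
  by_cases htop : K.subgroupOf L = ⊤
  · have hLS : L ≤ S := (Subgroup.subgroupOf_eq_top.mp htop).trans hKS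
    have hDS : ∀ x ∈ D, x ∈ S := by
      intro x hx
      have hax : a * x ∈ L := hcoset a haD x hx
      have e : x = a⁻¹ * (a * x) := by group
      rw [e]
      exact S.mul_mem (S.inv_mem (hBS a ha)) (hLS hax)
    have hStop : ∀ g : G, g ∈ S := by
      intro g
      have hle : Subgroup.closure D ≤ S := by
        rw [Subgroup.closure_le]
        intro x hx
        exact hDS x hx
      rw [hgen] at hle
      exact hle (Subgroup.mem_top g)
    apply hBne
    apply Set.Subset.antisymm hBD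
    intro x hx
    obtain ⟨g, hg⟩ := htrans a haD x hx
    rw [← hg]
    exact (hS g).mp (hStop g) a ha
  · have hcen := Cfsg.Agent.Helper9.quasi_normal_le_center hLq _ hKLn htop
    have h1 : ⁅⁅K, L⁆, L⁆ = ⊥ := by
      rw [Subgroup.commutator_eq_bot_iff_le_centralizer, Subgroup.commutator_le]
      intro k hk l hl
      have hcK : ⁅k, l⁆ ∈ K := by
        rw [commutatorElement_def]
        have e : k * l * k⁻¹ * l⁻¹ = k * (l * k⁻¹ * l⁻¹) := by group
        rw [e]
        exact K.mul_mem hk (hKn.conj_mem _ (K.inv_mem hk) l)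
      have hcL : ⁅k, l⁆ ∈ L := by
        rw [commutatorElement_def]
        exact L.mul_mem (hLn.conj_mem l hl k) (L.inv_mem hl)
      rw [Subgroup.mem_centralizer_iff]
      intro m hm
      have hmem : (⟨⁅k, l⁆, hcL⟩ : L) ∈ K.subgroupOf L := by
        rw [Subgroup.mem_subgroupOf]; exact hcK
      have := Subgroup.mem_center_iff.mp (hcen hmem) ⟨m, hm⟩
      exact congrArg Subtype.val this
    have h2' : ⁅⁅L, K⁆, L⁆ = ⊥ := by
      rw [Subgroup.commutator_comm L K]; exact h1
    have h3' := Subgroup.commutator_commutator_eq_bot_of_rotate h2' h1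
    rw [hLp] at h3'
    have h4 := Subgroup.commutator_eq_bot_iff_le_centralizer.mp h3'
    have hLab : a * b ∈ L := hcoset a haD b hbD
    have hzA : a * b ∈ L ⊓ Subgroup.centralizer (L : Set G) := by
      refine Subgroup.mem_inf.mpr ⟨hLab, ?_⟩
      rw [Subgroup.mem_centralizer_iff]
      intro l hl
      exact (Subgroup.mem_centralizer_iff.mp (h4 hl) (a * b) hzK).symm
    have hnorm : ∀ g ∈ L, ∀ n ∈ L ⊓ Subgroup.centralizer (L : Set G),
        g * n * g⁻¹ ∈ L ⊓ Subgroup.centralizer (L : Set G) := by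
      intro g hg n hn
      have hnc := Subgroup.mem_centralizer_iff.mp (Subgroup.mem_inf.mp hn).2 g hg
      have e : g * n * g⁻¹ = n := by rw [hnc, mul_inv_cancel_right]
      rw [e]; exact hn
    have hAsub : (L ⊓ Subgroup.centralizer (L : Set G)).IsSubnormal := by
      refine Subgroup.IsSubnormal.step _ L inf_le_left hLn.isSubnormal ?_
      constructor
      intro n hn g
      rw [Subgroup.mem_subgroupOf] at hn ⊢
      exact hnorm g g.2 n hn
    have hAcomm : ∀ x ∈ L ⊓ Subgroup.centralizer (L : Set G),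
        ∀ y ∈ L ⊓ Subgroup.centralizer (L : Set G), x * y = y * x := by
      intro x hx y hy
      exact Subgroup.mem_centralizer_iff.mp (Subgroup.mem_inf.mp hy).2 x (Subgroup.mem_inf.mp hx).1
    have hAnil : Group.IsNilpotent ↥(L ⊓ Subgroup.centralizer (L : Set G)) :=
      Cfsg.Agent.Helper9.nilpotent_of_comm (fun x y => Subtype.ext (hAcomm x x.2 y y.2))
    have hAF := Cfsg.Agent.Helper9.subnormal_nilpotent_le_fitting _ hAsub hAnil
    rw [hFZ] at hAF
    exact tt_no_central_prod hD1 hcls hgen haD hbD hab (hAF hzA)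

end tt4

end Cfsg.Agent.Helper4
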