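import Mathlib
import Cfsg.Prelude.Def_FischerSpaces
import Cfsg.Prelude.Def_Solvable
import Cfsg.Prelude.Def_Local
import Cfsg.Agent.Helper16.PCore
import Cfsg.Agent.Helper9.Layer2
import Cfsg.Agent.Helper9.Comp
import Cfsg.Agent.Helper9.Quasi
import Cfsg.Agent.Helper4.ThreeTransp
import Cfsg.Agent.Helper4.ThreeTransp2
import Cfsg.Agent.Helper4.ThreeTransp3
import Cfsg.Agent.Helper4.ThreeTransp4

set_option autoImplicit false

namespace Cfsg.Agent.Helper4

universe u

open scoped Pointwise commutatorElement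

section tt5
variable {G : Type u} [Group G]

/-- the class of a point under a conjugation-invariant symmetric transitive relation is a
block -/
theorem tt_block_of_rel (R : G → G → Prop) (hsymm : ∀ x y, R x y → R y x)
    (htrans : ∀ x y z, R x y → R y z → R x z)
    (hconj : ∀ g x y, R x y → R (g * x * g⁻¹) (g * y * g⁻¹)) (d : G) (g : G) :
    (fun x => g * x * g⁻¹) '' {y | R d y} = {y | R d y} ∨
      Disjoint ((fun x => g * x * g⁻¹) '' {y | R d y}) {y | R d y} := by
  by_cases hdis : Disjoint ((fun x => g * x * g⁻¹) '' {y | R d y}) {y | R d y}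
  · exact Or.inr hdis
  · left
    rw [Set.not_disjoint_iff] at hdis
    obtain ⟨y, ⟨x, hx, hxy⟩, hy⟩ := hdis
    have hx' : R d x := hx
    have hy' : R d y := hy
    have hxy' : g * x * g⁻¹ = y := hxy
    apply Set.Subset.antisymm
    · rintro _ ⟨x', hx1, rfl⟩
      have hx1' : R d x' := hx1
      show R d (g * x' * g⁻¹)
      have h1 : R x x' := htrans _ _ _ (hsymm _ _ hx') hx1'
      have h2 := hconj g _ _ h1
      rw [hxy'] at h2
      exact htrans _ _ _ hy' h2
    · intro y' hy1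
      have hy1' : R d y' := hy1
      have h1 : R y y' := htrans _ _ _ (hsymm _ _ hy') hy1'
      have h2 := hconj g⁻¹ _ _ h1
      have e : g⁻¹ * y * g⁻¹⁻¹ = x := by rw [← hxy']; group
      rw [e] at h2
      refine ⟨g⁻¹ * y' * g⁻¹⁻¹, htrans _ _ _ hx' h2, ?_⟩
      show g * (g⁻¹ * y' * g⁻¹⁻¹) * g⁻¹ = y'
      group

theorem tt_orbit_block {N : Subgroup G} (hN : N.Normal) (d g : G) :
    (fun x => g * x * g⁻¹) '' {y | ∃ n ∈ N, y = n * d * n⁻¹} = {y | ∃ n ∈ N, y = n * d * n⁻¹} ∨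
      Disjoint ((fun x => g * x * g⁻¹) '' {y | ∃ n ∈ N, y = n * d * n⁻¹})
        {y | ∃ n ∈ N, y = n * d * n⁻¹} := by
  apply tt_block_of_rel (fun x y => ∃ n ∈ N, y = n * x * n⁻¹)
  · rintro x y ⟨n, hn, rfl⟩
    show ∃ m ∈ N, x = m * (n * x * n⁻¹) * m⁻¹
    exact ⟨n⁻¹, N.inv_mem hn, by group⟩
  · rintro x y z ⟨n, hn, rfl⟩ ⟨m, hm, rfl⟩
    show ∃ k ∈ N, m * (n * x * n⁻¹) * m⁻¹ = k * x * k⁻¹
    exact ⟨m * n, N.mul_mem hm hn, by group⟩
  · rintro g x y ⟨n, hn, rfl⟩
    show ∃ k ∈ N, g * (n * x * n⁻¹) * g⁻¹ = k * (g * x * g⁻¹) * k⁻¹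
    exact ⟨g * n * g⁻¹, hN.conj_mem n hn g, by group⟩

theorem tt_no_prods_three {D : Set G} (hD1 : Cfsg.IsThreeTranspositionSet D)
    {N : Subgroup G} (hN : IsPGroup 3 N)
    (hw : ∃ a ∈ D, ∃ b ∈ D, a ≠ b ∧ Commute a b)
    (hall : ∀ a ∈ D, ∀ b ∈ D, a * b ∈ N) : False := by
  obtain ⟨a, ha, b, hb, hab, hc⟩ := hw
  have haa := tt_mul_self hD1 ha
  have hbb := tt_mul_self hD1 hb
  have h2 : (a * b) ^ 2 = 1 := by
    rw [hc.mul_pow, pow_two, pow_two, haa, hbb, one_mul]
  have h1 := tt_eq_one_of_pgroup hN (hall a ha b hb) (by norm_num : Nat.Coprime 3 2) h2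
  apply hab
  calc a = a * (b * b) := by rw [hbb, mul_one]
    _ = (a * b) * b := by group
    _ = b := by rw [h1, one_mul]

theorem tt_no_prods_two {D : Set G} (hD1 : Cfsg.IsThreeTranspositionSet D) {d : G} (hd : d ∈ D)
    (hgen : Subgroup.closure D = ⊤) (hZ : Subgroup.center G = ⊥)
    {N : Subgroup G} (hN : IsPGroup 2 N)
    (hall : ∀ a ∈ D, ∀ b ∈ D, a * b ∈ N) : False := by
  have hD1' := hD1
  obtain ⟨hord, hprod⟩ := hD1'
  have hdd := tt_mul_self hD1 hd
  have hcomm : ∀ x ∈ D, x * d = d * x := by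
    intro x hx
    have hxx := tt_mul_self hD1 hx
    rcases hprod x hx d hd with h | h
    · exact (tt_commute_of_sq hxx hdd h).eq
    · have h1 := tt_eq_one_of_pgroup hN (hall x hx d hd) (by norm_num : Nat.Coprime 2 3) h
      have hxd : x = d := by
        calc x = x * (d * d) := by rw [hdd, mul_one]
          _ = (x * d) * d := by group
          _ = d := by rw [h1, one_mul]
      rw [hxd]
  have hdc : d ∈ Subgroup.center G := by
    rw [Subgroup.mem_center_iff]
    intro g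
    have hle : Subgroup.closure D ≤ Subgroup.centralizer ({d} : Set G) := by
      rw [Subgroup.closure_le]
      intro x hx
      rw [SetLike.mem_coe, Subgroup.mem_centralizer_iff]
      intro y hy
      rw [Set.mem_singleton_iff] at hy
      rw [hy]
      exact (hcomm x hx).symm
    rw [hgen] at hle
    exact (Subgroup.mem_centralizer_iff.mp (hle (Subgroup.mem_top g)) d
      (Set.mem_singleton d)).symm
  rw [hZ, Subgroup.mem_bot] at hdc
  have h2 := hord d hd
  rw [hdc, orderOf_one] at h2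
  exact absurd h2 (by norm_num)

theorem tt_prim_pcore_bot {D : Set G} (hD : Cfsg.IsThreeTranspositionClass D)
    (hZ : Subgroup.center G = ⊥) (hprim : Cfsg.IsPrimitiveUnderConj D)
    {N : Subgroup G} (hN : N.Normal)
    (hno : (∀ a ∈ D, ∀ b ∈ D, a * b ∈ N) → False) : N = ⊥ := by
  obtain ⟨hD1, ⟨d, hd, hcls⟩, hgen⟩ := hD
  have hconj := tt_class_conj hcls
  have hdi := tt_inv hD1 hd
  obtain ⟨_, _, hblocks⟩ := hprim
  have hBD : {y | ∃ n ∈ N, y = n * d * n⁻¹} ⊆ D := by
    rintro y ⟨n, hn, rfl⟩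
    exact hconj n d hd
  have hdB : d ∈ {y | ∃ n ∈ N, y = n * d * n⁻¹} := ⟨1, N.one_mem, by group⟩
  rcases hblocks _ hBD (tt_orbit_block hN d) with hsub | hBeq
  · have hcen : N ≤ Subgroup.center G := by
      apply tt_central_of_comm hcls hgen hN
      intro x hx
      have hmem : x * d * x⁻¹ ∈ {y | ∃ n ∈ N, y = n * d * n⁻¹} := ⟨x, hx, rfl⟩
      have h1 : x * d * x⁻¹ = d := hsub hmem hdB
      calc d * x = (x * d * x⁻¹) * x := by rw [h1]
        _ = x * d := by group
    rw [hZ] at hcen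
    exact le_bot_iff.mp hcen
  · exfalso
    apply hno
    have hdx : ∀ x ∈ D, d * x ∈ N := by
      intro x hx
      rw [← hBeq] at hx
      obtain ⟨n, hn, rfl⟩ := hx
      have e : d * (n * d * n⁻¹) = (d * n * d⁻¹) * n⁻¹ := by rw [hdi]; group
      rw [e]
      exact N.mul_mem (hN.conj_mem n hn d) (N.inv_mem hn)
    intro a ha b hb
    have e : a * b = (d * a)⁻¹ * (d * b) := by
      have e1 : (d * a)⁻¹ * (d * b) = a⁻¹ * b := by group
      rw [e1, tt_inv hD1 ha]
    rw [e]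
    exact N.mul_mem (N.inv_mem (hdx a ha)) (hdx b hb)

/-- adjacency of the commuting graph, on the ambient group -/
abbrev ttAdj (D : Set G) (x y : G) : Prop := x ∈ D ∧ y ∈ D ∧ x ≠ y ∧ Commute x y

theorem tt_prim_connected {D : Set G}
    (hconj : ∀ g : G, ∀ x ∈ D, g * x * g⁻¹ ∈ D)
    (hprim : Cfsg.IsPrimitiveUnderConj D)
    (hw : ∃ a ∈ D, ∃ b ∈ D, a ≠ b ∧ Commute a b) : (Cfsg.commutingGraph D).Connected := by
  obtain ⟨a, ha, b, hb, hab, hc⟩ := hw
  obtain ⟨_, _, hblocks⟩ := hprim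
  have hrsymm : ∀ x y, ttAdj D x y → ttAdj D y x := by
    intro x y h
    exact ⟨h.2.1, h.1, h.2.2.1.symm, h.2.2.2.symm⟩
  have hrconj : ∀ g x y, ttAdj D x y → ttAdj D (g * x * g⁻¹) (g * y * g⁻¹) := by
    intro g x y h
    refine ⟨hconj g x h.1, hconj g y h.2.1, ?_, ?_⟩
    · intro e
      apply h.2.2.1
      have e2 : g⁻¹ * (g * x * g⁻¹) * g = g⁻¹ * (g * y * g⁻¹) * g := by rw [e]
      have e3 : g⁻¹ * (g * x * g⁻¹) * g = x := by group
      have e4 : g⁻¹ * (g * y * g⁻¹) * g = y := by group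
      rw [e3, e4] at e2
      exact e2
    · have hxy : x * y = y * x := h.2.2.2.eq
      show (g * x * g⁻¹) * (g * y * g⁻¹) = (g * y * g⁻¹) * (g * x * g⁻¹)
      calc (g * x * g⁻¹) * (g * y * g⁻¹) = g * (x * y) * g⁻¹ := by group
        _ = g * (y * x) * g⁻¹ := by rw [hxy]
        _ = (g * y * g⁻¹) * (g * x * g⁻¹) := by group
  have hsymm : ∀ x y, Relation.ReflTransGen (ttAdj D) x y →
      Relation.ReflTransGen (ttAdj D) y x := by
    intro x y h
    induction h with
    | refl => exact Relation.ReflTransGen.refl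
    | @tail u v _ huv ih => exact Relation.ReflTransGen.head (hrsymm _ _ huv) ih
  have htrans : ∀ x y z, Relation.ReflTransGen (ttAdj D) x y →
      Relation.ReflTransGen (ttAdj D) y z → Relation.ReflTransGen (ttAdj D) x z :=
    fun x y z h1 h2 => h1.trans h2
  have hconjR : ∀ g x y, Relation.ReflTransGen (ttAdj D) x y →
      Relation.ReflTransGen (ttAdj D) (g * x * g⁻¹) (g * y * g⁻¹) := by
    intro g x y h
    induction h with
    | refl => exact Relation.ReflTransGen.refl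
    | @tail u v _ huv ih => exact ih.tail (hrconj g _ _ huv)
  have hBD : ∀ y, Relation.ReflTransGen (ttAdj D) a y → y ∈ D := by
    intro y hy
    induction hy with
    | refl => exact ha
    | @tail u v _ huv _ => exact huv.2.1
  have hreach : ∀ y, Relation.ReflTransGen (ttAdj D) a y →
      ∃ hy : y ∈ D, (Cfsg.commutingGraph D).Reachable ⟨a, ha⟩ ⟨y, hy⟩ := by
    intro y hy
    induction hy with
    | refl => exact ⟨ha, SimpleGraph.Reachable.refl _⟩
    | @tail u v _ huv ih =>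
      obtain ⟨hu, hr⟩ := ih
      refine ⟨huv.2.1, hr.trans (SimpleGraph.Adj.reachable ?_)⟩
      unfold Cfsg.commutingGraph
      rw [SimpleGraph.fromRel_adj]
      refine ⟨?_, Or.inl huv.2.2.2⟩
      intro e
      exact huv.2.2.1 (congrArg Subtype.val e)
  have haB : a ∈ {y | Relation.ReflTransGen (ttAdj D) a y} := Relation.ReflTransGen.refl
  have hbB : b ∈ {y | Relation.ReflTransGen (ttAdj D) a y} :=
    Relation.ReflTransGen.single ⟨ha, hb, hab, hc⟩
  rcases hblocks _ (fun y hy => hBD y hy)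
    (tt_block_of_rel (Relation.ReflTransGen (ttAdj D)) hsymm htrans hconjR a) with hsub | hBeq
  · exact absurd (hsub haB hbB) hab
  · have hall : ∀ y (hy : y ∈ D), (Cfsg.commutingGraph D).Reachable ⟨a, ha⟩ ⟨y, hy⟩ := by
      intro y hy
      have hyB : y ∈ {y | Relation.ReflTransGen (ttAdj D) a y} := by rw [hBeq]; exact hy
      obtain ⟨_, hr⟩ := hreach y hyB
      exact hr
    exact
      { preconnected := fun u v => (hall u.1 u.2).symm.trans (hall v.1 v.2)
        nonempty := ⟨⟨a, ha⟩⟩ }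

theorem tt_inf_centralizer_le_fitting [Finite G] {L : Subgroup G} (hLn : L.Normal) :
    L ⊓ Subgroup.centralizer (L : Set G) ≤ Cfsg.fittingSubgroup G := by
  have hnorm : ∀ g ∈ L, ∀ n ∈ L ⊓ Subgroup.centralizer (L : Set G),
      g * n * g⁻¹ ∈ L ⊓ Subgroup.centralizer (L : Set G) := by
    intro g hg n hn
    have hnc := Subgroup.mem_centralizer_iff.mp (Subgroup.mem_inf.mp hn).2 g hg
    have e : g * n * g⁻¹ = n := by rw [hnc, mul_inv_cancel_right]
    rw [e]; exact hn
  have hAsub : (L ⊓ Subgroup.centralizer (L : Set G)).IsSubnormal := by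
    refine Subgroup.IsSubnormal.step _ L inf_le_left hLn.isSubnormal ?_
    constructor
    intro n hn g
    rw [Subgroup.mem_subgroupOf] at hn ⊢
    exact hnorm g g.2 n hn
  have hAcomm : ∀ x ∈ L ⊓ Subgroup.centralizer (L : Set G),
      ∀ y ∈ L ⊓ Subgroup.centralizer (L : Set G), x * y = y * x := by
    intro x hx y hy
    exact Subgroup.mem_centralizer_iff.mp (Subgroup.mem_inf.mp hy).2 x (Subgroup.mem_inf.mp hx).1
  have hAnil : Group.IsNilpotent ↥(L ⊓ Subgroup.centralizer (L : Set G)) :=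
    Cfsg.Agent.Helper9.nilpotent_of_comm (fun x y => Subtype.ext (hAcomm x x.2 y y.2))
  exact Cfsg.Agent.Helper9.subnormal_nilpotent_le_fitting _ hAsub hAnil

theorem tt_comm_mem_of_index [Finite G] {L : Subgroup G} (hLn : L.Normal) (hidx : L.index ≤ 2)
    (g₁ g₂ : G) : ⁅g₁, g₂⁆ ∈ L := by
  have hidx0 : L.index ≠ 0 := Subgroup.index_ne_zero_of_finite
  have hcases : L.index = 1 ∨ L.index = 2 := by omega
  rcases hcases with h1 | h2
  · rw [Subgroup.index_eq_one.mp h1]; exact Subgroup.mem_top _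
  · rw [commutatorElement_def, Subgroup.mul_mem_iff_of_index_two h2]
    constructor
    · intro h
      have h4 : g₁⁻¹ * (g₁ * g₂ * g₁⁻¹) * g₁⁻¹⁻¹ ∈ L := hLn.conj_mem _ h g₁⁻¹
      have e : g₁⁻¹ * (g₁ * g₂ * g₁⁻¹) * g₁⁻¹⁻¹ = g₂ := by group
      rw [e] at h4
      exact L.inv_mem h4
    · intro h
      have h4 := L.inv_mem h
      rw [inv_inv] at h4
      exact hLn.conj_mem g₂ h4 g₁

theorem tt_prim_of_conn
    (h5561 : ∀ (H : Type u) [Group H] [Finite H] (d : H), orderOf d = 2 →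
      (∀ a ∈ conjugatesOf d, ∀ b ∈ conjugatesOf d, ∃ k : ℕ, orderOf (a * b) = 3 ^ k) →
      ∀ a ∈ conjugatesOf d, ∀ b ∈ conjugatesOf d, a * b ∈ Cfsg.pCore 3 H)
    (h144 : ∀ (H : Type u) [Group H] [Finite H] (p q a b : ℕ), p.Prime → q.Prime →
      Nat.card H = p ^ a * q ^ b → Group.IsSolvable H)
    [Finite G] {D : Set G} (hD : Cfsg.IsThreeTranspositionClass D)
    (hD2 : ∃ a ∈ D, ∃ b ∈ D, a ≠ b) (h2 : Cfsg.pCore 2 G = ⊥) (h3 : Cfsg.pCore 3 G = ⊥)
    (hconn : (Cfsg.commutingGraph D).Connected) : Cfsg.IsPrimitiveUnderConj D := by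
  have h2' : Cfsg.pCore 2 G ≤ Subgroup.center G := by rw [h2]; exact bot_le
  have h3' : Cfsg.pCore 3 G ≤ Subgroup.center G := by rw [h3]; exact bot_le
  obtain ⟨L, hLn, hLq, _, _⟩ := tt_quasi h5561 h144 hD hD2 h2' h3'
  exact tt_prim_of_index h5561 hD hD2 h2' h3' hLn hLq (tt_index_of_connected hD hLn hLq hconn)

theorem tt_prim_facts [Finite G] {D : Set G} (hD : Cfsg.IsThreeTranspositionClass D)
    (hZ : Subgroup.center G = ⊥) (hw : ∃ a ∈ D, ∃ b ∈ D, a ≠ b ∧ Commute a b)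
    (hprim : Cfsg.IsPrimitiveUnderConj D) :
    Cfsg.pCore 2 G = ⊥ ∧ Cfsg.pCore 3 G = ⊥ ∧ (Cfsg.commutingGraph D).Connected := by
  have hD' := hD
  obtain ⟨hD1, ⟨d, hd, hcls⟩, hgen⟩ := hD'
  have hconj := tt_class_conj hcls
  refine ⟨?_, ?_, tt_prim_connected hconj hprim hw⟩
  · exact tt_prim_pcore_bot hD hZ hprim (Cfsg.Agent.Helper16.pCore_normal 2 G)
      (fun hall => tt_no_prods_two hD1 hd hgen hZ (Cfsg.Agent.Helper16.pCore_isPGroup 2 G) hall)
  · exact tt_prim_pcore_bot hD hZ hprim (Cfsg.Agent.Helper16.pCore_normal 3 G)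
      (fun hall => tt_no_prods_three hD1 (Cfsg.Agent.Helper16.pCore_isPGroup 3 G) hw hall)

theorem tt_simple_of_prim
    (h5561 : ∀ (H : Type u) [Group H] [Finite H] (d : H), orderOf d = 2 →
      (∀ a ∈ conjugatesOf d, ∀ b ∈ conjugatesOf d, ∃ k : ℕ, orderOf (a * b) = 3 ^ k) →
      ∀ a ∈ conjugatesOf d, ∀ b ∈ conjugatesOf d, a * b ∈ Cfsg.pCore 3 H)
    (h144 : ∀ (H : Type u) [Group H] [Finite H] (p q a b : ℕ), p.Prime → q.Prime →
      Nat.card H = p ^ a * q ^ b → Group.IsSolvable H)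
    [Finite G] {D : Set G} (hD : Cfsg.IsThreeTranspositionClass D)
    (hZ : Subgroup.center G = ⊥) (hw : ∃ a ∈ D, ∃ b ∈ D, a ≠ b ∧ Commute a b)
    (hprim : Cfsg.IsPrimitiveUnderConj D) : IsSimpleGroup (commutator G) := by
  have hD2 : ∃ a ∈ D, ∃ b ∈ D, a ≠ b := by
    obtain ⟨a, ha, b, hb, hab, _⟩ := hw
    exact ⟨a, ha, b, hb, hab⟩
  obtain ⟨h2, h3, hconn⟩ := tt_prim_facts hD hZ hw hprim
  have h2' : Cfsg.pCore 2 G ≤ Subgroup.center G := by rw [h2]; exact bot_le
  have h3' : Cfsg.pCore 3 G ≤ Subgroup.center G := by rw [h3]; exact bot_le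
  obtain ⟨L, hLn, hLq, _, _⟩ := tt_quasi h5561 h144 hD hD2 h2' h3'
  have hidx := tt_index_of_connected hD hLn hLq hconn
  have hFZ := tt_fitting_center h5561 hD hD2 h2' h3'
  rw [hZ] at hFZ
  have hL : Cfsg.IsComponent L := ⟨hLn.isSubnormal, hLq⟩
  have hLp := Cfsg.Agent.Helper9.component_perfect hL
  have hL1 : L ≠ ⊥ := by
    intro h
    apply Cfsg.Agent.Helper9.component_commutative_false hL
    intro a ha b hb
    rw [h, Subgroup.mem_bot] at ha hb
    rw [ha, hb]
  have hcL : Subgroup.center L = ⊥ := by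
    rw [Subgroup.eq_bot_iff_forall]
    intro z hz
    have hzA : (z : G) ∈ L ⊓ Subgroup.centralizer (L : Set G) := by
      refine Subgroup.mem_inf.mpr ⟨z.2, ?_⟩
      rw [Subgroup.mem_centralizer_iff]
      intro l hl
      have := Subgroup.mem_center_iff.mp hz ⟨l, hl⟩
      exact congrArg Subtype.val this
    have h1 := tt_inf_centralizer_le_fitting hLn hzA
    rw [hFZ, Subgroup.mem_bot] at h1
    exact Subtype.ext h1
  have hLsimple : IsSimpleGroup L := by
    haveI hnt : Nontrivial L := (Subgroup.nontrivial_iff_ne_bot L).mpr hL1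
    exact
      { toNontrivial := hnt
        eq_bot_or_eq_top_of_normal := by
          intro N hN
          by_cases hNtop : N = ⊤
          · exact Or.inr hNtop
          · left
            have hle := Cfsg.Agent.Helper9.quasi_normal_le_center hLq N hN hNtop
            rw [hcL] at hle
            exact le_bot_iff.mp hle }
  have hcomm : commutator G = L := by
    apply le_antisymm
    · rw [commutator_def, Subgroup.commutator_le]
      intro g₁ _ g₂ _
      exact tt_comm_mem_of_index hLn hidx g₁ g₂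
    · rw [commutator_def]
      calc L = ⁅L, L⁆ := hLp.symm
        _ ≤ ⁅(⊤ : Subgroup G), ⊤⁆ := Subgroup.commutator_mono le_top le_top
  rw [hcomm]
  exact hLsimple

theorem tt_prim_of_simple
    (h5561 : ∀ (H : Type u) [Group H] [Finite H] (d : H), orderOf d = 2 →
      (∀ a ∈ conjugatesOf d, ∀ b ∈ conjugatesOf d, ∃ k : ℕ, orderOf (a * b) = 3 ^ k) →
      ∀ a ∈ conjugatesOf d, ∀ b ∈ conjugatesOf d, a * b ∈ Cfsg.pCore 3 H)
    (h144 : ∀ (H : Type u) [Group H] [Finite H] (p q a b : ℕ), p.Prime → q.Prime →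
      Nat.card H = p ^ a * q ^ b → Group.IsSolvable H)
    [Finite G] {D : Set G} (hD : Cfsg.IsThreeTranspositionClass D)
    (hZ : Subgroup.center G = ⊥) (hw : ∃ a ∈ D, ∃ b ∈ D, a ≠ b ∧ Commute a b)
    (hsimp : IsSimpleGroup (commutator G)) : Cfsg.IsPrimitiveUnderConj D := by
  haveI := hsimp
  have hD' := hD
  obtain ⟨hD1, ⟨d, hd, hcls⟩, hgen⟩ := hD'
  have hD2 : ∃ a ∈ D, ∃ b ∈ D, a ≠ b := by
    obtain ⟨a, ha, b, hb, hab, _⟩ := hw
    exact ⟨a, ha, b, hb, hab⟩
  have hdd := tt_mul_self hD1 hd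
  have hprodS : ∀ a ∈ D, ∀ b ∈ D, a * b ∈ commutator G := by
    intro a ha b hb
    have hclsa : D = conjugatesOf a := tt_cls_of_mem hcls ha
    have hb0 := hb
    rw [hclsa] at hb0
    have hb' : IsConj a b := hb0
    obtain ⟨g, hg⟩ := isConj_iff.mp hb'
    have e : a * b = ⁅a, g⁆ := by
      rw [commutatorElement_def, ← hg, tt_inv hD1 ha]
      group
    rw [e, commutator_def]
    exact Subgroup.commutator_mem_commutator (Subgroup.mem_top a) (Subgroup.mem_top g)
  have hcore : ∀ N : Subgroup G, N.Normal →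
      ((∀ a ∈ D, ∀ b ∈ D, a * b ∈ N) → False) → N = ⊥ := by
    intro N hN hno
    haveI := hN
    have hNS : (N.subgroupOf (commutator G)).Normal := inferInstance
    rcases hNS.eq_bot_or_eq_top with hbot | htop
    · have hcen : N ≤ Subgroup.center G := by
        apply tt_central_of_comm hcls hgen hN
        intro x hx
        have htN : d * x * d⁻¹ * x⁻¹ ∈ N := N.mul_mem (hN.conj_mem x hx d) (N.inv_mem hx)
        have htS : d * x * d⁻¹ * x⁻¹ ∈ commutator G := by
          have e : d * x * d⁻¹ * x⁻¹ = ⁅d, x⁆ := by rw [commutatorElement_def]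
          rw [e, commutator_def]
          exact Subgroup.commutator_mem_commutator (Subgroup.mem_top d) (Subgroup.mem_top x)
        have hmem : (⟨d * x * d⁻¹ * x⁻¹, htS⟩ : commutator G) ∈
            N.subgroupOf (commutator G) := by
          rw [Subgroup.mem_subgroupOf]; exact htN
        rw [hbot, Subgroup.mem_bot] at hmem
        have h1 : d * x * d⁻¹ * x⁻¹ = 1 := congrArg Subtype.val hmem
        calc d * x = (d * x * d⁻¹ * x⁻¹) * x * d := by group
          _ = x * d := by rw [h1, one_mul]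
      rw [hZ] at hcen
      exact le_bot_iff.mp hcen
    · exfalso
      apply hno
      intro a ha b hb
      exact Subgroup.subgroupOf_eq_top.mp htop (hprodS a ha b hb)
  have h2 : Cfsg.pCore 2 G = ⊥ := hcore _ (Cfsg.Agent.Helper16.pCore_normal 2 G)
    (fun hall => tt_no_prods_two hD1 hd hgen hZ (Cfsg.Agent.Helper16.pCore_isPGroup 2 G) hall)
  have h3 : Cfsg.pCore 3 G = ⊥ := hcore _ (Cfsg.Agent.Helper16.pCore_normal 3 G)
    (fun hall => tt_no_prods_three hD1 (Cfsg.Agent.Helper16.pCore_isPGroup 3 G) hw hall)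
  have h2' : Cfsg.pCore 2 G ≤ Subgroup.center G := by rw [h2]; exact bot_le
  have h3' : Cfsg.pCore 3 G ≤ Subgroup.center G := by rw [h3]; exact bot_le
  obtain ⟨L, hLn, hLq, _, _⟩ := tt_quasi h5561 h144 hD hD2 h2' h3'
  have hL : Cfsg.IsComponent L := ⟨hLn.isSubnormal, hLq⟩
  have hLp := Cfsg.Agent.Helper9.component_perfect hL
  have hL1 : L ≠ ⊥ := by
    intro h
    apply Cfsg.Agent.Helper9.component_commutative_false hL
    intro a ha b hb
    rw [h, Subgroup.mem_bot] at ha hb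
    rw [ha, hb]
  have hLS : L ≤ commutator G := by
    rw [commutator_def]
    calc L = ⁅L, L⁆ := hLp.symm
      _ ≤ ⁅(⊤ : Subgroup G), ⊤⁆ := Subgroup.commutator_mono le_top le_top
  have hSL : commutator G ≤ L := by
    haveI := hLn
    have hLSn : (L.subgroupOf (commutator G)).Normal := inferInstance
    rcases hLSn.eq_bot_or_eq_top with hbot | htop
    · exfalso
      apply hL1
      rw [Subgroup.eq_bot_iff_forall]
      intro l hl
      have hmem : (⟨l, hLS hl⟩ : commutator G) ∈ L.subgroupOf (commutator G) := by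
        rw [Subgroup.mem_subgroupOf]; exact hl
      rw [hbot, Subgroup.mem_bot] at hmem
      exact congrArg Subtype.val hmem
    · exact Subgroup.subgroupOf_eq_top.mp htop
  have hidx : L.index ≤ 2 := by
    apply tt_index_le_two hdd hgen hLn
    intro x hx
    exact hSL (hprodS d hd x hx)
  exact tt_prim_of_index h5561 hD hD2 h2' h3' hLn hLq hidx

/-- S5361 modulo the statements of S5561 and S0144 -/
theorem tt_simple_iff_prim
    (h5561 : ∀ (H : Type u) [Group H] [Finite H] (d : H), orderOf d = 2 →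
      (∀ a ∈ conjugatesOf d, ∀ b ∈ conjugatesOf d, ∃ k : ℕ, orderOf (a * b) = 3 ^ k) →
      ∀ a ∈ conjugatesOf d, ∀ b ∈ conjugatesOf d, a * b ∈ Cfsg.pCore 3 H)
    (h144 : ∀ (H : Type u) [Group H] [Finite H] (p q a b : ℕ), p.Prime → q.Prime →
      Nat.card H = p ^ a * q ^ b → Group.IsSolvable H)
    [Finite G] {D : Set G} (hD : Cfsg.IsThreeTranspositionClass D)
    (hZ : Subgroup.center G = ⊥) (hw : ∃ a ∈ D, ∃ b ∈ D, a ≠ b ∧ Commute a b) :
    (IsSimpleGroup (commutator G) ↔ Cfsg.IsPrimitiveUnderConj D) ∧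
      (Cfsg.IsPrimitiveUnderConj D ↔
        (Cfsg.pCore 2 G = ⊥ ∧ Cfsg.pCore 3 G = ⊥ ∧ (Cfsg.commutingGraph D).Connected)) := by
  have hD2 : ∃ a ∈ D, ∃ b ∈ D, a ≠ b := by
    obtain ⟨a, ha, b, hb, hab, _⟩ := hw
    exact ⟨a, ha, b, hb, hab⟩
  refine ⟨⟨fun hs => tt_prim_of_simple h5561 h144 hD hZ hw hs,
    fun hp => tt_simple_of_prim h5561 h144 hD hZ hw hp⟩,
    ⟨fun hp => tt_prim_facts hD hZ hw hp, ?_⟩⟩
  rintro ⟨h2, h3, hconn⟩
  exact tt_prim_of_conn h5561 h144 hD hD2 h2 h3 hconn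

end tt5

end Cfsg.Agent.Helper4
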