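import Mathlib
import Cfsg.Prelude.Def_FischerSpaces
import Cfsg.Prelude.Def_Solvable
import Cfsg.Prelude.Def_Local
import Cfsg.Agent.Helper16.PCore
import Cfsg.Agent.Helper9.Layer2
import Cfsg.Agent.Helper9.Comp
import Cfsg.Agent.Helper9.Quasi
import Cfsg.Agent.Helper4.ThreeTransp
import Cfsg.Agent.Helper4.ThreeTransp2
import Cfsg.Agent.Helper4.ThreeTransp3
import Cfsg.Agent.Helper4.ThreeTransp4
import Cfsg.Agent.Helper4.ThreeTransp5

set_option autoImplicit false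

namespace Cfsg.Agent.Helper4

universe u

open scoped Pointwise commutatorElement

section tt6
variable {G : Type u} [Group G]

/-- the conjugate `g A g⁻¹` of a set -/
abbrev ttConjSet (A : Set G) (g : G) : Set G := {e | g⁻¹ * e * g ∈ A}

theorem ttConjSet_mul (A : Set G) (g h : G) :
    ttConjSet (ttConjSet A g) h = ttConjSet A (h * g) := by
  ext e
  show g⁻¹ * (h⁻¹ * e * h) * g ∈ A ↔ (h * g)⁻¹ * e * (h * g) ∈ A
  have e1 : g⁻¹ * (h⁻¹ * e * h) * g = (h * g)⁻¹ * e * (h * g) := by group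
  rw [e1]

theorem ttConjSet_ncard_le [Finite G] (A : Set G) (g : G) :
    (ttConjSet A g).ncard ≤ A.ncard := by
  have h : ttConjSet A g = (fun e => g * e * g⁻¹) '' A := by
    ext e
    constructor
    · intro he
      refine ⟨g⁻¹ * e * g, he, ?_⟩
      show g * (g⁻¹ * e * g) * g⁻¹ = e
      group
    · rintro ⟨f, hf, rfl⟩
      show g⁻¹ * (g * f * g⁻¹) * g ∈ A
      have e1 : g⁻¹ * (g * f * g⁻¹) * g = f := by group
      rw [e1]; exact hf
  rw [h]
  exact Set.ncard_image_le (Set.toFinite A)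

/-- the subgroup of elements whose conjugation preserves a set -/
def ttSetStab (I : Set G) : Subgroup G where
  carrier := {k | ∀ f, k * f * k⁻¹ ∈ I ↔ f ∈ I}
  mul_mem' := by
    intro a b ha hb
    show ∀ f, a * b * f * (a * b)⁻¹ ∈ I ↔ f ∈ I
    intro f
    have ha' : ∀ f, a * f * a⁻¹ ∈ I ↔ f ∈ I := ha
    have hb' : ∀ f, b * f * b⁻¹ ∈ I ↔ f ∈ I := hb
    have e : a * b * f * (a * b)⁻¹ = a * (b * f * b⁻¹) * a⁻¹ := by group
    rw [e, ha', hb']
  one_mem' := by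
    show ∀ f, (1 : G) * f * (1 : G)⁻¹ ∈ I ↔ f ∈ I
    intro f
    have e : (1 : G) * f * (1 : G)⁻¹ = f := by group
    rw [e]
  inv_mem' := by
    intro a ha
    show ∀ f, a⁻¹ * f * a⁻¹⁻¹ ∈ I ↔ f ∈ I
    intro f
    have ha' : ∀ f, a * f * a⁻¹ ∈ I ↔ f ∈ I := ha
    have h := ha' (a⁻¹ * f * a⁻¹⁻¹)
    have e : a * (a⁻¹ * f * a⁻¹⁻¹) * a⁻¹ = f := by group
    rw [e] at h
    exact h.symm

theorem tt_not_all_comm {D : Set G} (htrans : ∀ a ∈ D, ∀ b ∈ D, ∃ g : G, g * a * g⁻¹ = b)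
    (hgen : Subgroup.closure D = ⊤) (hD2 : ∃ a ∈ D, ∃ b ∈ D, a ≠ b) {d : G} (hd : d ∈ D)
    (hcomm : ∀ x ∈ D, x * d = d * x) : False := by
  have hle : Subgroup.closure D ≤ Subgroup.centralizer ({d} : Set G) := by
    rw [Subgroup.closure_le]
    intro x hx
    rw [SetLike.mem_coe, Subgroup.mem_centralizer_iff]
    intro y hy
    rw [Set.mem_singleton_iff] at hy
    rw [hy]
    exact (hcomm x hx).symm
  rw [hgen] at hle
  have hall : ∀ y ∈ D, y = d := by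
    intro y hy
    obtain ⟨g, hg⟩ := htrans d hd y hy
    have hgd : d * g = g * d :=
      Subgroup.mem_centralizer_iff.mp (hle (Subgroup.mem_top g)) d (Set.mem_singleton d)
    rw [← hg, ← hgd, mul_inv_cancel_right]
  obtain ⟨a, ha, b, hb, hab⟩ := hD2
  exact hab ((hall a ha).trans (hall b hb).symm)

theorem tt_no_prods_two' {D : Set G} (hD1 : Cfsg.IsThreeTranspositionSet D)
    (htrans : ∀ a ∈ D, ∀ b ∈ D, ∃ g : G, g * a * g⁻¹ = b)
    (hgen : Subgroup.closure D = ⊤) (hD2 : ∃ a ∈ D, ∃ b ∈ D, a ≠ b)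
    {N : Subgroup G} (hN : IsPGroup 2 N)
    (hall : ∀ a ∈ D, ∀ b ∈ D, a * b ∈ N) : False := by
  have hD1' := hD1
  obtain ⟨hord, hprod⟩ := hD1'
  have hD2' := hD2
  obtain ⟨d, hd, _, _, _⟩ := hD2'
  have hdd := tt_mul_self hD1 hd
  apply tt_not_all_comm htrans hgen hD2 hd
  intro x hx
  have hxx := tt_mul_self hD1 hx
  rcases hprod x hx d hd with h | h
  · exact (tt_commute_of_sq hxx hdd h).eq
  · have h1 := tt_eq_one_of_pgroup hN (hall x hx d hd) (by norm_num : Nat.Coprime 2 3) h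
    have hxd : x = d := by
      calc x = x * (d * d) := by rw [hdd, mul_one]
        _ = (x * d) * d := by group
        _ = d := by rw [h1, one_mul]
    rw [hxd]

theorem tt_prim_pcore_central {D : Set G} (hD : Cfsg.IsThreeTranspositionClass D)
    (hprim : Cfsg.IsPrimitiveUnderConj D)
    {N : Subgroup G} (hN : N.Normal)
    (hno : (∀ a ∈ D, ∀ b ∈ D, a * b ∈ N) → False) : N ≤ Subgroup.center G := by
  obtain ⟨hD1, ⟨d, hd, hcls⟩, hgen⟩ := hD
  have hconj := tt_class_conj hcls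
  have hdi := tt_inv hD1 hd
  obtain ⟨_, _, hblocks⟩ := hprim
  have hBD : {y | ∃ n ∈ N, y = n * d * n⁻¹} ⊆ D := by
    rintro y ⟨n, hn, rfl⟩
    exact hconj n d hd
  have hdB : d ∈ {y | ∃ n ∈ N, y = n * d * n⁻¹} := ⟨1, N.one_mem, by group⟩
  rcases hblocks _ hBD (tt_orbit_block hN d) with hsub | hBeq
  · apply tt_central_of_comm hcls hgen hN
    intro x hx
    have hmem : x * d * x⁻¹ ∈ {y | ∃ n ∈ N, y = n * d * n⁻¹} := ⟨x, hx, rfl⟩
    have h1 : x * d * x⁻¹ = d := hsub hmem hdB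
    calc d * x = (x * d * x⁻¹) * x := by rw [h1]
      _ = x * d := by group
  · exfalso
    apply hno
    have hdx : ∀ x ∈ D, d * x ∈ N := by
      intro x hx
      rw [← hBeq] at hx
      obtain ⟨n, hn, rfl⟩ := hx
      have e : d * (n * d * n⁻¹) = (d * n * d⁻¹) * n⁻¹ := by rw [hdi]; group
      rw [e]
      exact N.mul_mem (hN.conj_mem n hn d) (N.inv_mem hn)
    intro a ha b hb
    have e : a * b = (d * a)⁻¹ * (d * b) := by
      have e1 : (d * a)⁻¹ * (d * b) = a⁻¹ * b := by group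
      rw [e1, tt_inv hD1 ha]
    rw [e]
    exact N.mul_mem (N.inv_mem (hdx a ha)) (hdx b hb)

/-- comparison of two "systems": a class `θ` of a `D`-subgroup `H` all of whose members have
their commuting partners in `H`, against another such pair -/
theorem tt_sys_sub [Finite G] {D : Set G} (hD1 : Cfsg.IsThreeTranspositionSet D)
    (H : Subgroup G) (θ : Set G) (hθD : θ ⊆ D)
    (hgenH : Subgroup.closure {y : G | y ∈ D ∧ y ∈ H} = H)
    (hP2 : ∀ t ∈ D, t ∈ H → t ∉ θ → ∀ e ∈ θ, Commute e t)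
    (hθinv : ∀ k ∈ H, ∀ f ∈ θ, k * f * k⁻¹ ∈ θ)
    (hθtr : ∀ e ∈ θ, ∀ f ∈ θ, ∃ k ∈ H, f = k * e * k⁻¹)
    (hnc : ∀ v ∈ θ, ¬ (∀ e ∈ θ, Commute e v))
    (H' : Set G) (θ' : Set G)
    (hP1' : ∀ e ∈ θ', ∀ v ∈ D, Commute e v → v ∈ H')
    (hP2' : ∀ y ∈ D, y ∈ H' → ∀ e ∈ θ', ¬ Commute e y → y ∈ θ')
    (hθinv' : ∀ k ∈ H', ∀ f ∈ θ', k * f * k⁻¹ ∈ θ')
    (hcard : θ'.ncard ≤ θ.ncard)
    {e₀ : G} (he₀ : e₀ ∈ θ) (he₀' : e₀ ∈ θ')
    {v : G} (hvD : v ∈ D) (hv : ∀ e ∈ θ, Commute e v) : ∀ e ∈ θ', Commute e v := by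
  by_contra hcon
  push Not at hcon
  obtain ⟨e', he', hnc'⟩ := hcon
  have hvH' : v ∈ H' := hP1' e₀ he₀' v hvD (hv e₀ he₀)
  have hvθ' : v ∈ θ' := hP2' v hvD hvH' e' he' hnc'
  have hθH' : ∀ f ∈ θ, f ∈ H' := fun f hf => hP1' v hvθ' f (hθD hf) (hv f hf).symm
  have hstep : ∀ t ∈ D, t ∈ H → ∀ f, f ∈ θ ∩ θ' → t * f * t⁻¹ ∈ θ ∩ θ' := by
    intro t htD htH f hf
    refine ⟨hθinv t htH f hf.1, ?_⟩
    by_cases ht : t ∈ θ
    · exact hθinv' t (hθH' t ht) f hf.2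
    · have hc := hP2 t htD htH ht f hf.1
      rw [← hc.eq, mul_inv_cancel_right]
      exact hf.2
  have hle : Subgroup.closure {y : G | y ∈ D ∧ y ∈ H} ≤ ttSetStab (θ ∩ θ') := by
    rw [Subgroup.closure_le]
    intro t ht
    show ∀ f, t * f * t⁻¹ ∈ θ ∩ θ' ↔ f ∈ θ ∩ θ'
    intro f
    constructor
    · intro h
      have h2 := hstep t ht.1 ht.2 _ h
      have htt := tt_mul_self hD1 ht.1
      have e : t * (t * f * t⁻¹) * t⁻¹ = f := by
        calc t * (t * f * t⁻¹) * t⁻¹ = (t * t) * f * (t * t)⁻¹ := by group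
          _ = f := by rw [htt, inv_one, one_mul, mul_one]
      rw [e] at h2
      exact h2
    · exact hstep t ht.1 ht.2 f
  rw [hgenH] at hle
  have hsub : θ ⊆ θ' := by
    intro f hf
    obtain ⟨k, hk, rfl⟩ := hθtr e₀ he₀ f hf
    have hk' : ∀ f, k * f * k⁻¹ ∈ θ ∩ θ' ↔ f ∈ θ ∩ θ' := hle hk
    exact ((hk' e₀).mpr ⟨he₀, he₀'⟩).2
  have heq : θ = θ' := Set.eq_of_subset_of_ncard_le hsub hcard (Set.toFinite θ')
  rw [← heq] at hvθ'
  exact hnc v hvθ' hv

/-- in a primitive 3-transposition group with connected commuting graph, the subgroup generated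
by the commuting partners of `d` is a maximal `D`-subgroup -/
theorem tt_max_dsub [Finite G] {D : Set G} (hD1 : Cfsg.IsThreeTranspositionSet D)
    (hconj : ∀ g : G, ∀ x ∈ D, g * x * g⁻¹ ∈ D) (hgen : Subgroup.closure D = ⊤)
    (hprim : Cfsg.IsPrimitiveUnderConj D)
    (hconn : (Cfsg.commutingGraph D).Connected)
    {d : G} (hd : d ∈ D) (H : Subgroup G) (hHD : Cfsg.IsDSubgroup D H)
    (hMH : Subgroup.closure {y : G | y ∈ D ∧ Commute d y} ≤ H)
    (hne : H ≠ Subgroup.closure {y : G | y ∈ D ∧ Commute d y}) : H = ⊤ := by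
  obtain ⟨htrans, hD2, hblocks⟩ := hprim
  have hHD' : Subgroup.closure {y : G | y ∈ D ∧ y ∈ H} = H := hHD
  have hdH : d ∈ H := hMH (Subgroup.subset_closure ⟨hd, Commute.refl d⟩)
  have hconj' : ∀ g : G, ∀ x ∈ D, g⁻¹ * x * g ∈ D := by
    intro g x hx
    have := hconj g⁻¹ x hx
    rwa [inv_inv] at this
  obtain ⟨x, hxD, hxH, hxd⟩ : ∃ x, x ∈ D ∧ x ∈ H ∧ ¬ Commute d x := by
    by_contra hcon
    push Not at hcon
    apply hne
    apply le_antisymm _ hMH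
    calc H = Subgroup.closure {y : G | y ∈ D ∧ y ∈ H} := hHD'.symm
      _ ≤ Subgroup.closure {y : G | y ∈ D ∧ Commute d y} :=
        Subgroup.closure_mono (fun y hy => ⟨hy.1, hcon y hy.1 hy.2⟩)
  obtain ⟨θ, hθ⟩ : ∃ θ : Set G, θ = {e | ∃ k ∈ H, e = k * d * k⁻¹} := ⟨_, rfl⟩
  have hθm : ∀ e, e ∈ θ ↔ ∃ k ∈ H, e = k * d * k⁻¹ := by
    intro e; rw [hθ]; exact Iff.rfl
  have hdθ : d ∈ θ := (hθm d).mpr ⟨1, H.one_mem, by group⟩
  have hθD : θ ⊆ D := by
    intro e he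
    obtain ⟨k, hk, rfl⟩ := (hθm e).mp he
    exact hconj k d hd
  have hθH : ∀ e ∈ θ, e ∈ H := by
    intro e he
    obtain ⟨k, hk, rfl⟩ := (hθm e).mp he
    exact H.mul_mem (H.mul_mem hk hdH) (H.inv_mem hk)
  have hθinv : ∀ k ∈ H, ∀ f ∈ θ, k * f * k⁻¹ ∈ θ := by
    intro k hk f hf
    obtain ⟨k', hk', rfl⟩ := (hθm f).mp hf
    exact (hθm _).mpr ⟨k * k', H.mul_mem hk hk', by group⟩
  have hθtr : ∀ e ∈ θ, ∀ f ∈ θ, ∃ k ∈ H, f = k * e * k⁻¹ := by
    intro e he f hf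
    obtain ⟨k₁, hk₁, rfl⟩ := (hθm e).mp he
    obtain ⟨k₂, hk₂, rfl⟩ := (hθm f).mp hf
    exact ⟨k₂ * k₁⁻¹, H.mul_mem hk₂ (H.inv_mem hk₁), by group⟩
  have hP1 : ∀ e ∈ θ, ∀ v ∈ D, Commute e v → v ∈ H := by
    intro e he v hv hc
    obtain ⟨k, hk, rfl⟩ := (hθm e).mp he
    have hv' : k⁻¹ * v * k ∈ D := hconj' k v hv
    have hc' : Commute d (k⁻¹ * v * k) := by
      have h1 : (k * d * k⁻¹) * v = v * (k * d * k⁻¹) := hc.eq
      show d * (k⁻¹ * v * k) = (k⁻¹ * v * k) * d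
      calc d * (k⁻¹ * v * k) = k⁻¹ * ((k * d * k⁻¹) * v) * k := by group
        _ = k⁻¹ * (v * (k * d * k⁻¹)) * k := by rw [h1]
        _ = (k⁻¹ * v * k) * d := by group
    have hmem : k⁻¹ * v * k ∈ H := hMH (Subgroup.subset_closure ⟨hv', hc'⟩)
    have e : v = k * (k⁻¹ * v * k) * k⁻¹ := by group
    rw [e]
    exact H.mul_mem (H.mul_mem hk hmem) (H.inv_mem hk)
  have hP2 : ∀ y ∈ D, y ∈ H → ∀ e ∈ θ, ¬ Commute e y → y ∈ θ := by
    intro y hy hyH e he hnc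
    have heD := hθD he
    have h3 := tt_cube hD1 heD hy hnc
    have hcp := tt_conj_prod (tt_mul_self hD1 heD) (tt_mul_self hD1 hy) h3
    have := hθinv (e * y) (H.mul_mem (hθH e he) hyH) e he
    rw [hcp] at this
    exact this
  have hP2neg : ∀ t ∈ D, t ∈ H → t ∉ θ → ∀ e ∈ θ, Commute e t :=
    fun t ht htH htθ e he => by_contra (fun h => htθ (hP2 t ht htH e he h))
  have hxθ : x ∈ θ := hP2 x hxD hxH d hdθ hxd
  have hncθ : ∀ v ∈ θ, ¬ (∀ e ∈ θ, Commute e v) := by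
    intro v hv hall
    obtain ⟨k, hk, rfl⟩ := (hθm v).mp hv
    have h1 := (hall _ (hθinv k hk x hxθ)).eq
    apply hxd
    show d * x = x * d
    calc d * x = k⁻¹ * ((k * d * k⁻¹) * (k * x * k⁻¹)) * k := by group
      _ = k⁻¹ * ((k * x * k⁻¹) * (k * d * k⁻¹)) * k := by rw [h1]
      _ = x * d := by group
  -- every member of `D` in `H` is conjugate to `d` in `H`
  have hallθ : ∀ c ∈ D, c ∈ H → c ∈ θ := by
    intro c hcD hcH
    by_contra hcθ
    obtain ⟨C, hC⟩ : ∃ C : Set G, C = {v | v ∈ D ∧ ∀ e ∈ θ, Commute e v} := ⟨_, rfl⟩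
    have hCm : ∀ v, v ∈ C ↔ (v ∈ D ∧ ∀ e ∈ θ, Commute e v) := by
      intro v; rw [hC]; exact Iff.rfl
    have hcC : c ∈ C := (hCm c).mpr ⟨hcD, hP2neg c hcD hcH hcθ⟩
    have hstar : ∀ g p, p ∈ θ → p ∈ ttConjSet θ g → ttConjSet C g = C := by
      intro g p hp hpg
      symm
      apply Set.eq_of_subset_of_ncard_le _ (ttConjSet_ncard_le C g) (Set.toFinite _)
      intro v hv
      obtain ⟨hvD, hvc⟩ := (hCm v).mp hv
      have hP1' : ∀ e ∈ ttConjSet θ g, ∀ w ∈ D, Commute e w → w ∈ {k | g⁻¹ * k * g ∈ H} := by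
        intro e he w hw hc
        show g⁻¹ * w * g ∈ H
        have he' : g⁻¹ * e * g ∈ θ := he
        have hc' : Commute (g⁻¹ * e * g) (g⁻¹ * w * g) := by
          have h := (Commute.conj_iff g⁻¹).mpr hc
          rwa [inv_inv] at h
        exact hP1 _ he' _ (hconj' g w hw) hc'
      have hP2' : ∀ y ∈ D, y ∈ {k | g⁻¹ * k * g ∈ H} → ∀ e ∈ ttConjSet θ g,
          ¬ Commute e y → y ∈ ttConjSet θ g := by
        intro y hy hyH e he hnc
        show g⁻¹ * y * g ∈ θ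
        have he' : g⁻¹ * e * g ∈ θ := he
        have hyH' : g⁻¹ * y * g ∈ H := hyH
        apply hP2 _ (hconj' g y hy) hyH' (g⁻¹ * e * g) he'
        intro hc
        apply hnc
        have h := (Commute.conj_iff g).mpr hc
        have e1 : g * (g⁻¹ * e * g) * g⁻¹ = e := by group
        have e2 : g * (g⁻¹ * y * g) * g⁻¹ = y := by group
        rw [e1, e2] at h
        exact h
      have hθinv' : ∀ k ∈ {k | g⁻¹ * k * g ∈ H}, ∀ f ∈ ttConjSet θ g,
          k * f * k⁻¹ ∈ ttConjSet θ g := by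
        intro k hk f hf
        show g⁻¹ * (k * f * k⁻¹) * g ∈ θ
        have hk' : g⁻¹ * k * g ∈ H := hk
        have hf' : g⁻¹ * f * g ∈ θ := hf
        have e1 : g⁻¹ * (k * f * k⁻¹) * g
            = (g⁻¹ * k * g) * (g⁻¹ * f * g) * (g⁻¹ * k * g)⁻¹ := by group
        rw [e1]
        exact hθinv _ hk' _ hf'
      have key := tt_sys_sub hD1 H θ hθD hHD' hP2neg hθinv hθtr hncθ
        {k | g⁻¹ * k * g ∈ H} (ttConjSet θ g) hP1' hP2' hθinv' (ttConjSet_ncard_le θ g)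
        hp hpg hvD hvc
      show g⁻¹ * v * g ∈ C
      refine (hCm _).mpr ⟨hconj' g v hvD, ?_⟩
      intro e he
      have hmem : g * e * g⁻¹ ∈ ttConjSet θ g := by
        show g⁻¹ * (g * e * g⁻¹) * g ∈ θ
        have e1 : g⁻¹ * (g * e * g⁻¹) * g = e := by group
        rw [e1]; exact he
      have hc := key _ hmem
      have h := (Commute.conj_iff g⁻¹).mpr hc
      rw [inv_inv] at h
      have e1 : g⁻¹ * (g * e * g⁻¹) * g = e := by group
      rw [e1] at h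
      exact h
    obtain ⟨R, hR⟩ : ∃ R : G → G → Prop, R = fun p q => ∃ g₁ g₂ : G,
        p ∈ ttConjSet θ g₁ ∧ q ∈ ttConjSet θ g₂ ∧ ttConjSet C g₁ = ttConjSet C g₂ := ⟨_, rfl⟩
    have hRm : ∀ p q, R p q ↔ ∃ g₁ g₂ : G,
        p ∈ ttConjSet θ g₁ ∧ q ∈ ttConjSet θ g₂ ∧ ttConjSet C g₁ = ttConjSet C g₂ := by
      intro p q; rw [hR]
    have hRsymm : ∀ p q, R p q → R q p := by
      intro p q h
      obtain ⟨g₁, g₂, hp, hq, h12⟩ := (hRm p q).mp h
      exact (hRm q p).mpr ⟨g₂, g₁, hq, hp, h12.symm⟩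
    have hRtrans : ∀ p q r, R p q → R q r → R p r := by
      intro p q r h1 h2
      obtain ⟨g₁, g₂, hp, hq, h12⟩ := (hRm p q).mp h1
      obtain ⟨g₃, g₄, hq', hr, h34⟩ := (hRm q r).mp h2
      have hq0 : g₂⁻¹ * q * g₂ ∈ θ := hq
      have hq1 : g₂⁻¹ * q * g₂ ∈ ttConjSet θ (g₂⁻¹ * g₃) := by
        show (g₂⁻¹ * g₃)⁻¹ * (g₂⁻¹ * q * g₂) * (g₂⁻¹ * g₃) ∈ θ
        have e1 : (g₂⁻¹ * g₃)⁻¹ * (g₂⁻¹ * q * g₂) * (g₂⁻¹ * g₃) = g₃⁻¹ * q * g₃ := by group
        rw [e1]; exact hq'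
      have h5 := hstar _ _ hq0 hq1
      have h23 : ttConjSet C g₂ = ttConjSet C g₃ := by
        have h6 := ttConjSet_mul C (g₂⁻¹ * g₃) g₂
        rw [h5, mul_inv_cancel_left] at h6
        exact h6
      exact (hRm p r).mpr ⟨g₁, g₄, hp, hr, h12.trans (h23.trans h34)⟩
    have hRconj : ∀ g p q, R p q → R (g * p * g⁻¹) (g * q * g⁻¹) := by
      intro g p q h
      obtain ⟨g₁, g₂, hp, hq, h12⟩ := (hRm p q).mp h
      refine (hRm _ _).mpr ⟨g * g₁, g * g₂, ?_, ?_, ?_⟩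
      · show (g * g₁)⁻¹ * (g * p * g⁻¹) * (g * g₁) ∈ θ
        have e1 : (g * g₁)⁻¹ * (g * p * g⁻¹) * (g * g₁) = g₁⁻¹ * p * g₁ := by group
        rw [e1]; exact hp
      · show (g * g₂)⁻¹ * (g * q * g⁻¹) * (g * g₂) ∈ θ
        have e1 : (g * g₂)⁻¹ * (g * q * g⁻¹) * (g * g₂) = g₂⁻¹ * q * g₂ := by group
        rw [e1]; exact hq
      · rw [← ttConjSet_mul, ← ttConjSet_mul, h12]
    have hone : ∀ p, p ∈ θ → p ∈ ttConjSet θ 1 := by
      intro p hp
      show (1 : G)⁻¹ * p * 1 ∈ θ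
      rw [inv_one, one_mul, mul_one]; exact hp
    have hBD : {y | R d y} ⊆ D := by
      intro q hq
      have hq' : R d q := hq
      obtain ⟨g₁, g₂, _, hq2, _⟩ := (hRm d q).mp hq'
      have hq3 : g₂⁻¹ * q * g₂ ∈ θ := hq2
      have := hconj g₂ _ (hθD hq3)
      have e1 : g₂ * (g₂⁻¹ * q * g₂) * g₂⁻¹ = q := by group
      rw [e1] at this
      exact this
    have hdB : d ∈ {y | R d y} := (hRm d d).mpr ⟨1, 1, hone d hdθ, hone d hdθ, rfl⟩
    have hxB : x ∈ {y | R d y} := (hRm d x).mpr ⟨1, 1, hone d hdθ, hone x hxθ, rfl⟩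
    rcases hblocks _ hBD (tt_block_of_rel R hRsymm hRtrans hRconj d) with hsub | hBeq
    · have hdx : d = x := hsub hdB hxB
      apply hxd
      rw [← hdx]
    · apply tt_not_all_comm htrans hgen hD2 hcD
      intro q hq
      have hq' : q ∈ {y | R d y} := by rw [hBeq]; exact hq
      have hq'' : R d q := hq'
      obtain ⟨g₁, g₂, hd1, hq2, h12⟩ := (hRm d q).mp hq''
      have h5 := hstar g₁ d hdθ hd1
      rw [h5] at h12
      have hc2 : c ∈ ttConjSet C g₂ := by rw [← h12]; exact hcC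
      have hc3 : g₂⁻¹ * c * g₂ ∈ C := hc2
      have hq3 : g₂⁻¹ * q * g₂ ∈ θ := hq2
      have hcomm := ((hCm _).mp hc3).2 _ hq3
      have h := (Commute.conj_iff g₂).mpr hcomm
      have e1 : g₂ * (g₂⁻¹ * q * g₂) * g₂⁻¹ = q := by group
      have e2 : g₂ * (g₂⁻¹ * c * g₂) * g₂⁻¹ = c := by group
      rw [e1, e2] at h
      exact h.eq
  -- all of `D` lies in `H`
  have hDH : ∀ q : D, Relation.ReflTransGen (Cfsg.commutingGraph D).Adj ⟨d, hd⟩ q →
      (q : G) ∈ H := by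
    intro q hq
    induction hq with
    | refl => exact hdH
    | @tail u v _ huv ih =>
      unfold Cfsg.commutingGraph at huv
      rw [SimpleGraph.fromRel_adj] at huv
      have huθ : (u : G) ∈ θ := hallθ u u.2 ih
      have hc : Commute (u : G) (v : G) := by
        rcases huv.2 with h | h
        · exact h
        · have h' : Commute (v : G) (u : G) := h
          exact h'.symm
      exact hP1 u huθ v v.2 hc
  have hle : Subgroup.closure D ≤ H := by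
    rw [Subgroup.closure_le]
    intro q hq
    have hr : (Cfsg.commutingGraph D).Reachable ⟨d, hd⟩ ⟨q, hq⟩ := hconn.preconnected _ _
    rw [SimpleGraph.reachable_iff_reflTransGen] at hr
    exact hDH ⟨q, hq⟩ hr
  rw [hgen] at hle
  exact top_le_iff.mp hle

/-- S5354 modulo the statements of S5561 and S0144 -/
theorem tt_prim_struct
    (h5561 : ∀ (H : Type u) [Group H] [Finite H] (d : H), orderOf d = 2 →
      (∀ a ∈ conjugatesOf d, ∀ b ∈ conjugatesOf d, ∃ k : ℕ, orderOf (a * b) = 3 ^ k) →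
      ∀ a ∈ conjugatesOf d, ∀ b ∈ conjugatesOf d, a * b ∈ Cfsg.pCore 3 H)
    (h144 : ∀ (H : Type u) [Group H] [Finite H] (p q a b : ℕ), p.Prime → q.Prime →
      Nat.card H = p ^ a * q ^ b → Group.IsSolvable H)
    [Finite G] {D : Set G} (hD : Cfsg.IsThreeTranspositionGroup D)
    (hprim : Cfsg.IsPrimitiveUnderConj D) (hw : ∃ a ∈ D, ∃ b ∈ D, a ≠ b ∧ Commute a b) :
    (∃ L : Subgroup G, L.Normal ∧ Cfsg.IsQuasisimple L ∧ L.index ≤ 2 ∧
        Cfsg.generalizedFittingSubgroup G = L ⊔ Subgroup.center G) ∧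
      (Cfsg.commutingGraph D).Connected ∧
      ∀ d ∈ D, Subgroup.closure {y : G | y ∈ D ∧ Commute d y} ≠ ⊤ ∧
        ∀ H : Subgroup G, Cfsg.IsDSubgroup D H →
          Subgroup.closure {y : G | y ∈ D ∧ Commute d y} ≤ H →
          H = Subgroup.closure {y : G | y ∈ D ∧ Commute d y} ∨ H = ⊤ := by
  obtain ⟨hD1, hconj, hgen⟩ := hD
  have hprim' := hprim
  obtain ⟨htrans, hD2, hblocks⟩ := hprim'
  have hw' := hw
  obtain ⟨a, ha, b, hb, hab, hcab⟩ := hw'
  have hcls : D = conjugatesOf a := by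
    ext y
    constructor
    · intro hy
      obtain ⟨g, hg⟩ := htrans a ha y hy
      show IsConj a y
      exact isConj_iff.mpr ⟨g, hg⟩
    · intro hy
      have hy' : IsConj a y := hy
      obtain ⟨g, hg⟩ := isConj_iff.mp hy'
      rw [← hg]; exact hconj g a ha
  have hDcls : Cfsg.IsThreeTranspositionClass D := ⟨hD1, ⟨a, ha, hcls⟩, hgen⟩
  have hconn := tt_prim_connected hconj hprim hw
  have h2 : Cfsg.pCore 2 G ≤ Subgroup.center G :=
    tt_prim_pcore_central hDcls hprim (Cfsg.Agent.Helper16.pCore_normal 2 G)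
      (fun hall => tt_no_prods_two' hD1 htrans hgen hD2
        (Cfsg.Agent.Helper16.pCore_isPGroup 2 G) hall)
  have h3 : Cfsg.pCore 3 G ≤ Subgroup.center G :=
    tt_prim_pcore_central hDcls hprim (Cfsg.Agent.Helper16.pCore_normal 3 G)
      (fun hall => tt_no_prods_three hD1 (Cfsg.Agent.Helper16.pCore_isPGroup 3 G) hw hall)
  obtain ⟨L, hLn, hLq, hF, _⟩ := tt_quasi h5561 h144 hDcls hD2 h2 h3
  refine ⟨⟨L, hLn, hLq, tt_index_of_connected hDcls hLn hLq hconn, hF⟩, hconn, ?_⟩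
  intro d hd
  constructor
  · intro htop
    have hle : Subgroup.closure {y : G | y ∈ D ∧ Commute d y}
        ≤ Subgroup.centralizer ({d} : Set G) := by
      rw [Subgroup.closure_le]
      intro y hy
      rw [SetLike.mem_coe, Subgroup.mem_centralizer_iff]
      intro z hz
      rw [Set.mem_singleton_iff] at hz
      rw [hz]
      exact hy.2.eq
    rw [htop] at hle
    apply tt_not_all_comm htrans hgen hD2 hd
    intro x _
    exact (Subgroup.mem_centralizer_iff.mp (hle (Subgroup.mem_top x)) d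
      (Set.mem_singleton d)).symm
  · intro H hHD hMH
    by_cases hne : H = Subgroup.closure {y : G | y ∈ D ∧ Commute d y}
    · exact Or.inl hne
    · exact Or.inr (tt_max_dsub hD1 hconj hgen hprim hconn hd H hHD hMH hne)

end tt6

end Cfsg.Agent.Helper4
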