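import Mathlib
import Cfsg.Agent.Helper4.CoreFree

set_option autoImplicit false

namespace Cfsg.Agent.Helper4

open scoped Pointwise

/-- Two subgroups with the same join with a normal subgroup `N`, both meeting `N` trivially,
are isomorphic. -/
theorem nonempty_mulEquiv_of_common_normal_complement {G : Type*} [Group G]
    (X Y N : Subgroup G) [hNn : N.Normal] (hX : X ⊓ N = ⊥) (hY : Y ⊓ N = ⊥)
    (hXY : X ⊔ N = Y ⊔ N) : Nonempty (X ≃* Y) := by
  have inj : ∀ Z : Subgroup G, Z ⊓ N = ⊥ →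
      Function.Injective ((QuotientGroup.mk' N).comp Z.subtype) := by
    intro Z hZ
    rw [injective_iff_map_eq_one]
    intro z hz
    have h1 : (z : G) ∈ N := (QuotientGroup.eq_one_iff (z : G)).mp hz
    have h2 : (z : G) ∈ Z ⊓ N := Subgroup.mem_inf.mpr ⟨z.2, h1⟩
    rw [hZ, Subgroup.mem_bot] at h2
    exact Subtype.ext h2
  have sub : ∀ Z₁ Z₂ : Subgroup G, Z₁ ⊔ N = Z₂ ⊔ N →
      ((QuotientGroup.mk' N).comp Z₁.subtype).range ≤
        ((QuotientGroup.mk' N).comp Z₂.subtype).range := by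
    intro Z₁ Z₂ h x hx
    obtain ⟨z, rfl⟩ := MonoidHom.mem_range.mp hx
    have h1 : (z : G) ∈ Z₂ ⊔ N := by rw [← h]; exact Subgroup.mem_sup_left z.2
    obtain ⟨y, hy, n, hn, hyn⟩ := Subgroup.mem_sup_of_normal_right.mp h1
    refine MonoidHom.mem_range.mpr ⟨⟨y, hy⟩, ?_⟩
    show QuotientGroup.mk' N y = QuotientGroup.mk' N (z : G)
    have hn1 : QuotientGroup.mk' N n = 1 := (QuotientGroup.eq_one_iff n).mpr hn
    rw [← hyn, map_mul, hn1, mul_one]
  have hrange : ((QuotientGroup.mk' N).comp X.subtype).range =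
      ((QuotientGroup.mk' N).comp Y.subtype).range :=
    le_antisymm (sub X Y hXY) (sub Y X hXY.symm)
  exact ⟨(MonoidHom.ofInjective (inj X hX)).trans
    ((MulEquiv.subgroupCongr hrange).trans (MonoidHom.ofInjective (inj Y hY)).symm)⟩

/-- S0550: two distinct minimal normal subgroups of a group with a core-free maximal
subgroup. -/
theorem two_minNormal_of_coreFree {G : Type*} [Group G] [Finite G] (U : Subgroup G)
    (hU : IsCoatom U) (hcore : U.normalCore = ⊥) (A B : Subgroup G) [hAn : A.Normal]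
    [hBn : B.Normal] (hA : A ≠ ⊥) (hB : B ≠ ⊥)
    (hAmin : ∀ K : Subgroup G, K.Normal → K ≤ A → K = ⊥ ∨ K = A)
    (hBmin : ∀ K : Subgroup G, K.Normal → K ≤ B → K = ⊥ ∨ K = B) (hAB : A ≠ B) :
    Subgroup.centralizer (B : Set G) = A ∧ Subgroup.centralizer (A : Set G) = B ∧
    Subgroup.IsComplement' A U ∧ Subgroup.IsComplement' B U ∧ ¬ IsMulCommutative A ∧
    Nonempty (A ≃* B) ∧ Nonempty (A ≃* ↥((A ⊔ B) ⊓ U)) := by
  have hdis : A ⊓ B = ⊥ := by
    have hn : (A ⊓ B).Normal := inferInstance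
    rcases hAmin _ hn inf_le_left with h | h
    · exact h
    · exfalso
      have hle : A ≤ B := by rw [← h]; exact inf_le_right
      rcases hBmin A hAn hle with h' | h'
      · exact hA h'
      · exact hAB h'
  have hcomm : ∀ a ∈ A, ∀ b ∈ B, a * b = b * a := fun a ha b hb =>
    Subgroup.commute_of_normal_of_disjoint A B hAn hBn (disjoint_iff.mpr hdis) a b ha hb
  have hBC : B ≤ Subgroup.centralizer (A : Set G) := by
    intro b hb
    rw [Subgroup.mem_centralizer_iff]
    intro a ha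
    exact hcomm a ha b hb
  have hAC : A ≤ Subgroup.centralizer (B : Set G) := by
    intro a ha
    rw [Subgroup.mem_centralizer_iff]
    intro b hb
    exact (hcomm a ha b hb).symm
  have hCA : B = Subgroup.centralizer (A : Set G) :=
    centralizer_minimal_of_coreFree_coatom U hU hcore A hA B hBn hBC hB
  have hCB : A = Subgroup.centralizer (B : Set G) :=
    centralizer_minimal_of_coreFree_coatom U hU hcore B hB A hAn hAC hA
  have hAU : A ⊓ U = ⊥ := by
    have h1 := centralizer_inf_eq_bot_of_coreFree_coatom U hU hcore B hB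
    rwa [← hCB] at h1
  have hBU : B ⊓ U = ⊥ := by
    have h1 := centralizer_inf_eq_bot_of_coreFree_coatom U hU hcore A hA
    rwa [← hCA] at h1
  have compl : ∀ (N : Subgroup G), N.Normal → N ≠ ⊥ → N ⊓ U = ⊥ → Subgroup.IsComplement' N U := by
    intro N hNn hN0 hNU
    apply Subgroup.isComplement'_of_disjoint_and_mul_eq_univ (disjoint_iff.mpr hNU)
    apply Set.eq_univ_of_forall
    intro g
    obtain ⟨k, hk, u, hu, rfl⟩ := exists_mul_of_coreFree_coatom U hU hcore N hNn hN0 g
    exact Set.mul_mem_mul hk hu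
  have hnab : ¬ IsMulCommutative A := by
    intro hc
    apply hA
    rw [eq_bot_iff, ← hdis]
    intro a ha
    refine Subgroup.mem_inf.mpr ⟨ha, ?_⟩
    rw [hCA, Subgroup.mem_centralizer_iff]
    intro a' ha'
    exact congrArg Subtype.val (mul_comm' (⟨a', ha'⟩ : A) ⟨a, ha⟩)
  obtain ⟨D, hD⟩ : ∃ D : Subgroup G, D = (A ⊔ B) ⊓ U := ⟨_, rfl⟩
  have hDle : D ≤ A ⊔ B := by rw [hD]; exact inf_le_left
  have hDU : D ≤ U := by rw [hD]; exact inf_le_right
  have hDA : D ⊓ A = ⊥ := by
    rw [eq_bot_iff, ← hAU]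
    exact fun x hx =>
      Subgroup.mem_inf.mpr ⟨(Subgroup.mem_inf.mp hx).2, hDU (Subgroup.mem_inf.mp hx).1⟩
  have hDB : D ⊓ B = ⊥ := by
    rw [eq_bot_iff, ← hBU]
    exact fun x hx =>
      Subgroup.mem_inf.mpr ⟨(Subgroup.mem_inf.mp hx).2, hDU (Subgroup.mem_inf.mp hx).1⟩
  have hDsupB : A ⊔ B = D ⊔ B := by
    apply le_antisymm
    · apply sup_le _ le_sup_right
      intro a ha
      obtain ⟨b, hb, u, hu, hbu⟩ := exists_mul_of_coreFree_coatom U hU hcore B hBn hB a
      have huD : u ∈ D := by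
        rw [hD]
        refine Subgroup.mem_inf.mpr ⟨?_, hu⟩
        have e : u = b⁻¹ * a := by rw [← hbu]; group
        rw [e]
        exact Subgroup.mul_mem _ (Subgroup.inv_mem _ (Subgroup.mem_sup_right hb))
          (Subgroup.mem_sup_left ha)
      rw [← hbu]
      exact Subgroup.mul_mem _ (Subgroup.mem_sup_right hb) (Subgroup.mem_sup_left huD)
    · exact sup_le hDle le_sup_right
  have hDsupA : B ⊔ A = D ⊔ A := by
    apply le_antisymm
    · apply sup_le _ le_sup_right
      intro b hb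
      obtain ⟨a, ha, u, hu, hau⟩ := exists_mul_of_coreFree_coatom U hU hcore A hAn hA b
      have huD : u ∈ D := by
        rw [hD]
        refine Subgroup.mem_inf.mpr ⟨?_, hu⟩
        have e : u = a⁻¹ * b := by rw [← hau]; group
        rw [e]
        exact Subgroup.mul_mem _ (Subgroup.inv_mem _ (Subgroup.mem_sup_left ha))
          (Subgroup.mem_sup_right hb)
      rw [← hau]
      exact Subgroup.mul_mem _ (Subgroup.mem_sup_right ha) (Subgroup.mem_sup_left huD)
    · rw [sup_comm B A]; exact sup_le hDle le_sup_left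
  obtain ⟨e1⟩ := nonempty_mulEquiv_of_common_normal_complement A D B hdis hDB hDsupB
  obtain ⟨e2⟩ := nonempty_mulEquiv_of_common_normal_complement B D A
    (by rw [inf_comm]; exact hdis) hDA hDsupA
  refine ⟨hCB.symm, hCA.symm, compl A hAn hA hAU, compl B hBn hB hBU, hnab,
    ⟨e1.trans e2.symm⟩, ?_⟩
  rw [← hD]
  exact ⟨e1⟩

end Cfsg.Agent.Helper4
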